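import Mathlib
import Cfsg.Agent.Lib.Helper16.BRStmt2
import Cfsg.Agent.Lib.Helper16.BRCore
import Cfsg.Agent.Lib.Helper91.BRDEG
import Cfsg.Agent.Lib.Helper87.BRMS
import Cfsg.Agent.Lib.CT.Wedderburn

/-!
Piece [DEGA] of S0996 (Brauer, `n < (p + 3) / 2`): a non-trivial irreducible character with
value `1` on `P \ {1}` has degree `1 + n p`.
-/

set_option autoImplicit false

namespace Cfsg.Agent.Lib.Helper78.BGDEGA

open Cfsg Cfsg.Agent.Lib.CT.ThirdMain Cfsg.Agent.Lib.Helper16.BRSpec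
  Cfsg.Agent.Lib.CT.Wedderburn Cfsg.Agent.Lib.Helper87.BRMS
open scoped ComplexConjugate

universe u

/-- The arithmetic step: `1 + u p ∣ (p - 1) (1 + n p)` with `1 ≤ u ≤ n ≤ (p + 1) / 2` forces
`u = n`. -/
theorem arithF (p u n : ℕ) (hp : 3 ≤ p) (hu : 1 ≤ u) (hun : u ≤ n) (hn : 2 * n ≤ p + 1)
    (h : (1 + u * p) ∣ (p - 1) * (1 + n * p)) : u = n := by
  by_contra hne
  have hlt : u < n := lt_of_le_of_ne hun hne
  have hZ : ((1 + u * p : ℕ) : ℤ) ∣ (((p - 1) * (1 + n * p) : ℕ) : ℤ) :=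
    Int.natCast_dvd_natCast.mpr h
  have hcast : (((p - 1) * (1 + n * p) : ℕ) : ℤ) = ((p : ℤ) - 1) * (1 + (n : ℤ) * (p : ℤ)) := by
    rw [Nat.cast_mul, Nat.cast_sub (by omega : 1 ≤ p)]
    push_cast
    ring
  rw [hcast] at hZ
  have hD : ((1 + u * p : ℕ) : ℤ) = 1 + (u : ℤ) * (p : ℤ) := by push_cast; ring
  rw [hD] at hZ
  have h1 : (1 + (u : ℤ) * (p : ℤ)) ∣ ((u : ℤ) + 1) * ((n : ℤ) - (u : ℤ)) := by
    have e1 : ((u : ℤ) + 1) * ((n : ℤ) - (u : ℤ)) =
        (u : ℤ) ^ 2 * (((p : ℤ) - 1) * (1 + (n : ℤ) * (p : ℤ))) -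
          (1 + (u : ℤ) * (p : ℤ)) * ((n : ℤ) * (u : ℤ) * (p : ℤ) + (u : ℤ) - (n : ℤ) * (u : ℤ)
            - (n : ℤ)) := by ring
    rw [e1]
    exact dvd_sub (Dvd.dvd.mul_left hZ _) (dvd_mul_right _ _)
  have hpos : (0 : ℤ) < ((u : ℤ) + 1) * ((n : ℤ) - (u : ℤ)) := by
    have : (0 : ℤ) < (n : ℤ) - (u : ℤ) := by
      have : (u : ℤ) < (n : ℤ) := by exact_mod_cast hlt
      linarith
    positivity
  have hle := Int.le_of_dvd hpos h1
  have hu' : (1 : ℤ) ≤ (u : ℤ) := by exact_mod_cast hu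
  have hn' : 2 * (n : ℤ) ≤ (p : ℤ) + 1 := by exact_mod_cast hn
  have hp' : (3 : ℤ) ≤ (p : ℤ) := by exact_mod_cast hp
  nlinarith [mul_nonneg (by linarith : (0 : ℤ) ≤ (u : ℤ) + 1)
    (by linarith : (0 : ℤ) ≤ (p : ℤ) + 1 - 2 * (n : ℤ)),
    mul_nonneg (by linarith : (0 : ℤ) ≤ (p : ℤ)) (by linarith : (0 : ℤ) ≤ (u : ℤ) - 1),
    mul_nonneg (by linarith : (0 : ℤ) ≤ (u : ℤ)) (by linarith : (0 : ℤ) ≤ (u : ℤ))]

theorem main : Cfsg.Agent.Lib.Helper16.BRStmt2.DegA.{u} := by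
  intro G _ _ hperf p _ P hP hC e n hN hedvd hidx h2n hp3 y ω mult hR χ hχt hχ1
  classical
  have hp : p.Prime := Fact.out
  have : Finite (IrrCharacter G) := finite_irrCharacter G
  let _ : Fintype (IrrCharacter G) := Fintype.ofFinite _
  have hd : ∀ χ : IrrCharacter G, (χ : G → ℂ) 1 = (charDegree (χ : G → ℂ) : ℂ) := fun χ =>
    (char_natCast_charDegree (isCharacter_of_irr χ.2)).symm
  have hdpos : 0 < charDegree (χ : G → ℂ) :=
    Cfsg.Agent.Lib.Helper80.Integrality.charDegree_pos χ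
  -- the row sum
  obtain ⟨s, hs⟩ : ∃ s : ℕ, s = ∑ i ∈ Finset.range e, mult χ i := ⟨_, rfl⟩
  have hr2 : ((p * s : ℕ) : ℂ) =
      (χ : G → ℂ) 1 + ∑ᶠ z ∈ (((P : Subgroup G) : Set G) \ {1}), (χ : G → ℂ) z := by
    rw [← finsum_P_split, ← hR.r2 χ, hs]
    push_cast
    ring
  rw [finsum_P_const (P : Subgroup G) _ 1 hχ1, hP, hd χ] at hr2
  have hr2' : p * s = charDegree (χ : G → ℂ) + (p - 1) := by
    have h' : ((p * s : ℕ) : ℂ) = ((charDegree (χ : G → ℂ) + (p - 1) : ℕ) : ℂ) := by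
      rw [hr2]; push_cast; ring
    exact Nat.cast_injective h'
  have hs1 : 1 ≤ s := by
    by_contra hs0
    have : s = 0 := by omega
    rw [this, Nat.mul_zero] at hr2'
    omega
  obtain ⟨w, hw⟩ : ∃ w, s = w + 1 := ⟨s - 1, by omega⟩
  have hdeg : charDegree (χ : G → ℂ) = 1 + w * p := by
    rw [hw] at hr2'
    have : p * (w + 1) = w * p + p := by ring
    have := hp.pos
    omega
  -- `w ≠ 0`
  have hw1 : 1 ≤ w := by
    by_contra hw0
    have hw0' : w = 0 := by omega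
    rw [hw0', Nat.zero_mul] at hdeg
    exact hχt (Cfsg.Agent.Lib.Helper16.BRCore.eq_triv_of_degree_one hperf χ hdeg)
  -- `w ≤ n`
  have hex : ∃ i ∈ Finset.range e, mult χ i ≠ 0 := by
    by_contra hcon
    push Not at hcon
    rw [Finset.sum_eq_zero hcon] at hs
    omega
  obtain ⟨i, hi, hmi⟩ := hex
  have hR1 : ∑ χ' : IrrCharacter G, mult χ' i * charDegree (χ' : G → ℂ) = 1 + n * p := by
    have h := hR.r1 i (Finset.mem_range.mp hi)
    rw [finsum_eq_sum_of_fintype, hidx] at h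
    have h' : ((∑ χ' : IrrCharacter G, mult χ' i * charDegree (χ' : G → ℂ) : ℕ) : ℂ) =
        ((1 + n * p : ℕ) : ℂ) := by
      rw [← h, Nat.cast_sum]
      apply Finset.sum_congr rfl
      intro χ' _
      rw [Nat.cast_mul, hd χ']
    exact Nat.cast_injective h'
  have hle : charDegree (χ : G → ℂ) ≤ 1 + n * p := by
    have h1 : mult χ i * charDegree (χ : G → ℂ) ≤
        ∑ χ' : IrrCharacter G, mult χ' i * charDegree (χ' : G → ℂ) :=
      Finset.single_le_sum (f := fun χ' : IrrCharacter G => mult χ' i * charDegree (χ' : G → ℂ))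
        (fun _ _ => Nat.zero_le _) (Finset.mem_univ χ)
    have h2 : charDegree (χ : G → ℂ) ≤ mult χ i * charDegree (χ : G → ℂ) :=
      Nat.le_mul_of_pos_left _ (Nat.pos_of_ne_zero hmi)
    omega
  have hwn : w ≤ n := by
    rw [hdeg] at hle
    have h1 : w * p ≤ n * p := by omega
    exact Nat.le_of_mul_le_mul_right h1 hp.pos
  -- divisibility
  obtain ⟨z, hz, hz1⟩ : ∃ z ∈ (P : Subgroup G), z ≠ 1 := by
    by_contra hcon
    push Not at hcon
    have hbot : (P : Subgroup G) = ⊥ := (Subgroup.eq_bot_iff_forall _).mpr hcon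
    rw [hbot] at hP
    simp at hP
    omega
  have hdvd0 := Cfsg.Agent.Lib.Helper91.BRDEG.main G p P hP χ 1 (Or.inl rfl) z hz hz1
    (by rw [hχ1 z hz hz1]; simp)
  have hCidx : (Subgroup.centralizer ((P : Subgroup G) : Set G)).index = e * (1 + n * p) := by
    rw [hC]
    have h1 := Subgroup.card_mul_index (P : Subgroup G)
    have h2 := Subgroup.card_mul_index (Subgroup.normalizer ((P : Subgroup G) : Set G))
    rw [hP] at h1
    rw [hN, hidx] at h2
    have h3 : p * (P : Subgroup G).index = p * (e * (1 + n * p)) := by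
      rw [h1, ← h2]; ring
    exact Nat.eq_of_mul_eq_mul_left hp.pos h3
  rw [hCidx] at hdvd0
  have hdvd : (1 + w * p) ∣ (p - 1) * (1 + n * p) := by
    rw [← hdeg]
    exact hdvd0.trans (Nat.mul_dvd_mul_right hedvd _)
  have hwn' := arithF p w n hp3 hw1 hwn h2n hdvd
  rw [hd χ, hdeg, hwn']

end Cfsg.Agent.Lib.Helper78.BGDEGA
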