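import Mathlib
import Cfsg.Prelude.Def_Blocks

/-!
# Packaged description of the principal block for a self-centralizing Sylow subgroup of prime order

`Pkg p P e X Y εX ε` records Brauer's description of the irreducible characters of a finite group
relative to a Sylow `p`-subgroup `P` of order `p` with `C_G(P) = P` and `|N_G(P) : P| = e`:
the principal block is the disjoint union of the `e` non-exceptional characters `X` and the
`(p - 1) / e` exceptional characters `Y`, and all other characters vanish on `P ∖ 1`.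
-/

set_option autoImplicit false

namespace Cfsg.Agent.Lib.Helper78.PRQDefs

open Cfsg

universe u

/-- Brauer's description of the principal `p`-block (finset form). -/
structure Pkg {G : Type u} [Group G] (p : ℕ) (P : Subgroup G) (e : ℕ)
    (X Y : Finset (IrrCharacter G)) (εX : IrrCharacter G → ℤ) (ε : ℤ) : Prop where
  disj : ∀ χ ∈ X, χ ∉ Y
  cardX : X.card = e
  cardY : Y.card = (p - 1) / e
  triv_mem : ∀ τ : IrrCharacter G, (∀ g : G, (τ : G → ℂ) g = 1) → τ ∈ X ∨ τ ∈ Y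
  signX : ∀ χ ∈ X, εX χ = 1 ∨ εX χ = -1
  degX : ∀ χ ∈ X, (charDegree (χ : G → ℂ) : ℤ) ≡ εX χ [ZMOD p]
  valX : ∀ χ ∈ X, ∀ u : G, u ∈ P → u ≠ 1 → (χ : G → ℂ) u = (εX χ : ℂ)
  sign : ε = 1 ∨ ε = -1
  degY : ∀ θ ∈ Y, (charDegree (θ : G → ℂ) : ℤ) ≡ ε * (e : ℤ) [ZMOD p]
  agreeY : ∀ θ ∈ Y, ∀ θ' ∈ Y, ∀ g : G, ¬ p ∣ orderOf g → (θ : G → ℂ) g = (θ' : G → ℂ) g
  rel : ∀ θ ∈ Y, ∀ g : G, ¬ p ∣ orderOf g →
    (ε : ℂ) * (θ : G → ℂ) g = ∑ χ ∈ X, (εX χ : ℂ) * (χ : G → ℂ) g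
  vanish : ∀ χ : IrrCharacter G, χ ∉ X → χ ∉ Y → ∀ u : G, u ∈ P → u ≠ 1 → (χ : G → ℂ) u = 0

end Cfsg.Agent.Lib.Helper78.PRQDefs
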