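import Mathlib
import Cfsg.Agent.Lib.Helper78.PRQDefs
import Cfsg.Agent.Lib.Helper17.ExcSimple
import Cfsg.Agent.Lib.Helper80.Integrality

/-!
# S0998: first consequences of Brauer's package in a simple group of order `p * r * q ^ b`
-/

set_option autoImplicit false

namespace Cfsg.Agent.Lib.Helper78.PRQC1

open Cfsg Cfsg.Agent.Lib.Helper78.PRQDefs Cfsg.Agent.Lib.CT.Wedderburn
  Cfsg.Agent.Lib.Helper17.ExcMain

universe u

theorem not_isMulCommutative {G : Type u} [Group G] [IsSimpleGroup G] (hG : ¬ IsCyclic G) :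
    ¬ IsMulCommutative G := by
  intro hc
  apply hG
  let _ : CommGroup G := { ‹Group G› with mul_comm := hc.is_comm.comm }
  exact IsSimpleGroup.isCyclic

/-- A nonabelian simple group has only the trivial linear character. -/
theorem triv_of_charDegree_one {G : Type u} [Group G] [Finite G] [IsSimpleGroup G]
    (hG : ¬ IsCyclic G) (χ : IrrCharacter G) (h : charDegree (χ : G → ℂ) = 1) :
    ∀ g : G, (χ : G → ℂ) g = 1 := by
  by_contra hne
  have h1 : χ ≠ trivIrr G := by
    rintro rfl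
    exact hne (fun g => trivIrr_apply G g)
  exact Cfsg.Agent.Lib.Helper17.ExcSimple.charDegree_ne_one (not_isMulCommutative hG) χ h1 h

theorem eq_of_triv {G : Type u} [Group G] (τ τ' : IrrCharacter G)
    (h : ∀ g : G, (τ : G → ℂ) g = 1) (h' : ∀ g : G, (τ' : G → ℂ) g = 1) : τ = τ' :=
  Subtype.ext (funext fun g => by rw [h g, h' g])

theorem apply_one_eq {G : Type u} [Group G] (χ : IrrCharacter G) :
    (χ : G → ℂ) 1 = ((charDegree (χ : G → ℂ) : ℤ) : ℂ) := by
  rw [Int.cast_natCast, char_natCast_charDegree (isCharacter_of_irr χ.2)]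

/-- The relation at the identity, in integers. -/
theorem rel_one {G : Type u} [Group G] {p : ℕ} (hp : p.Prime) {P : Subgroup G} {e : ℕ}
    {X Y : Finset (IrrCharacter G)} {εX : IrrCharacter G → ℤ} {ε : ℤ}
    (h : Pkg p P e X Y εX ε) (θ : IrrCharacter G) (hθ : θ ∈ Y) :
    ε * (charDegree (θ : G → ℂ) : ℤ) = ∑ χ ∈ X, εX χ * (charDegree (χ : G → ℂ) : ℤ) := by
  have h1 := h.rel θ hθ 1 (by rw [orderOf_one]; exact hp.not_dvd_one)
  have h2 : ((ε * (charDegree (θ : G → ℂ) : ℤ) : ℤ) : ℂ)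
      = ((∑ χ ∈ X, εX χ * (charDegree (χ : G → ℂ) : ℤ) : ℤ) : ℂ) := by
    push_cast
    rw [← Int.cast_natCast (R := ℂ), ← apply_one_eq, h1]
    refine Finset.sum_congr rfl fun χ _ => ?_
    rw [apply_one_eq χ, Int.cast_natCast]
  exact_mod_cast h2

/-- First consequences of the package for `r < p`. -/
theorem c1 {G : Type u} [Group G] [Finite G] [IsSimpleGroup G] (hG : ¬ IsCyclic G)
    (p q r b : ℕ) (hp : p.Prime) (hq : q.Prime) (hr : r.Prime) (hpq : p ≠ q) (hpr : p ≠ r)
    (hqr : q ≠ r) (hG' : Nat.card G = p * r * q ^ b) (hrp : r < p) (hr3 : 3 ≤ r)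
    (P : Subgroup G) (e : ℕ) (he1 : 1 < e) (hep : e ∣ p - 1)
    (X Y : Finset (IrrCharacter G)) (εX : IrrCharacter G → ℤ) (ε : ℤ)
    (h : Pkg p P e X Y εX ε) :
    (∀ τ : IrrCharacter G, (∀ g : G, (τ : G → ℂ) g = 1) → τ ∈ X) ∧
    (∀ θ ∈ Y, charDegree (θ : G → ℂ) = r) ∧
    (∀ χ ∈ X, (¬ ∀ g : G, (χ : G → ℂ) g = 1) →
      q ∣ charDegree (χ : G → ℂ) ∧ charDegree (χ : G → ℂ) ∣ r * q ^ b) ∧
    ((ε = 1 ∧ e = r) ∨ (ε = -1 ∧ e + r = p)) := by
  classical
  have hp2 := hp.two_le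
  have hep' : e ≤ p - 1 := Nat.le_of_dvd (by omega) hep
  have hpz : (p : ℤ) ≠ 0 := by exact_mod_cast hp.ne_zero
  have hdvd : ∀ χ : IrrCharacter G, charDegree (χ : G → ℂ) ∣ p * (r * q ^ b) := fun χ => by
    have := Cfsg.Agent.Lib.Helper80.Integrality.charDegree_dvd_card χ
    rwa [hG', mul_assoc] at this
  have hrodd : ¬ 2 ∣ r := fun h2 => by
    have := (Nat.prime_dvd_prime_iff_eq Nat.prime_two hr).mp h2
    omega
  have hpodd : ¬ 2 ∣ p := fun h2 => by
    have := (Nat.prime_dvd_prime_iff_eq Nat.prime_two hp).mp h2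
    omega
  -- degrees in X
  have hXp : ∀ χ ∈ X, ¬ p ∣ charDegree (χ : G → ℂ) := by
    intro χ hχ hd
    have h1 := h.degX χ hχ
    have h2 : (p : ℤ) ∣ (charDegree (χ : G → ℂ) : ℤ) := by exact_mod_cast hd
    have h3 : (p : ℤ) ∣ εX χ := (Int.ModEq.dvd_iff h1).mp h2
    rcases h.signX χ hχ with h4 | h4 <;> rw [h4] at h3
    · have := Int.le_of_dvd (by norm_num) h3
      omega
    · rw [Int.dvd_neg] at h3
      have := Int.le_of_dvd (by norm_num) h3
      omega
  have hXd : ∀ χ ∈ X, charDegree (χ : G → ℂ) ∣ r * q ^ b := fun χ hχ =>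
    (Nat.Coprime.dvd_mul_left
      ((Nat.Prime.coprime_iff_not_dvd hp).mpr (hXp χ hχ)).symm).mp (hdvd χ)
  have hXq : ∀ χ ∈ X, (¬ ∀ g : G, (χ : G → ℂ) g = 1) → q ∣ charDegree (χ : G → ℂ) := by
    intro χ hχ hnt
    by_contra hq'
    have hcop : Nat.Coprime (charDegree (χ : G → ℂ)) (q ^ b) :=
      Nat.Coprime.pow_right b ((Nat.Prime.coprime_iff_not_dvd hq).mpr hq').symm
    have h1 : charDegree (χ : G → ℂ) ∣ r := (Nat.Coprime.dvd_mul_right hcop).mp (hXd χ hχ)
    rcases (Nat.dvd_prime hr).mp h1 with h2 | h2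
    · exact hnt (triv_of_charDegree_one hG χ h2)
    · have h3 := h.degX χ hχ
      rw [h2] at h3
      rcases h.signX χ hχ with h4 | h4 <;> rw [h4] at h3
      · have h5 : (p : ℤ) ∣ 1 - (r : ℤ) := h3.dvd
        have h6 : (p : ℤ) ∣ (r : ℤ) - 1 := by
          have := dvd_neg.mpr h5
          rwa [neg_sub] at this
        have := Int.le_of_dvd (by omega) h6
        omega
      · have h5 : (p : ℤ) ∣ -1 - (r : ℤ) := h3.dvd
        have h6 : (p : ℤ) ∣ (r : ℤ) + 1 := by
          have := dvd_neg.mpr h5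
          have e : -(-1 - (r : ℤ)) = (r : ℤ) + 1 := by ring
          rwa [e] at this
        have h7 := Int.le_of_dvd (by omega) h6
        have h8 : p = r + 1 := by omega
        apply hpodd
        rw [h8]
        omega
  -- the trivial character lies in X
  have htriv : ∀ τ : IrrCharacter G, (∀ g : G, (τ : G → ℂ) g = 1) → τ ∈ X := by
    intro τ hτ
    rcases h.triv_mem τ hτ with h1 | h1
    · exact h1
    · exfalso
      have h2 := rel_one hp h τ h1
      have h3 : charDegree (τ : G → ℂ) = 1 := charDegree_eq_of_apply_one (by rw [hτ 1]; simp)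
      rw [h3] at h2
      have h4 : (q : ℤ) ∣ ∑ χ ∈ X, εX χ * (charDegree (χ : G → ℂ) : ℤ) := by
        refine Finset.dvd_sum fun χ hχ => ?_
        have h5 : ¬ ∀ g : G, (χ : G → ℂ) g = 1 := fun h6 =>
          h.disj χ hχ (by rw [eq_of_triv χ τ h6 hτ]; exact h1)
        exact Dvd.dvd.mul_left (by exact_mod_cast hXq χ hχ h5) _
      rw [← h2] at h4
      have hq2 := hq.two_le
      rcases h.sign with h5 | h5 <;> rw [h5] at h4
      · have := Int.le_of_dvd (by norm_num) h4
        omega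
      · have h6 : (q : ℤ) ∣ 1 := by
          have := dvd_neg.mpr h4
          simpa using this
        have := Int.le_of_dvd (by norm_num) h6
        omega
  have hτX : trivIrr G ∈ X := htriv _ (fun g => trivIrr_apply G g)
  -- degrees in Y
  have hYdeg : ∀ θ ∈ Y, charDegree (θ : G → ℂ) = r := by
    intro θ hθ
    have h2 := rel_one hp h θ hθ
    rw [← Finset.insert_erase hτX, Finset.sum_insert (Finset.notMem_erase _ _)] at h2
    have h3 : charDegree ((trivIrr G : IrrCharacter G) : G → ℂ) = 1 :=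
      charDegree_eq_of_apply_one (by rw [trivIrr_apply]; simp)
    rw [h3] at h2
    have h4 : (q : ℤ) ∣ ∑ χ ∈ X.erase (trivIrr G), εX χ * (charDegree (χ : G → ℂ) : ℤ) := by
      refine Finset.dvd_sum fun χ hχ => ?_
      have hχX := Finset.mem_of_mem_erase hχ
      have h5 : ¬ ∀ g : G, (χ : G → ℂ) g = 1 := fun h6 =>
        Finset.ne_of_mem_erase hχ (eq_of_triv χ _ h6 (fun g => trivIrr_apply G g))
      exact Dvd.dvd.mul_left (by exact_mod_cast hXq χ hχX h5) _
    have hq' : ¬ q ∣ charDegree (θ : G → ℂ) := by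
      intro hd
      have h5 : (q : ℤ) ∣ ε * (charDegree (θ : G → ℂ) : ℤ) :=
        Dvd.dvd.mul_left (by exact_mod_cast hd) _
      rw [h2] at h5
      have h6 : (q : ℤ) ∣ εX (trivIrr G) * ((1 : ℕ) : ℤ) := (Int.dvd_add_left h4).mp h5
      have hq2 := hq.two_le
      rcases h.signX _ hτX with h7 | h7 <;> rw [h7] at h6
      · have := Int.le_of_dvd (by norm_num) h6
        omega
      · have h8 : (q : ℤ) ∣ 1 := by
          have := dvd_neg.mpr h6
          simpa using this
        have := Int.le_of_dvd (by norm_num) h8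
        omega
    have hp' : ¬ p ∣ charDegree (θ : G → ℂ) := by
      intro hd
      have h5 := h.degY θ hθ
      have h6 : (p : ℤ) ∣ (charDegree (θ : G → ℂ) : ℤ) := by exact_mod_cast hd
      have h7 : (p : ℤ) ∣ ε * (e : ℤ) := (Int.ModEq.dvd_iff h5).mp h6
      have h8 : (p : ℤ) ∣ (e : ℤ) := by
        rcases h.sign with h9 | h9 <;> rw [h9] at h7
        · simpa using h7
        · have := dvd_neg.mpr h7
          simpa using this
      have := Int.le_of_dvd (by omega) h8
      omega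
    have h5 : charDegree (θ : G → ℂ) ∣ r * q ^ b :=
      (Nat.Coprime.dvd_mul_left
        ((Nat.Prime.coprime_iff_not_dvd hp).mpr hp').symm).mp (hdvd θ)
    have hcop : Nat.Coprime (charDegree (θ : G → ℂ)) (q ^ b) :=
      Nat.Coprime.pow_right b ((Nat.Prime.coprime_iff_not_dvd hq).mpr hq').symm
    have h6 : charDegree (θ : G → ℂ) ∣ r := (Nat.Coprime.dvd_mul_right hcop).mp h5
    rcases (Nat.dvd_prime hr).mp h6 with h7 | h7
    · exfalso
      have h8 := htriv θ (triv_of_charDegree_one hG θ h7)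
      exact h.disj θ h8 hθ
    · exact h7
  refine ⟨htriv, hYdeg, fun χ hχ hnt => ⟨hXq χ hχ hnt, hXd χ hχ⟩, ?_⟩
  -- the congruence r ≡ ε e
  have hYne : Y.Nonempty := by
    rw [← Finset.card_pos, h.cardY]
    exact Nat.div_pos hep' (by omega)
  obtain ⟨θ, hθ⟩ := hYne
  have h5 := h.degY θ hθ
  rw [hYdeg θ hθ] at h5
  rcases h.sign with h9 | h9 <;> rw [h9] at h5
  · left
    refine ⟨h9, ?_⟩
    have h6 : (p : ℤ) ∣ 1 * (e : ℤ) - (r : ℤ) := h5.dvd
    have h7 : 1 * (e : ℤ) - (r : ℤ) = 0 := by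
      apply Int.eq_zero_of_abs_lt_dvd h6
      rw [abs_lt]
      constructor <;> omega
    omega
  · right
    refine ⟨h9, ?_⟩
    have h6 : (p : ℤ) ∣ -1 * (e : ℤ) - (r : ℤ) := h5.dvd
    have h6' : (p : ℤ) ∣ (e : ℤ) + (r : ℤ) - p := by
      have h7 := dvd_neg.mpr h6
      have e2 : (e : ℤ) + (r : ℤ) - p = -(-1 * (e : ℤ) - (r : ℤ)) - p := by ring
      rw [e2]
      exact dvd_sub h7 dvd_rfl
    have h7 : (e : ℤ) + (r : ℤ) - p = 0 := by
      apply Int.eq_zero_of_abs_lt_dvd h6'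
      rw [abs_lt]
      constructor <;> omega
    omega

end Cfsg.Agent.Lib.Helper78.PRQC1
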