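import Mathlib
import Cfsg.Agent.Lib.Helper37.HypStmt

/-! S5992 piece TOPND: the standard odd form is nondegenerate; the formula for its polar form. -/

set_option autoImplicit false

namespace Cfsg.Agent.Lib.Helper78.HypTOPND

open Cfsg.Agent.Lib.Helper37
open scoped Matrix

universe u

/-- the polar form of the standard odd form -/
theorem polar_formula (d : ℕ) (F : Type u) [Field F] (u v : HypStmt.I d → F) :
    QuadraticMap.polar (Cfsg.quadFormOdd d F) u v =
      2 * u (.inl ()) * v (.inl ()) +
        ∑ i : Fin d, (u (.inr (.inl i)) * v (.inr (.inr i)) + v (.inr (.inl i)) * u (.inr (.inr i))) := by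
  unfold QuadraticMap.polar Cfsg.quadFormOdd
  simp only [Pi.add_apply]
  have hs : ∑ i : Fin d, (u (.inr (.inl i)) + v (.inr (.inl i))) * (u (.inr (.inr i)) + v (.inr (.inr i)))
      = ∑ i : Fin d, u (.inr (.inl i)) * u (.inr (.inr i)) + ∑ i : Fin d, v (.inr (.inl i)) * v (.inr (.inr i))
        + ∑ i : Fin d, (u (.inr (.inl i)) * v (.inr (.inr i)) + v (.inr (.inl i)) * u (.inr (.inr i))) := by
    rw [← Finset.sum_add_distrib, ← Finset.sum_add_distrib]
    apply Finset.sum_congr rfl
    intro i _
    ring
  rw [hs]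
  ring

theorem polar_symm (d : ℕ) (F : Type u) [Field F] (u v : HypStmt.I d → F) :
    QuadraticMap.polar (Cfsg.quadFormOdd d F) u v = QuadraticMap.polar (Cfsg.quadFormOdd d F) v u :=
  QuadraticMap.polar_comm _ _ _

/-- `2 ≠ 0` in a finite field of odd order -/
theorem two_ne_zero_of_odd (F : Type u) [Field F] [Fintype F] (h : Odd (Fintype.card F)) :
    (2 : F) ≠ 0 := by
  apply Ring.two_ne_zero
  intro hc
  have := FiniteField.even_card_iff_char_two.mp hc
  rw [Nat.odd_iff] at h
  omega

theorem main : HypStmt.TopND.{u} := by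
  intro F _ _ hodd d
  classical
  have h2 : (2 : F) ≠ 0 := two_ne_zero_of_odd F hodd
  have key : ∀ w : HypStmt.I d → F, w ≠ 0 →
      ∃ x : HypStmt.I d → F, QuadraticMap.polar (Cfsg.quadFormOdd d F) x w ≠ 0 := by
    intro w hw
    have hex : ∃ j, w j ≠ 0 := by
      by_contra hno
      push Not at hno
      exact hw (funext hno)
    obtain ⟨j, hj⟩ := hex
    rcases j with ⟨⟩ | i | i
    · refine ⟨Pi.single (Sum.inl ()) 1, ?_⟩
      rw [polar_formula]
      simp only [Pi.single_apply, Sum.inl.injEq, if_true, reduceCtorEq, if_false, zero_mul,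
        mul_zero, add_zero, Finset.sum_const_zero, mul_one]
      exact mul_ne_zero h2 hj
    · refine ⟨Pi.single (Sum.inr (Sum.inr i)) 1, ?_⟩
      rw [polar_formula]
      simp only [Pi.single_apply, Sum.inr.injEq, reduceCtorEq, if_false, mul_zero, zero_mul,
        zero_add, Sum.inl.injEq]
      rw [Finset.sum_eq_single i]
      · simpa using hj
      · intro b _ hb
        rw [if_neg (fun h => hb h)]
        ring
      · intro h
        exact absurd (Finset.mem_univ i) h
    · refine ⟨Pi.single (Sum.inr (Sum.inl i)) 1, ?_⟩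
      rw [polar_formula]
      simp only [Pi.single_apply, Sum.inr.injEq, reduceCtorEq, if_false, mul_zero, zero_mul,
        zero_add, Sum.inl.injEq, add_zero]
      rw [Finset.sum_eq_single i]
      · simpa using hj
      · intro b _ hb
        rw [if_neg (fun h => hb h)]
        ring
      · intro h
        exact absurd (Finset.mem_univ i) h
  intro w _ hw
  obtain ⟨x, hx⟩ := key w hw
  refine ⟨⟨x, Submodule.mem_top, hx⟩, ⟨x, Submodule.mem_top, ?_⟩⟩
  rw [polar_symm]
  exact hx

end Cfsg.Agent.Lib.Helper78.HypTOPND
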