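import Mathlib
import Cfsg.Agent.Lib.Helper37.HypStmt
import Cfsg.Agent.Lib.Helper78.HypTOPND

/-! S5992 piece FIXND: the fixed space of an isometry of order prime to `p` is nondegenerate. -/

set_option autoImplicit false

namespace Cfsg.Agent.Lib.Helper78.HypFIXND

open Cfsg.Agent.Lib.Helper37 Cfsg.Agent.Lib.Helper78.HypTOPND
open scoped Matrix

universe u

/-- the vector `J v` with `B(u, v) = u ⬝ᵥ J v` -/
def J (d : ℕ) (F : Type u) [Field F] (v : HypStmt.I d → F) : HypStmt.I d → F :=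
  fun k => Sum.elim (fun _ => 2 * v (.inl ()))
    (Sum.elim (fun i => v (.inr (.inr i))) (fun i => v (.inr (.inl i)))) k

theorem polar_eq_dot (d : ℕ) (F : Type u) [Field F] (u v : HypStmt.I d → F) :
    QuadraticMap.polar (Cfsg.quadFormOdd d F) u v = u ⬝ᵥ J d F v := by
  have e1 : ∑ i : Fin d, v (.inr (.inl i)) * u (.inr (.inr i)) =
      ∑ i : Fin d, u (.inr (.inr i)) * v (.inr (.inl i)) :=
    Finset.sum_congr rfl (fun i _ => mul_comm _ _)
  rw [polar_formula, Finset.sum_add_distrib, e1]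
  show _ = ∑ k, u k * J d F v k
  rw [Fintype.sum_sum_type, Fintype.sum_sum_type]
  simp only [J, Sum.elim_inl, Sum.elim_inr, Finset.univ_unique, Finset.sum_singleton]
  have hd : (default : Unit) = () := rfl
  rw [hd]
  ring

theorem polar_sum_left (d : ℕ) (F : Type u) [Field F] {ι : Type} (s : Finset ι)
    (f : ι → HypStmt.I d → F) (v : HypStmt.I d → F) :
    QuadraticMap.polar (Cfsg.quadFormOdd d F) (∑ j ∈ s, f j) v =
      ∑ j ∈ s, QuadraticMap.polar (Cfsg.quadFormOdd d F) (f j) v := by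
  rw [polar_eq_dot, sum_dotProduct]
  apply Finset.sum_congr rfl
  intro j _
  rw [polar_eq_dot]

theorem main : HypStmt.FixND.{u} := by
  intro F _ _ p _ _ hodd d r _ hrp x hx hxr
  have hr : r.Prime := Fact.out
  have hp : p.Prime := Fact.out
  have hrF : (r : F) ≠ 0 := by
    intro h0
    rw [CharP.cast_eq_zero_iff F p r] at h0
    exact hrp ((Nat.prime_dvd_prime_iff_eq hp hr).mp h0).symm
  -- isometries preserve the polar form
  have hiso : ∀ g : Matrix.GeneralLinearGroup (HypStmt.I d) F,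
      g ∈ Cfsg.isometryGroup F (Cfsg.quadFormOdd d F) → ∀ u v : HypStmt.I d → F,
      QuadraticMap.polar (Cfsg.quadFormOdd d F)
        ((g : Matrix (HypStmt.I d) (HypStmt.I d) F) *ᵥ u)
        ((g : Matrix (HypStmt.I d) (HypStmt.I d) F) *ᵥ v) =
      QuadraticMap.polar (Cfsg.quadFormOdd d F) u v := by
    intro g hg u v
    have hQ : ∀ u' : HypStmt.I d → F, Cfsg.quadFormOdd d F
        ((g : Matrix (HypStmt.I d) (HypStmt.I d) F) *ᵥ u') = Cfsg.quadFormOdd d F u' :=
      fun u' => hg u' u'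
    unfold QuadraticMap.polar
    rw [← Matrix.mulVec_add, hQ, hQ, hQ]
  -- powers fix the fixed vectors
  have hfixpow : ∀ v : HypStmt.I d → F, (x : Matrix (HypStmt.I d) (HypStmt.I d) F) *ᵥ v = v →
      ∀ j : ℕ, ((x ^ j : Matrix.GeneralLinearGroup (HypStmt.I d) F) :
        Matrix (HypStmt.I d) (HypStmt.I d) F) *ᵥ v = v := by
    intro v hv j
    induction j with
    | zero => simp
    | succ j ih =>
      rw [pow_succ, Units.val_mul, ← Matrix.mulVec_mulVec, hv, ih]
  have hTop := HypTOPND.main.{u} F hodd d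
  have key : ∀ v ∈ HypStmt.Fx (x : Matrix (HypStmt.I d) (HypStmt.I d) F), v ≠ 0 →
      ∃ w1 ∈ HypStmt.Fx (x : Matrix (HypStmt.I d) (HypStmt.I d) F),
        QuadraticMap.polar (Cfsg.quadFormOdd d F) w1 v ≠ 0 := by
    intro v hv hv0
    rw [HypStmt.mem_Fx] at hv
    obtain ⟨⟨w, -, hw⟩, -⟩ := hTop v Submodule.mem_top hv0
    set f : ℕ → HypStmt.I d → F := fun j =>
      ((x ^ j : Matrix.GeneralLinearGroup (HypStmt.I d) F) :
        Matrix (HypStmt.I d) (HypStmt.I d) F) *ᵥ w with hf
    refine ⟨∑ j ∈ Finset.range r, f j, ?_, ?_⟩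
    · rw [HypStmt.mem_Fx, Matrix.mulVec_sum]
      have hstep : ∀ j : ℕ, (x : Matrix (HypStmt.I d) (HypStmt.I d) F) *ᵥ f j = f (j + 1) := by
        intro j
        rw [hf]
        show (x : Matrix (HypStmt.I d) (HypStmt.I d) F) *ᵥ
          (((x ^ j : Matrix.GeneralLinearGroup (HypStmt.I d) F) :
            Matrix (HypStmt.I d) (HypStmt.I d) F) *ᵥ w) =
          ((x ^ (j + 1) : Matrix.GeneralLinearGroup (HypStmt.I d) F) :
            Matrix (HypStmt.I d) (HypStmt.I d) F) *ᵥ w
        rw [pow_succ', Units.val_mul, Matrix.mulVec_mulVec]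
      rw [Finset.sum_congr rfl (fun j _ => hstep j)]
      have h1 := Finset.sum_range_succ f r
      have h2 := Finset.sum_range_succ' f r
      have hfr : f r = f 0 := by
        rw [hf]
        show ((x ^ r : Matrix.GeneralLinearGroup (HypStmt.I d) F) :
            Matrix (HypStmt.I d) (HypStmt.I d) F) *ᵥ w =
          ((x ^ 0 : Matrix.GeneralLinearGroup (HypStmt.I d) F) :
            Matrix (HypStmt.I d) (HypStmt.I d) F) *ᵥ w
        rw [hxr, pow_zero]
      rw [h1, hfr] at h2
      exact (add_right_cancel h2).symm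
    · rw [polar_sum_left]
      have hterm : ∀ j ∈ Finset.range r,
          QuadraticMap.polar (Cfsg.quadFormOdd d F) (f j) v =
            QuadraticMap.polar (Cfsg.quadFormOdd d F) w v := by
        intro j _
        have h1 := hiso (x ^ j) (Subgroup.pow_mem _ hx j) w v
        rw [hfixpow v hv j] at h1
        exact h1
      rw [Finset.sum_congr rfl hterm, Finset.sum_const, Finset.card_range, nsmul_eq_mul]
      exact mul_ne_zero hrF hw
  intro v hv hv0
  obtain ⟨w1, hw1, hne⟩ := key v hv hv0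
  refine ⟨⟨w1, hw1, hne⟩, ⟨w1, hw1, ?_⟩⟩
  rw [polar_symm]
  exact hne

end Cfsg.Agent.Lib.Helper78.HypFIXND
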