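import Mathlib
import Cfsg.Agent.Lib.Helper37.HypStmt

/-! S5992 piece IPOS. -/

set_option autoImplicit false

namespace Cfsg.Agent.Lib.Helper78.HypIPOS

open Cfsg.Agent.Lib.Helper37

universe u

theorem main : HypStmt.IPos.{u} := by
  intro F _ _ p _ _ r _ hrp
  have hr : r.Prime := Fact.out
  have hp : p.Prime := Fact.out
  obtain ⟨n, -, hn⟩ := FiniteField.card F p
  have hne : ((Fintype.card F : ℕ) : ZMod r) ≠ 0 := by
    intro h0
    rw [ZMod.natCast_eq_zero_iff, hn] at h0
    have := hr.dvd_of_dvd_pow h0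
    exact hrp ((Nat.prime_dvd_prime_iff_eq hr hp).mp this)
  rw [← Units.val_mk0 hne, orderOf_units]
  exact orderOf_pos _

end Cfsg.Agent.Lib.Helper78.HypIPOS
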