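import Mathlib
import Cfsg.Agent.Lib.Helper16.BRStmt2
import Cfsg.Agent.Lib.Helper87.BRMS
import Cfsg.Agent.Lib.CT.Wedderburn

/-!
Piece [CPOS] of S0996 (Brauer, `n < (p + 3) / 2`): in the case `δ = 1` the exceptional degree
is `e`.
-/

set_option autoImplicit false

namespace Cfsg.Agent.Lib.Helper78.BGCPOS

open Cfsg Cfsg.Agent.Lib.CT.ThirdMain Cfsg.Agent.Lib.Helper16.BRSpec
  Cfsg.Agent.Lib.Helper16.BRStmt2 Cfsg.Agent.Lib.CT.Wedderburn Cfsg.Agent.Lib.Helper87.BRMS
open scoped ComplexConjugate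

universe u

/-- Splitting a sum over `{τ} ⊔ A ⊔ B ⊔ Y ⊔ Z` (values in any additive commutative monoid). -/
theorem sum_partitionM {ι : Type*} [Fintype ι] [DecidableEq ι] {M : Type*} [AddCommMonoid M]
    (τ : ι) (A B Y Z : Set ι)
    [DecidablePred (· ∈ A)] [DecidablePred (· ∈ B)] [DecidablePred (· ∈ Y)]
    [DecidablePred (· ∈ Z)]
    (htA : τ ∉ A) (htB : τ ∉ B) (htY : τ ∉ Y) (hAB : Disjoint A B) (hAY : Disjoint A Y)
    (hBY : Disjoint B Y) (hZ : ∀ χ, χ ∈ Z ↔ (χ ≠ τ ∧ χ ∉ A ∧ χ ∉ B ∧ χ ∉ Y)) (g : ι → M) :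
    ∑ χ, g χ = g τ + ∑ χ, (if χ ∈ A then g χ else 0) + ∑ χ, (if χ ∈ B then g χ else 0)
      + ∑ χ, (if χ ∈ Y then g χ else 0) + ∑ χ, (if χ ∈ Z then g χ else 0) := by
  have h0 : g τ = ∑ χ, (if χ = τ then g χ else 0) := by
    rw [Finset.sum_ite_eq' Finset.univ τ g]; simp
  rw [h0, ← Finset.sum_add_distrib, ← Finset.sum_add_distrib, ← Finset.sum_add_distrib,
    ← Finset.sum_add_distrib]
  apply Finset.sum_congr rfl
  intro χ _
  by_cases h1 : χ = τ
  · subst h1
    have hz : χ ∉ Z := fun h => ((hZ χ).mp h).1 rfl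
    simp [htA, htB, htY, hz]
  · by_cases hA : χ ∈ A
    · have hB : χ ∉ B := fun hB => Set.disjoint_left.mp hAB hA hB
      have hY : χ ∉ Y := fun hY => Set.disjoint_left.mp hAY hA hY
      have hz : χ ∉ Z := fun h => ((hZ χ).mp h).2.1 hA
      simp [h1, hA, hB, hY, hz]
    · by_cases hB : χ ∈ B
      · have hY : χ ∉ Y := fun hY => Set.disjoint_left.mp hBY hB hY
        have hz : χ ∉ Z := fun h => ((hZ χ).mp h).2.2.1 hB
        simp [h1, hA, hB, hY, hz]
      · by_cases hY : χ ∈ Y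
        · have hz : χ ∉ Z := fun h => ((hZ χ).mp h).2.2.2 hY
          simp [h1, hA, hB, hY, hz]
        · have hz : χ ∈ Z := (hZ χ).mpr ⟨h1, hA, hB, hY⟩
          simp [h1, hA, hB, hY, hz]

/-- The general multiplicity relations (any `δ`): with `α i = Σ_A mult χ i`, `k i = Σ_Y mult θ i`
and `τ i = [i = 0]`, one has `(τ i + α i) (p - 1) + δ e k i = p - 1` (in `ℤ`) and
`τ i + (1 + n p) α i + f k i ≤ 1 + n p`. -/
theorem relations {G : Type u} [Group G] [Finite G] (p : ℕ) [Fact p.Prime] (P : Sylow p G)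
    (e t n a b f : ℕ) (δ : ℤ) (A B Y : Set (IrrCharacter G))
    (hT : TabG p P e t n a b δ f A B Y)
    (y : G) (ω : ℂ) (mult : IrrCharacter G → ℕ → ℕ) (hR : Res p P e y ω mult)
    (hsum : ∀ i, i < e → ∀ z ∈ (P : Subgroup G), z ≠ 1 →
      ∑ᶠ χ : IrrCharacter G, (mult χ i : ℂ) * (χ : G → ℂ) z = 1)
    (hmB : ∀ χ ∈ B, ∀ i, i < e → mult χ i = 0) :
    ∃ (α k : ℕ → ℕ), (∀ χ ∈ A, ∀ i, mult χ i ≤ α i) ∧ (∀ θ ∈ Y, ∀ i, mult θ i ≤ k i) ∧
      (∀ i, i < e → (((if i = 0 then 1 else 0 : ℕ) : ℤ) + (α i : ℤ)) * ((p : ℤ) - 1)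
        - δ * (e : ℤ) * (k i : ℤ) = (p : ℤ) - 1) ∧
      (∀ i, i < e → (if i = 0 then 1 else 0) + (1 + n * p) * α i + f * k i ≤ 1 + n * p) ∧
      (∀ i, i < e → mult (triv G) i = if i = 0 then 1 else 0) := by
  classical
  have hp : p.Prime := Fact.out
  have : Finite (IrrCharacter G) := finite_irrCharacter G
  let _ : Fintype (IrrCharacter G) := Fintype.ofFinite _
  have he := hT.he
  have hcardP : Nat.card (P : Subgroup G) = p := hT.hP
  have ht1 : ∀ g : G, ((triv G : IrrCharacter G) : G → ℂ) g = 1 := fun g => by rw [coe_triv]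
  have hd : ∀ χ : IrrCharacter G, (χ : G → ℂ) 1 = (charDegree (χ : G → ℂ) : ℂ) := fun χ =>
    (char_natCast_charDegree (isCharacter_of_irr χ.2)).symm
  -- the trivial character
  obtain ⟨s, hs⟩ : ∃ s : IrrCharacter G → ℕ, ∀ χ, s χ = ∑ i ∈ Finset.range e, mult χ i :=
    ⟨_, fun _ => rfl⟩
  have hr2 : ∀ χ : IrrCharacter G, ((p * s χ : ℕ) : ℂ) =
      (χ : G → ℂ) 1 + ∑ᶠ z ∈ (((P : Subgroup G) : Set G) \ {1}), (χ : G → ℂ) z := by
    intro χ
    rw [← finsum_P_split, ← hR.r2 χ, hs χ]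
    push_cast
    ring
  have hs_triv : s (triv G) = 1 := by
    have h := hr2 (triv G)
    rw [finsum_P_const (P : Subgroup G) _ 1 (fun z _ _ => ht1 z), hcardP, ht1] at h
    have h' : ((p * s (triv G) : ℕ) : ℂ) = ((1 + (p - 1) : ℕ) : ℂ) := by
      rw [h]; push_cast; ring
    have h2 : p * s (triv G) = 1 + (p - 1) := Nat.cast_injective h'
    have h3 : p * s (triv G) = p * 1 := by have := hp.pos; omega
    exact Nat.eq_of_mul_eq_mul_left hp.pos h3
  have hmT : ∀ i, i < e → mult (triv G) i = if i = 0 then 1 else 0 := by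
    obtain ⟨i0, hi0, hm1, hm0⟩ := unit_sum (m := mult (triv G)) (by rw [← hs]; exact hs_triv)
    have h3 := hR.r3 (triv G) 1 (by norm_num) (by omega)
    rw [ht1, Finset.sum_eq_single i0
      (fun i hi hne => by rw [hm0 i (Finset.mem_range.mp hi) hne]; simp)
      (fun h => absurd (Finset.mem_range.mpr hi0) h), hm1] at h3
    have h4 : ω ^ i0 = 1 := by simpa using h3.symm
    have h5 : e ∣ i0 := (hR.hω.pow_eq_one_iff_dvd i0).mp h4
    have h6 : i0 = 0 := Nat.eq_zero_of_dvd_of_lt h5 hi0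
    subst h6
    intro i hi
    split_ifs with h
    · rw [h]; exact hm1
    · exact hm0 i hi h
  -- the degree equation
  have hidx : (Subgroup.normalizer ((P : Subgroup G) : Set G)).index = 1 + n * p := by
    have h := Subgroup.card_mul_index (Subgroup.normalizer ((P : Subgroup G) : Set G))
    rw [hT.hN, hT.hG] at h
    have hpe0 : 0 < p * e := Nat.mul_pos hp.pos (by omega)
    exact Nat.eq_of_mul_eq_mul_left hpe0 (by rw [h]; ring)
  have hR1 : ∀ i, i < e →
      ∑ χ : IrrCharacter G, mult χ i * charDegree (χ : G → ℂ) = 1 + n * p := by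
    intro i hi
    have h := hR.r1 i hi
    rw [finsum_eq_sum_of_fintype, hidx] at h
    have h' : ((∑ χ : IrrCharacter G, mult χ i * charDegree (χ : G → ℂ) : ℕ) : ℂ) =
        ((1 + n * p : ℕ) : ℂ) := by
      rw [← h, Nat.cast_sum]
      apply Finset.sum_congr rfl
      intro χ _
      rw [Nat.cast_mul, hd χ]
    exact Nat.cast_injective h'
  obtain ⟨α, hα⟩ : ∃ α : ℕ → ℕ, ∀ i, α i = ∑ χ : IrrCharacter G, (if χ ∈ A then mult χ i else 0) :=
    ⟨_, fun _ => rfl⟩
  obtain ⟨k, hk⟩ : ∃ k : ℕ → ℕ, ∀ i, k i = ∑ χ : IrrCharacter G, (if χ ∈ Y then mult χ i else 0) :=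
    ⟨_, fun _ => rfl⟩
  have hdT : charDegree ((triv G : IrrCharacter G) : G → ℂ) = 1 :=
    charDegree_eq_of_apply_one (n := 1) (by rw [ht1]; simp)
  have hstar : ∀ i, i < e →
      (if i = 0 then 1 else 0) + (1 + n * p) * α i + f * k i ≤ 1 + n * p := by
    intro i hi
    have h := hR1 i hi
    rw [sum_partition (triv G) A B Y (Zset A B Y) hT.htA hT.htB hT.htY hT.hAB hT.hAY hT.hBY
      (fun χ => Iff.rfl)] at h
    have e0 : mult (triv G) i * charDegree ((triv G : IrrCharacter G) : G → ℂ) =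
        if i = 0 then 1 else 0 := by rw [hdT, Nat.mul_one, hmT i hi]
    have eA : ∑ χ : IrrCharacter G, (if χ ∈ A then mult χ i * charDegree (χ : G → ℂ) else 0) =
        (1 + n * p) * α i := by
      rw [hα, Finset.mul_sum]
      apply Finset.sum_congr rfl
      intro χ _
      split_ifs with hχ
      · rw [charDegree_eq_of_apply_one (hT.hA χ hχ).1, Nat.mul_comm]
      · rw [Nat.mul_zero]
    have eY : ∑ χ : IrrCharacter G, (if χ ∈ Y then mult χ i * charDegree (χ : G → ℂ) else 0) =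
        f * k i := by
      rw [hk, Finset.mul_sum]
      apply Finset.sum_congr rfl
      intro χ _
      split_ifs with hχ
      · rw [charDegree_eq_of_apply_one (hT.hY1 χ hχ), Nat.mul_comm]
      · rw [Nat.mul_zero]
    rw [e0, eA, eY] at h
    omega
  -- the relation on `P \ {1}`
  have hfinS : ((((P : Subgroup G) : Set G) \ {1})).Finite := Set.toFinite _
  have hσ : ∀ φ : G → ℂ, ∑ᶠ z ∈ (((P : Subgroup G) : Set G) \ {1}), φ z =
      ∑ z ∈ hfinS.toFinset, φ z := fun φ => finsum_mem_eq_finite_toFinset_sum _ hfinS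
  have hScard : hfinS.toFinset.card = p - 1 := by
    have hnc : ((P : Subgroup G) : Set G).ncard = p := by
      rw [← Nat.card_coe_set_eq]; exact hcardP
    rw [← Set.ncard_eq_toFinset_card _ hfinS,
      Set.ncard_sdiff_singleton_of_mem ((P : Subgroup G).one_mem), hnc]
  have hrel : ∀ i, i < e → ∑ χ : IrrCharacter G, (mult χ i : ℂ) *
      (∑ᶠ z ∈ (((P : Subgroup G) : Set G) \ {1}), (χ : G → ℂ) z) = ((p - 1 : ℕ) : ℂ) := by
    intro i hi
    have h1 : ∑ z ∈ hfinS.toFinset, ∑ χ : IrrCharacter G, (mult χ i : ℂ) * (χ : G → ℂ) z =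
        ∑ z ∈ hfinS.toFinset, (1 : ℂ) := by
      apply Finset.sum_congr rfl
      intro z hz
      have hz' := (Set.Finite.mem_toFinset hfinS).mp hz
      rw [← finsum_eq_sum_of_fintype]
      exact hsum i hi z hz'.1 hz'.2
    rw [Finset.sum_comm, Finset.sum_const, hScard, nsmul_eq_mul, mul_one] at h1
    rw [← h1]
    apply Finset.sum_congr rfl
    intro χ _
    rw [hσ, Finset.mul_sum]
  have hrel2 : ∀ i, i < e → (((if i = 0 then 1 else 0 : ℕ) : ℂ) + (α i : ℂ)) * ((p : ℂ) - 1)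
        - (δ : ℂ) * (e : ℂ) * (k i : ℂ) = (p : ℂ) - 1 := by
    intro i hi
    have h := hrel i hi
    rw [sum_partitionM (triv G) A B Y (Zset A B Y) hT.htA hT.htB hT.htY hT.hAB hT.hAY hT.hBY
      (fun χ => Iff.rfl)] at h
    have e0 : (mult (triv G) i : ℂ) *
        (∑ᶠ z ∈ (((P : Subgroup G) : Set G) \ {1}), ((triv G : IrrCharacter G) : G → ℂ) z) =
        ((if i = 0 then 1 else 0 : ℕ) : ℂ) * ((p : ℂ) - 1) := by
      rw [finsum_P_const (P : Subgroup G) _ 1 (fun z _ _ => ht1 z), hcardP, hmT i hi,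
        Nat.cast_sub hp.one_lt.le]
      push_cast
      ring
    have eA : ∑ χ : IrrCharacter G, (if χ ∈ A then (mult χ i : ℂ) *
        (∑ᶠ z ∈ (((P : Subgroup G) : Set G) \ {1}), (χ : G → ℂ) z) else 0) =
        (α i : ℂ) * ((p : ℂ) - 1) := by
      rw [hα, Nat.cast_sum, Finset.sum_mul]
      apply Finset.sum_congr rfl
      intro χ _
      split_ifs with hχ
      · rw [finsum_P_const (P : Subgroup G) _ 1 (hT.hA χ hχ).2, hcardP,
          Nat.cast_sub hp.one_lt.le]
        push_cast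
        ring
      · simp
    have eB : ∑ χ : IrrCharacter G, (if χ ∈ B then (mult χ i : ℂ) *
        (∑ᶠ z ∈ (((P : Subgroup G) : Set G) \ {1}), (χ : G → ℂ) z) else 0) = 0 := by
      apply Finset.sum_eq_zero
      intro χ _
      split_ifs with hχ
      · rw [hmB χ hχ i hi]; simp
      · rfl
    have eY : ∑ χ : IrrCharacter G, (if χ ∈ Y then (mult χ i : ℂ) *
        (∑ᶠ z ∈ (((P : Subgroup G) : Set G) \ {1}), (χ : G → ℂ) z) else 0) =
        -((δ : ℂ) * (e : ℂ) * (k i : ℂ)) := by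
      rw [hk, Nat.cast_sum, Finset.mul_sum, ← Finset.sum_neg_distrib]
      apply Finset.sum_congr rfl
      intro χ _
      split_ifs with hχ
      · rw [hT.hYs χ hχ]; ring
      · simp
    have eZ : ∑ χ : IrrCharacter G, (if χ ∈ Zset A B Y then (mult χ i : ℂ) *
        (∑ᶠ z ∈ (((P : Subgroup G) : Set G) \ {1}), (χ : G → ℂ) z) else 0) = 0 := by
      apply Finset.sum_eq_zero
      intro χ _
      split_ifs with hχ
      · rw [finsum_P_const (P : Subgroup G) _ 0 (hT.hZ χ hχ)]; simp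
      · rfl
    rw [e0, eA, eB, eY, eZ, Nat.cast_sub hp.one_lt.le] at h
    push_cast at h ⊢
    linear_combination h
  refine ⟨α, k, ?_, ?_, ?_, hstar, hmT⟩
  · intro χ hχ i
    have h2 := Finset.single_le_sum (f := fun χ : IrrCharacter G => if χ ∈ A then mult χ i else 0)
      (fun j _ => Nat.zero_le _) (Finset.mem_univ χ)
    simp only [if_pos hχ] at h2
    rw [← hα] at h2
    exact h2
  · intro χ hχ i
    have h2 := Finset.single_le_sum (f := fun χ : IrrCharacter G => if χ ∈ Y then mult χ i else 0)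
      (fun j _ => Nat.zero_le _) (Finset.mem_univ χ)
    simp only [if_pos hχ] at h2
    rw [← hk] at h2
    exact h2
  · intro i hi
    have h := hrel2 i hi
    exact_mod_cast h

theorem main : Cfsg.Agent.Lib.Helper16.BRStmt2.CPos.{u} := by
  intro G _ _ p _ P e t n a b f A B Y hT y ω mult hR hsum hmB
  classical
  have hp : p.Prime := Fact.out
  have : Finite (IrrCharacter G) := finite_irrCharacter G
  have he := hT.he
  have ht := hT.ht
  have hpe := hT.hpe
  obtain ⟨α, k, hαle, hkle, hrel, hstar, hmT⟩ :=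
    relations p P e t n a b f 1 A B Y hT y ω mult hR hsum hmB
  -- all `k i` vanish
  have hk0 : ∀ i, i < e → k i = 0 := by
    intro i hi
    have h1 := hrel i hi
    have h2 := hstar i hi
    have hp1 : (1 : ℤ) < (p : ℤ) := by exact_mod_cast hp.one_lt
    have he0 : (0 : ℤ) < (e : ℤ) := by exact_mod_cast (by omega : 0 < e)
    by_cases h0 : i = 0
    · rw [if_pos h0] at h1 h2
      have hα0 : α i = 0 := by
        by_contra hα
        have : 1 + n * p ≤ (1 + n * p) * α i := Nat.le_mul_of_pos_right _ (Nat.pos_of_ne_zero hα)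
        omega
      rw [hα0] at h1
      have h3 : (e : ℤ) * (k i : ℤ) = 0 := by push_cast at h1; linarith
      rcases mul_eq_zero.mp h3 with h | h
      · omega
      · exact_mod_cast h
    · rw [if_neg h0] at h1 h2
      have hα1 : α i ≤ 1 := by
        by_contra hα
        push Not at hα
        have : (1 + n * p) * 2 ≤ (1 + n * p) * α i := Nat.mul_le_mul_left _ hα
        omega
      have hα0 : α i ≠ 0 := by
        intro hα
        rw [hα] at h1
        have hk' : (0 : ℤ) ≤ (e : ℤ) * (k i : ℤ) := by positivity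
        push_cast at h1
        linarith
      have hα' : α i = 1 := by omega
      rw [hα'] at h1
      have h3 : (e : ℤ) * (k i : ℤ) = 0 := by push_cast at h1; linarith
      rcases mul_eq_zero.mp h3 with h | h
      · omega
      · exact_mod_cast h
  obtain ⟨θ, hθ⟩ : Y.Nonempty := by
    rw [← Set.ncard_pos, hT.cY]; omega
  have hmθ : ∀ i ∈ Finset.range e, mult θ i = 0 := by
    intro i hi
    have := hkle θ hθ i
    rw [hk0 i (Finset.mem_range.mp hi)] at this
    omega
  have h2 := hR.r2 θ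
  rw [finsum_P_split, hT.hYs θ hθ, hT.hY1 θ hθ] at h2
  have h3 : ∑ i ∈ Finset.range e, (mult θ i : ℂ) = 0 := by
    apply Finset.sum_eq_zero
    intro i hi
    rw [hmθ i hi]; simp
  rw [h3] at h2
  have h4 : (f : ℂ) = (e : ℂ) := by
    push_cast at h2
    linear_combination -h2
  exact Nat.cast_injective h4

end Cfsg.Agent.Lib.Helper78.BGCPOS
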