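import Mathlib

set_option autoImplicit false

/-!
# Unitary structure for complex representations of finite groups (helper78)

* `exists_invariant_core`: a representation of a finite group on `Fin n → ℂ` preserves an
  inner product (given as an `InnerProductSpace.Core`).
* `exists_orthonormal_eigenbasis_symm`: a commuting family of symmetric operators has a common
  orthonormal eigenbasis.
* `exists_orthonormal_eigenbasis`: a set of pairwise commuting group elements acting by isometries
  has a common orthonormal eigenbasis.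
-/

namespace Cfsg.Agent.Lib.Helper78.UnitaryRep

open scoped InnerProductSpace ComplexConjugate
open Module

universe u v

section CE

variable {E : Type v} [NormedAddCommGroup E] [InnerProductSpace ℂ E] [FiniteDimensional ℂ E]

/-- A commuting family of symmetric operators has a common orthonormal eigenbasis. -/
theorem exists_orthonormal_eigenbasis_symm {ι : Type u} (T : ι → E →ₗ[ℂ] E)
    (hT : ∀ i, (T i).IsSymmetric) (hC : ∀ i j, Commute (T i) (T j)) :
    ∃ (b : OrthonormalBasis (Fin (finrank ℂ E)) ℂ E) (γ : Fin (finrank ℂ E) → ι → ℂ),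
      ∀ j i, T i (b j) = γ j i • b j := by
  classical
  set V : (ι → ℂ) → Submodule ℂ E := fun γ => ⨅ i, Module.End.eigenspace (T i) (γ i) with hV
  have hortho : OrthogonalFamily ℂ (fun γ : ι → ℂ => V γ) fun γ => (V γ).subtypeₗᵢ :=
    LinearMap.IsSymmetric.orthogonalFamily_iInf_eigenspaces hT
  have htop : ⨆ γ : ι → ℂ, V γ = ⊤ :=
    LinearMap.IsSymmetric.iSup_iInf_eq_top_of_commute hT (fun i j _ => hC i j)
  let J := Σ γ : ι → ℂ, Fin (finrank ℂ (V γ))
  let w : J → E := fun a => ((stdOrthonormalBasis ℂ (V a.1)) a.2 : E)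
  have hw : Orthonormal ℂ w :=
    hortho.orthonormal_sigma_orthonormal (v_family := fun γ => (stdOrthonormalBasis ℂ (V γ)))
      (fun γ => (stdOrthonormalBasis ℂ (V γ)).orthonormal)
  haveI hfin : Finite J := hw.linearIndependent.finite_of_isNoetherian
  letI : Fintype J := Fintype.ofFinite J
  have hspan : ⊤ ≤ Submodule.span ℂ (Set.range w) := by
    rw [← htop]
    refine iSup_le fun γ => ?_
    intro x hx
    have h1 : (⟨x, hx⟩ : V γ) ∈ Submodule.span ℂ (Set.range (stdOrthonormalBasis ℂ (V γ))) := by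
      rw [← OrthonormalBasis.coe_toBasis, (stdOrthonormalBasis ℂ (V γ)).toBasis.span_eq]
      exact Submodule.mem_top
    have h2 := Submodule.apply_mem_span_image_of_mem_span (V γ).subtype h1
    refine Submodule.span_mono ?_ h2
    rintro _ ⟨_, ⟨k, rfl⟩, rfl⟩
    exact ⟨⟨γ, k⟩, rfl⟩
  let b0 : OrthonormalBasis J ℂ E := OrthonormalBasis.mk hw hspan
  have hcard : Fintype.card J = finrank ℂ E := (finrank_eq_card_basis b0.toBasis).symm
  let e : J ≃ Fin (finrank ℂ E) := Fintype.equivFinOfCardEq hcard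
  refine ⟨b0.reindex e, fun j i => (e.symm j).1 i, fun j i => ?_⟩
  have hb : (b0.reindex e) j = w (e.symm j) := by
    rw [OrthonormalBasis.reindex_apply, OrthonormalBasis.coe_mk]
  rw [hb]
  have hmem : w (e.symm j) ∈ V (e.symm j).1 := ((stdOrthonormalBasis ℂ (V (e.symm j).1)) (e.symm j).2).2
  have hmem' := (Submodule.mem_iInf _).1 hmem i
  exact Module.End.mem_eigenspace_iff.1 hmem'

/-- A set of pairwise commuting elements of a group acting by isometries has a common
orthonormal eigenbasis. -/
theorem exists_orthonormal_eigenbasis {G : Type u} [Group G] (ρ : G →* (E →ₗ[ℂ] E))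
    (hiso : ∀ g v w, ⟪ρ g v, ρ g w⟫_ℂ = ⟪v, w⟫_ℂ) (X : Set G)
    (hX : ∀ a ∈ X, ∀ b ∈ X, a * b = b * a) :
    ∃ (b : OrthonormalBasis (Fin (finrank ℂ E)) ℂ E) (lam : Fin (finrank ℂ E) → G → ℂ),
      ∀ j, ∀ g ∈ X, ρ g (b j) = lam j g • b j := by
  classical
  have hinv : ∀ g v, ρ g (ρ g⁻¹ v) = v := by
    intro g v
    rw [← Module.End.mul_apply, ← map_mul, mul_inv_cancel, map_one, Module.End.one_apply]
  have hadj : ∀ g v w, ⟪ρ g v, w⟫_ℂ = ⟪v, ρ g⁻¹ w⟫_ℂ := by
    intro g v w
    rw [← hiso g v (ρ g⁻¹ w), hinv]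
  have hadj' : ∀ g v w, ⟪ρ g⁻¹ v, w⟫_ℂ = ⟪v, ρ g w⟫_ℂ := by
    intro g v w
    have := hadj g⁻¹ v w
    rwa [inv_inv] at this
  let T : X × Bool → E →ₗ[ℂ] E := fun p =>
    if p.2 then ρ p.1 + ρ (p.1 : G)⁻¹ else Complex.I • (ρ p.1 - ρ (p.1 : G)⁻¹)
  have hT : ∀ p, (T p).IsSymmetric := by
    rintro ⟨g, (_ | _)⟩ v w
    · simp only [T, Bool.false_eq_true, if_false, LinearMap.smul_apply, LinearMap.sub_apply,
        inner_smul_left, inner_smul_right, inner_sub_left, inner_sub_right, hadj, inv_inv,
        Complex.conj_I]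
      ring
    · simp only [T, if_true, LinearMap.add_apply, inner_add_left, inner_add_right, hadj, inv_inv]
      ring
  have hcomm : ∀ a ∈ X, ∀ b ∈ X, Commute (ρ a) (ρ b) := fun a ha b hb =>
    (show Commute a b from hX a ha b hb).map ρ
  have hcomm1 : ∀ a ∈ X, ∀ b ∈ X, Commute (ρ a⁻¹) (ρ b) := fun a ha b hb =>
    ((show Commute a b from hX a ha b hb).inv_left).map ρ
  have hcomm2 : ∀ a ∈ X, ∀ b ∈ X, Commute (ρ a) (ρ b⁻¹) := fun a ha b hb =>
    ((show Commute a b from hX a ha b hb).inv_right).map ρ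
  have hcomm3 : ∀ a ∈ X, ∀ b ∈ X, Commute (ρ a⁻¹) (ρ b⁻¹) := fun a ha b hb =>
    ((show Commute a b from hX a ha b hb).inv_inv).map ρ
  have hC : ∀ p q, Commute (T p) (T q) := by
    rintro ⟨⟨g, hg⟩, (_ | _)⟩ ⟨⟨h, hh⟩, (_ | _)⟩
    · simp only [T, Bool.false_eq_true, if_false]
      exact ((((hcomm g hg h hh).sub_right (hcomm2 g hg h hh)).sub_left
        ((hcomm1 g hg h hh).sub_right (hcomm3 g hg h hh))).smul_right _).smul_left _
    · simp only [T, Bool.false_eq_true, if_false, if_true]
      exact (((hcomm g hg h hh).add_right (hcomm2 g hg h hh)).sub_left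
        ((hcomm1 g hg h hh).add_right (hcomm3 g hg h hh))).smul_left _
    · simp only [T, Bool.false_eq_true, if_false, if_true]
      exact (((hcomm g hg h hh).sub_right (hcomm2 g hg h hh)).add_left
        ((hcomm1 g hg h hh).sub_right (hcomm3 g hg h hh))).smul_right _
    · simp only [T, if_true]
      exact ((hcomm g hg h hh).add_right (hcomm2 g hg h hh)).add_left
        ((hcomm1 g hg h hh).add_right (hcomm3 g hg h hh))
  obtain ⟨b, γ, hb⟩ := exists_orthonormal_eigenbasis_symm T hT hC
  refine ⟨b, fun j g => if hg : g ∈ X then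
    (γ j (⟨g, hg⟩, true) - Complex.I * γ j (⟨g, hg⟩, false)) / 2 else 0, fun j g hg => ?_⟩
  simp only [dif_pos hg]
  have h1 := hb j (⟨g, hg⟩, true)
  have h2 := hb j (⟨g, hg⟩, false)
  simp only [T, if_true, Bool.false_eq_true, if_false, LinearMap.add_apply, LinearMap.smul_apply,
    LinearMap.sub_apply] at h1 h2
  have h3 : (2 : ℂ) • ρ g (b j) = (γ j (⟨g, hg⟩, true) - Complex.I * γ j (⟨g, hg⟩, false)) • b j := by
    rw [sub_smul, mul_smul, ← h1, ← h2, smul_smul, Complex.I_mul_I]
    simp only [neg_smul, one_smul, two_smul]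
    abel
  rw [div_eq_inv_mul, mul_smul, ← h3, smul_smul]
  norm_num

end CE

section Invariant

/-- A representation of a finite group on `Fin n → ℂ` preserves an inner product. -/
theorem exists_invariant_core {G : Type u} [Group G] [Finite G] {n : ℕ}
    (ρ : Representation ℂ G (Fin n → ℂ)) :
    ∃ c : InnerProductSpace.Core ℂ (Fin n → ℂ),
      ∀ g v w, c.inner (ρ g v) (ρ g w) = c.inner v w := by
  classical
  haveI : Fintype G := Fintype.ofFinite G
  let ip : (Fin n → ℂ) → (Fin n → ℂ) → ℂ := fun x y => ∑ g : G, ∑ i, conj (ρ g x i) * ρ g y i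
  have hre : ∀ x, (ip x x).re = ∑ g : G, ∑ i, Complex.normSq (ρ g x i) := by
    intro x
    simp only [ip, Complex.re_sum]
    refine Finset.sum_congr rfl fun g _ => Finset.sum_congr rfl fun i _ => ?_
    rw [mul_comm, Complex.mul_conj, Complex.ofReal_re]
  refine ⟨{ inner := ip
            conj_inner_symm := ?_
            re_inner_nonneg := ?_
            add_left := ?_
            smul_left := ?_
            definite := ?_ }, ?_⟩
  · intro x y
    simp only [ip, map_sum, map_mul, Complex.conj_conj]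
    refine Finset.sum_congr rfl fun g _ => Finset.sum_congr rfl fun i _ => ?_
    ring
  · intro x
    show 0 ≤ (ip x x).re
    rw [hre]
    exact Finset.sum_nonneg fun g _ => Finset.sum_nonneg fun i _ => Complex.normSq_nonneg _
  · intro x y z
    simp only [ip, map_add, Pi.add_apply, add_mul, Finset.sum_add_distrib]
  · intro x y r
    simp only [ip, map_smul, Pi.smul_apply, smul_eq_mul, map_mul, Finset.mul_sum, mul_assoc]
  · intro x hx
    have h0 : (ip x x).re = 0 := by
      have : ip x x = 0 := hx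
      rw [this, Complex.zero_re]
    rw [hre] at h0
    have h1 := (Finset.sum_eq_zero_iff_of_nonneg (fun g _ => Finset.sum_nonneg
      fun i _ => Complex.normSq_nonneg _)).1 h0 1 (Finset.mem_univ _)
    have h2 := (Finset.sum_eq_zero_iff_of_nonneg (fun i _ => Complex.normSq_nonneg _)).1 h1
    funext i
    have h3 := h2 i (Finset.mem_univ _)
    rw [map_one, Module.End.one_apply] at h3
    exact Complex.normSq_eq_zero.1 h3
  · intro h v w
    show ip (ρ h v) (ρ h w) = ip v w
    simp only [ip]
    refine Fintype.sum_equiv (Equiv.mulRight h) _ _ fun g => ?_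
    simp only [Equiv.coe_mulRight, map_mul, Module.End.mul_apply]

end Invariant

end Cfsg.Agent.Lib.Helper78.UnitaryRep
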