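import Mathlib
import Cfsg.Agent.Lib.Helper78.UnitaryRep

set_option autoImplicit false

/-!
# The Frobenius–Blichfeldt theorem on finite unitary groups (helper78)

For a faithful isometric action `ρ` of a finite group `G` on a finite-dimensional complex inner
product space `E`, the elements `g` with `‖g v - v‖² < (2 - √3) ‖v‖²` (all eigenvalues within
30° of 1) pairwise commute; they generate an abelian normal subgroup `A`, and every abelian
subgroup `H` has `[H : H ∩ A] ≤ 12 ^ dim E`.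
-/

namespace Cfsg.Agent.Lib.Helper78.Blichfeldt

open scoped InnerProductSpace ComplexConjugate
open Module

universe u v

variable {G : Type u} [Group G] {E : Type v} [NormedAddCommGroup E] [InnerProductSpace ℂ E]

/-- The constant `2 - √3` (the squared chord of an arc of 30°). -/
noncomputable def kap : ℝ := 2 - Real.sqrt 3

theorem sqrt3_sq : Real.sqrt 3 * Real.sqrt 3 = 3 := Real.mul_self_sqrt (by norm_num)

theorem sqrt3_gt : (3 : ℝ) / 2 < Real.sqrt 3 := by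
  have h := sqrt3_sq
  have h0 : 0 ≤ Real.sqrt 3 := Real.sqrt_nonneg 3
  nlinarith

theorem sqrt3_lt : Real.sqrt 3 < 2 := by
  have h := sqrt3_sq
  have h0 : 0 ≤ Real.sqrt 3 := Real.sqrt_nonneg 3
  nlinarith

theorem kap_pos : 0 < kap := by unfold kap; linarith [sqrt3_lt]

theorem kap_lt : kap < 1 / 2 := by unfold kap; linarith [sqrt3_gt]

/-- The elements moving every vector by less than the chord of 30°. -/
def nearSet (ρ : G →* (E →ₗ[ℂ] E)) : Set G :=
  {g | ∀ v : E, v ≠ 0 → ‖ρ g v - v‖ ^ 2 < kap * ‖v‖ ^ 2}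

/-- `0` is not in the numerical range of `ρ w`. -/
def NR (ρ : G →* (E →ₗ[ℂ] E)) (w : G) : Prop := ∀ v : E, v ≠ 0 → ⟪v, ρ w v⟫_ℂ ≠ 0

section basic

variable (ρ : G →* (E →ₗ[ℂ] E)) (hiso : ∀ g v w, ⟪ρ g v, ρ g w⟫_ℂ = ⟪v, w⟫_ℂ)

include hiso

theorem norm_map (g : G) (v : E) : ‖ρ g v‖ = ‖v‖ := by
  rw [@norm_eq_sqrt_re_inner ℂ, @norm_eq_sqrt_re_inner ℂ _ _ _ _ v, hiso]

omit hiso in
theorem map_inv_cancel (g : G) (v : E) : ρ g (ρ g⁻¹ v) = v := by
  rw [← Module.End.mul_apply, ← map_mul, mul_inv_cancel, map_one, Module.End.one_apply]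

omit hiso in
theorem inv_map_cancel (g : G) (v : E) : ρ g⁻¹ (ρ g v) = v := by
  rw [← Module.End.mul_apply, ← map_mul, inv_mul_cancel, map_one, Module.End.one_apply]

theorem map_ne_zero' (g : G) {v : E} (hv : v ≠ 0) : ρ g v ≠ 0 := by
  intro h
  have := norm_map ρ hiso g v
  rw [h, norm_zero] at this
  exact hv (norm_eq_zero.1 this.symm)

theorem conj_mem_nearSet {g : G} (hg : g ∈ nearSet ρ) (y : G) : y * g * y⁻¹ ∈ nearSet ρ := by
  intro v hv
  have h1 : ρ (y * g * y⁻¹) v - v = ρ y (ρ g (ρ y⁻¹ v) - ρ y⁻¹ v) := by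
    rw [map_sub, map_inv_cancel, map_mul, map_mul, Module.End.mul_apply, Module.End.mul_apply]
  rw [h1, norm_map ρ hiso, ← norm_map ρ hiso y⁻¹ v]
  exact hg _ (map_ne_zero' ρ hiso _ hv)

theorem nr_of_mem_nearSet {g : G} (hg : g ∈ nearSet ρ) : NR ρ g := by
  intro v hv h0
  have h1 := hg v hv
  rw [@norm_sub_sq ℂ, norm_map ρ hiso, ← inner_conj_symm, h0] at h1
  have h2 : 0 < ‖v‖ ^ 2 := by positivity
  simp only [map_zero, mul_zero, sub_zero] at h1
  nlinarith [kap_lt]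

theorem nr_inv_mul {x x' : G} (hx : x ∈ nearSet ρ) (hx' : x' ∈ nearSet ρ) : NR ρ (x⁻¹ * x') := by
  intro v hv h0
  have h1 : ⟪v, ρ (x⁻¹ * x') v⟫_ℂ = ⟪ρ x v, ρ x' v⟫_ℂ := by
    rw [← hiso x v, map_mul, Module.End.mul_apply, map_inv_cancel]
  rw [h1] at h0
  have h2 : ‖ρ x v - ρ x' v‖ ^ 2 = 2 * ‖v‖ ^ 2 := by
    rw [@norm_sub_sq ℂ, norm_map ρ hiso, norm_map ρ hiso, h0]
    simp
    ring
  have h3 : ‖ρ x v - ρ x' v‖ ≤ ‖ρ x v - v‖ + ‖ρ x' v - v‖ := by
    have := norm_sub_le_norm_sub_add_norm_sub (ρ x v) v (ρ x' v)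
    rwa [norm_sub_rev v] at this
  have h4 := hx v hv
  have h5 := hx' v hv
  have h6 : 0 < ‖v‖ ^ 2 := by positivity
  have h7 : ‖ρ x v - ρ x' v‖ ^ 2 ≤ 2 * ‖ρ x v - v‖ ^ 2 + 2 * ‖ρ x' v - v‖ ^ 2 := by
    have h8 : ‖ρ x v - ρ x' v‖ ^ 2 ≤ (‖ρ x v - v‖ + ‖ρ x' v - v‖) ^ 2 :=
      pow_le_pow_left₀ (norm_nonneg _) h3 2
    nlinarith [sq_nonneg (‖ρ x v - v‖ - ‖ρ x' v - v‖)]
  nlinarith [kap_lt]

/-- Eigenvalue facts for an isometry. -/
theorem eigen_norm {g : G} {b : E} (hb : ‖b‖ = 1) {lam : ℂ} (h : ρ g b = lam • b) : ‖lam‖ = 1 := by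
  have := norm_map ρ hiso g b
  rw [h, norm_smul, hb, mul_one] at this
  exact this

theorem eigen_inner {g : G} {b : E} (hb : ‖b‖ = 1) {lam : ℂ} (h : ρ g b = lam • b) (v : E) :
    ⟪b, ρ g v⟫_ℂ = lam * ⟪b, v⟫_ℂ := by
  have h1 : ⟪b, v⟫_ℂ = conj lam * ⟪b, ρ g v⟫_ℂ := by
    rw [← hiso g b v, h, inner_smul_left]
  have h2 : lam * conj lam = 1 := by
    rw [Complex.mul_conj, ← Complex.sq_norm, eigen_norm ρ hiso hb h]
    norm_num
  rw [h1, ← mul_assoc, h2, one_mul]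

end basic

section cplx

theorem norm_sub_one_sq {a : ℂ} (ha : ‖a‖ = 1) : ‖a - 1‖ ^ 2 = 2 - 2 * a.re := by
  have h1 : a.re * a.re + a.im * a.im = 1 := by
    rw [← Complex.normSq_apply, ← Complex.sq_norm, ha]; norm_num
  rw [Complex.sq_norm, Complex.normSq_apply]
  simp only [Complex.sub_re, Complex.one_re, Complex.sub_im, Complex.one_im, sub_zero]
  nlinarith

theorem norm_sub_sq_lt_one {a b : ℂ} (ha : ‖a‖ = 1) (hb : ‖b‖ = 1) (ha1 : ‖a - 1‖ ^ 2 < kap)
    (hb1 : ‖b - 1‖ ^ 2 < kap) : ‖a - b‖ ^ 2 < 1 := by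
  have h1 : a.re * a.re + a.im * a.im = 1 := by
    rw [← Complex.normSq_apply, ← Complex.sq_norm, ha]; norm_num
  have h2 : b.re * b.re + b.im * b.im = 1 := by
    rw [← Complex.normSq_apply, ← Complex.sq_norm, hb]; norm_num
  rw [norm_sub_one_sq ha] at ha1
  rw [norm_sub_one_sq hb] at hb1
  unfold kap at ha1 hb1
  rw [Complex.sq_norm, Complex.normSq_apply]
  simp only [Complex.sub_re, Complex.sub_im]
  have hs := sqrt3_sq
  have hs0 : 0 ≤ Real.sqrt 3 := Real.sqrt_nonneg 3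
  have hp : Real.sqrt 3 / 2 < a.re := by linarith
  have hr : Real.sqrt 3 / 2 < b.re := by linarith
  have hpr : 3 / 4 < a.re * b.re := by nlinarith
  have hq : a.im * a.im < 1 / 4 := by nlinarith
  have hsq : b.im * b.im < 1 / 4 := by nlinarith
  nlinarith [sq_nonneg (a.im + b.im)]

end cplx

section cells

/-- The arc (one of twelve, of 30° each) containing a complex number. -/
noncomputable def cell (a : ℂ) : Fin 12 :=
  ⟨⌊(Real.pi - Complex.arg a) * 6 / Real.pi⌋₊, by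
    have h1 := Complex.neg_pi_lt_arg a
    have h2 := Complex.arg_le_pi a
    have hpi := Real.pi_pos
    rw [Nat.floor_lt (by positivity)]
    rw [div_lt_iff₀ hpi]
    push_cast
    nlinarith⟩

theorem arg_sub_lt_of_cell_eq {a b : ℂ} (h : cell a = cell b) :
    |Complex.arg a - Complex.arg b| < Real.pi / 6 := by
  have hpi := Real.pi_pos
  have h' : ⌊(Real.pi - Complex.arg a) * 6 / Real.pi⌋₊ = ⌊(Real.pi - Complex.arg b) * 6 / Real.pi⌋₊ :=
    Fin.ext_iff.1 h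
  have ha0 : 0 ≤ (Real.pi - Complex.arg a) * 6 / Real.pi := by
    have := Complex.arg_le_pi a
    have h3 : 0 ≤ Real.pi - Complex.arg a := by linarith
    positivity
  have hb0 : 0 ≤ (Real.pi - Complex.arg b) * 6 / Real.pi := by
    have := Complex.arg_le_pi b
    have h3 : 0 ≤ Real.pi - Complex.arg b := by linarith
    positivity
  have a1 := Nat.floor_le ha0
  have a2 := Nat.lt_floor_add_one ((Real.pi - Complex.arg a) * 6 / Real.pi)
  have b1 := Nat.floor_le hb0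
  have b2 := Nat.lt_floor_add_one ((Real.pi - Complex.arg b) * 6 / Real.pi)
  rw [h'] at a1 a2
  have e1 : (Real.pi - Complex.arg a) * 6 / Real.pi - (Real.pi - Complex.arg b) * 6 / Real.pi
      = (Complex.arg b - Complex.arg a) * 6 / Real.pi := by
    field_simp
    ring
  have c1 : (Complex.arg b - Complex.arg a) * 6 / Real.pi < 1 := by rw [← e1]; linarith
  have c2 : -1 < (Complex.arg b - Complex.arg a) * 6 / Real.pi := by rw [← e1]; linarith
  rw [div_lt_iff₀ hpi] at c1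
  rw [lt_div_iff₀ hpi] at c2
  rw [abs_lt]
  constructor <;> linarith

theorem re_of_cell_eq {a b : ℂ} (ha : ‖a‖ = 1) (hb : ‖b‖ = 1) (h : cell a = cell b) :
    Real.sqrt 3 / 2 < (conj a * b).re := by
  have ha0 : a ≠ 0 := by intro h0; rw [h0, norm_zero] at ha; exact zero_ne_one ha
  have hb0 : b ≠ 0 := by intro h0; rw [h0, norm_zero] at hb; exact zero_ne_one hb
  have e1 : a.re = Real.cos (Complex.arg a) := by rw [Complex.cos_arg ha0, ha, div_one]
  have e2 : a.im = Real.sin (Complex.arg a) := by rw [Complex.sin_arg, ha, div_one]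
  have e3 : b.re = Real.cos (Complex.arg b) := by rw [Complex.cos_arg hb0, hb, div_one]
  have e4 : b.im = Real.sin (Complex.arg b) := by rw [Complex.sin_arg, hb, div_one]
  have e5 : (conj a * b).re = Real.cos (Complex.arg a - Complex.arg b) := by
    rw [Real.cos_sub, ← e1, ← e2, ← e3, ← e4]
    simp [Complex.mul_re]
  rw [e5, ← Real.cos_abs, ← Real.cos_pi_div_six]
  exact Real.cos_lt_cos_of_nonneg_of_le_pi (abs_nonneg _) (by linarith [Real.pi_pos])
    (arg_sub_lt_of_cell_eq h)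

end cells

section main

variable [FiniteDimensional ℂ E] (ρ : G →* (E →ₗ[ℂ] E))
  (hiso : ∀ g v w, ⟪ρ g v, ρ g w⟫_ℂ = ⟪v, w⟫_ℂ)

include hiso

omit [FiniteDimensional ℂ E] hiso in
theorem ne_zero_of_norm_one {b : E} (hb : ‖b‖ = 1) : b ≠ 0 := by
  intro h
  rw [h, norm_zero] at hb
  exact zero_ne_one hb

/-- If `x` commutes with the commutator `[x, w]` and `0` is not in the numerical range of `w`,
then `x` and `w` commute. -/
theorem comm_eq_one (hinj : Function.Injective ρ) {x w : G}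
    (hc : x * (x⁻¹ * w⁻¹ * x * w) = (x⁻¹ * w⁻¹ * x * w) * x) (hw : NR ρ w) :
    x⁻¹ * w⁻¹ * x * w = 1 := by
  obtain ⟨z, hz⟩ : ∃ z, z = x⁻¹ * w⁻¹ * x * w := ⟨_, rfl⟩
  rw [← hz] at hc ⊢
  obtain ⟨b, lam, hb⟩ := UnitaryRep.exists_orthonormal_eigenbasis ρ hiso ({x, z} : Set G) (by
    rintro a (rfl | rfl) c (rfl | rfl)
    · rfl
    · exact hc
    · exact hc.symm
    · rfl)
  have hx := fun j => hb j x (by simp)
  have hzz := fun j => hb j z (by simp)
  have key : ∀ j, lam j z = 1 := by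
    intro j
    have hbj : ‖b j‖ = 1 := b.orthonormal.1 j
    have hgrp : w * x * z = x * w := by rw [hz]; group
    have h1 : ρ x (ρ w (b j)) = (lam j z * lam j x) • ρ w (b j) := by
      have h0 : ρ (x * w) (b j) = ρ (w * x * z) (b j) := by rw [hgrp]
      rw [map_mul, map_mul, map_mul, Module.End.mul_apply, Module.End.mul_apply,
        Module.End.mul_apply, hzz j, map_smul, hx j, smul_smul, map_smul] at h0
      exact h0
    have h2 := eigen_inner ρ hiso hbj (hx j) (ρ w (b j))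
    rw [h1, inner_smul_right] at h2
    have h3 : ⟪b j, ρ w (b j)⟫_ℂ ≠ 0 := hw _ (ne_zero_of_norm_one hbj)
    have h4 : lam j x ≠ 0 := by
      intro h
      have := eigen_norm ρ hiso hbj (hx j)
      rw [h, norm_zero] at this
      exact zero_ne_one this
    have h5 : lam j z * lam j x = lam j x := mul_right_cancel₀ h3 h2
    exact mul_right_cancel₀ h4 (by rw [h5, one_mul])
  have h1 : ρ z = ρ 1 := by
    rw [map_one]
    apply b.toBasis.ext
    intro j
    rw [OrthonormalBasis.coe_toBasis, hzz j, key j, one_smul, Module.End.one_apply]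
  exact hinj h1

theorem trace_sum (b : OrthonormalBasis (Fin (finrank ℂ E)) ℂ E) (g : G) :
    ∑ j, ‖ρ g (b j) - b j‖ ^ 2
      = 2 * (finrank ℂ E : ℝ) - 2 * (LinearMap.trace ℂ E (ρ g)).re := by
  rw [LinearMap.trace_eq_sum_inner (ρ g) b, Complex.re_sum, Finset.mul_sum]
  have h : ∀ j, ‖ρ g (b j) - b j‖ ^ 2 = 2 - 2 * (⟪b j, ρ g (b j)⟫_ℂ).re := by
    intro j
    rw [@norm_sub_sq ℂ, norm_map ρ hiso, b.orthonormal.1 j, inner_re_symm]
    simp only [RCLike.re_to_complex]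
    ring
  simp only [h, Finset.sum_sub_distrib, Finset.sum_const, Finset.card_univ, Fintype.card_fin,
    nsmul_eq_mul]
  ring

/-- Commutator contraction: if `x` is near the identity and does not commute with `w`, then the
commutator `[x, w]` is strictly closer to the identity than `w` (in the Frobenius norm). -/
theorem trace_lt (hinj : Function.Injective ρ) {x : G} (hx : x ∈ nearSet ρ) (w : G)
    (hxw : x * w ≠ w * x) :
    (LinearMap.trace ℂ E (ρ w)).re < (LinearMap.trace ℂ E (ρ (x⁻¹ * w⁻¹ * x * w))).re := by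
  obtain ⟨b, lam, hb⟩ := UnitaryRep.exists_orthonormal_eigenbasis ρ hiso ({x} : Set G)
    (by rintro a rfl c rfl; rfl)
  have hbx := fun j => hb j x rfl
  have hbn : ∀ j, ‖b j‖ = 1 := b.orthonormal.1
  have hlam : ∀ j, ‖lam j x‖ = 1 := fun j => eigen_norm ρ hiso (hbn j) (hbx j)
  have hlam1 : ∀ j, ‖lam j x - 1‖ ^ 2 < kap := by
    intro j
    have h := hx (b j) (ne_zero_of_norm_one (hbn j))
    have h' : lam j x • b j - b j = (lam j x - 1) • b j := by rw [sub_smul, one_smul]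
    rw [hbx j, h', norm_smul, hbn j] at h
    simpa using h
  have hpair : ∀ i j, ‖lam i x - lam j x‖ ^ 2 < 1 := fun i j =>
    norm_sub_sq_lt_one (hlam i) (hlam j) (hlam1 i) (hlam1 j)
  obtain ⟨c, hc⟩ : ∃ c, c = x⁻¹ * w⁻¹ * x * w := ⟨_, rfl⟩
  rw [← hc]
  have hgrp : w * x * c = x * w := by rw [hc]; group
  have hD : ∀ j, ‖ρ c (b j) - b j‖ = ‖ρ x (ρ w (b j)) - lam j x • ρ w (b j)‖ := by
    intro j
    have e1 : ρ (w * x) (ρ c (b j)) = ρ x (ρ w (b j)) := by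
      rw [← Module.End.mul_apply, ← map_mul, hgrp, map_mul, Module.End.mul_apply]
    have e2 : ρ (w * x) (b j) = lam j x • ρ w (b j) := by
      rw [map_mul, Module.End.mul_apply, hbx j, map_smul]
    have h1 : ρ x (ρ w (b j)) - lam j x • ρ w (b j) = ρ (w * x) (ρ c (b j) - b j) := by
      rw [map_sub, e1, e2]
    rw [h1, norm_map ρ hiso]
  have hper : ∀ j, ‖ρ c (b j) - b j‖ ^ 2 ≤ ‖ρ w (b j) - b j‖ ^ 2 ∧
      (ρ x (ρ w (b j)) - lam j x • ρ w (b j) ≠ 0 →
        ‖ρ c (b j) - b j‖ ^ 2 < ‖ρ w (b j) - b j‖ ^ 2) := by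
    intro j
    rw [hD j]
    have hvn0 : ‖ρ w (b j)‖ = 1 := by rw [norm_map ρ hiso, hbn j]
    obtain ⟨v, hv⟩ : ∃ v, v = ρ w (b j) := ⟨_, rfl⟩
    rw [← hv] at hvn0 ⊢
    obtain ⟨u, hu⟩ : ∃ u, u = ρ x v - lam j x • v := ⟨_, rfl⟩
    rw [← hu]
    have hcoef : ∀ i, ⟪b i, u⟫_ℂ = (lam i x - lam j x) * ⟪b i, v⟫_ℂ := by
      intro i
      rw [hu, inner_sub_right, eigen_inner ρ hiso (hbn i) (hbx i), inner_smul_right]
      ring
    have hPu : ∑ i, ‖⟪b i, u⟫_ℂ‖ ^ 2 = ‖u‖ ^ 2 := b.sum_sq_norm_inner_right u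
    have hPv : ∑ i, ‖⟪b i, v⟫_ℂ‖ ^ 2 = 1 := by
      rw [b.sum_sq_norm_inner_right v, hvn0]; norm_num
    have hF : ‖v - b j‖ ^ 2 = 2 - 2 * (⟪b j, v⟫_ℂ).re := by
      rw [@norm_sub_sq ℂ, hvn0, hbn j, inner_re_symm]
      simp only [RCLike.re_to_complex]
      ring
    have hcj : 1 - ‖⟪b j, v⟫_ℂ‖ ^ 2 ≤ 2 - 2 * (⟪b j, v⟫_ℂ).re := by
      rw [Complex.sq_norm, Complex.normSq_apply]
      nlinarith [sq_nonneg ((⟪b j, v⟫_ℂ).re - 1), sq_nonneg ((⟪b j, v⟫_ℂ).im)]
    have hterm : ∀ i, ‖⟪b i, u⟫_ℂ‖ ^ 2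
        ≤ ‖⟪b i, v⟫_ℂ‖ ^ 2 - (if i = j then ‖⟪b j, v⟫_ℂ‖ ^ 2 else 0) := by
      intro i
      rw [hcoef i, norm_mul, mul_pow]
      by_cases hij : i = j
      · subst hij; simp
      · rw [if_neg hij, sub_zero]
        have := hpair i j
        have h0 : 0 ≤ ‖⟪b i, v⟫_ℂ‖ ^ 2 := by positivity
        nlinarith
    have hsumd : ∑ i, (‖⟪b i, v⟫_ℂ‖ ^ 2 - (if i = j then ‖⟪b j, v⟫_ℂ‖ ^ 2 else 0))
        = 1 - ‖⟪b j, v⟫_ℂ‖ ^ 2 := by
      rw [Finset.sum_sub_distrib, hPv]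
      simp
    constructor
    · calc ‖u‖ ^ 2 = ∑ i, ‖⟪b i, u⟫_ℂ‖ ^ 2 := hPu.symm
        _ ≤ ∑ i, (‖⟪b i, v⟫_ℂ‖ ^ 2 - (if i = j then ‖⟪b j, v⟫_ℂ‖ ^ 2 else 0)) :=
          Finset.sum_le_sum fun i _ => hterm i
        _ = 1 - ‖⟪b j, v⟫_ℂ‖ ^ 2 := hsumd
        _ ≤ ‖v - b j‖ ^ 2 := by rw [hF]; exact hcj
    · intro hu0
      have hexi : ∃ i, ⟪b i, u⟫_ℂ ≠ 0 := by
        by_contra hall
        push Not at hall
        apply hu0
        have h0 : ‖u‖ ^ 2 = 0 := by rw [← hPu]; simp [hall]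
        simpa using h0
      obtain ⟨i, hi⟩ := hexi
      have hstrict : ‖⟪b i, u⟫_ℂ‖ ^ 2
          < ‖⟪b i, v⟫_ℂ‖ ^ 2 - (if i = j then ‖⟪b j, v⟫_ℂ‖ ^ 2 else 0) := by
        rw [hcoef i] at hi
        have hij : i ≠ j := by rintro rfl; simp at hi
        have hci : ⟪b i, v⟫_ℂ ≠ 0 := right_ne_zero_of_mul hi
        rw [hcoef i, norm_mul, mul_pow, if_neg hij, sub_zero]
        have := hpair i j
        have h0 : 0 < ‖⟪b i, v⟫_ℂ‖ ^ 2 := by positivity
        nlinarith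
      calc ‖u‖ ^ 2 = ∑ i, ‖⟪b i, u⟫_ℂ‖ ^ 2 := hPu.symm
        _ < ∑ i, (‖⟪b i, v⟫_ℂ‖ ^ 2 - (if i = j then ‖⟪b j, v⟫_ℂ‖ ^ 2 else 0)) :=
          Finset.sum_lt_sum (fun i _ => hterm i) ⟨i, Finset.mem_univ _, hstrict⟩
        _ = 1 - ‖⟪b j, v⟫_ℂ‖ ^ 2 := hsumd
        _ ≤ ‖v - b j‖ ^ 2 := by rw [hF]; exact hcj
  have hex : ∃ j, ρ x (ρ w (b j)) - lam j x • ρ w (b j) ≠ 0 := by
    by_contra hall
    push Not at hall
    apply hxw
    apply hinj
    apply b.toBasis.ext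
    intro j
    rw [OrthonormalBasis.coe_toBasis, map_mul, map_mul, Module.End.mul_apply,
      Module.End.mul_apply, hbx j, map_smul]
    exact sub_eq_zero.1 (hall j)
  obtain ⟨j0, hj0⟩ := hex
  have hsum : ∑ j, ‖ρ c (b j) - b j‖ ^ 2 < ∑ j, ‖ρ w (b j) - b j‖ ^ 2 :=
    Finset.sum_lt_sum (fun j _ => (hper j).1) ⟨j0, Finset.mem_univ _, (hper j0).2 hj0⟩
  rw [trace_sum ρ hiso b, trace_sum ρ hiso b] at hsum
  linarith

/-- **Frobenius–Blichfeldt**: near-identity elements of a finite unitary group commute. -/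
theorem nearSet_commute [Finite G] (hinj : Function.Injective ρ) {x y : G}
    (hx : x ∈ nearSet ρ) (hy : y ∈ nearSet ρ) : x * y = y * x := by
  by_contra hxy
  let T : Set G := {w | NR ρ w ∧ x * w ≠ w * x}
  have hT : T.Nonempty := ⟨y, nr_of_mem_nearSet ρ hiso hy, hxy⟩
  obtain ⟨w, hwT, hmax⟩ := Set.exists_max_image T
    (fun g => (LinearMap.trace ℂ E (ρ g)).re) (Set.toFinite T) hT
  have hc1 : x⁻¹ * w⁻¹ * x * w = x⁻¹ * (w⁻¹ * x * w⁻¹⁻¹) := by group
  have hnr : NR ρ (x⁻¹ * w⁻¹ * x * w) := by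
    rw [hc1]
    exact nr_inv_mul ρ hiso hx (conj_mem_nearSet ρ hiso hx w⁻¹)
  have hlt := trace_lt ρ hiso hinj hx w hwT.2
  have hnot : (x⁻¹ * w⁻¹ * x * w) ∉ T := fun h => absurd (hmax _ h) (not_le.2 hlt)
  have hcomm : x * (x⁻¹ * w⁻¹ * x * w) = (x⁻¹ * w⁻¹ * x * w) * x := by
    by_contra h
    exact hnot ⟨hnr, h⟩
  have h1 := comm_eq_one ρ hiso hinj hcomm hwT.1
  apply hwT.2
  have h2 : x * w = w * x * (x⁻¹ * w⁻¹ * x * w) := by group
  rw [h2, h1, mul_one]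

/-- Pigeonhole: an abelian subgroup meets any subgroup containing the near-identity elements in
a subgroup of index at most `12 ^ dim E`. -/
theorem index_le (A : Subgroup G) (hA : nearSet ρ ⊆ A) (H : Subgroup G)
    (hH : ∀ x ∈ H, ∀ y ∈ H, x * y = y * x) :
    (A.subgroupOf H).index ≤ 12 ^ finrank ℂ E := by
  classical
  obtain ⟨b, lam, hb⟩ := UnitaryRep.exists_orthonormal_eigenbasis ρ hiso (H : Set G) hH
  have hbn : ∀ j, ‖b j‖ = 1 := b.orthonormal.1
  have hb0 : ∀ j, b j ≠ 0 := fun j => ne_zero_of_norm_one (hbn j)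
  have hlam : ∀ j, ∀ h ∈ H, ‖lam j h‖ = 1 := fun j h hh =>
    eigen_norm ρ hiso (hbn j) (hb j h hh)
  have hmul : ∀ j, ∀ h1 ∈ H, ∀ h2 ∈ H, lam j (h1⁻¹ * h2) = conj (lam j h1) * lam j h2 := by
    intro j h1 hh1 h2 hh2
    have hm : h1⁻¹ * h2 ∈ H := H.mul_mem (H.inv_mem hh1) hh2
    have e1 : ρ h1 (ρ (h1⁻¹ * h2) (b j)) = ρ h2 (b j) := by
      rw [← Module.End.mul_apply, ← map_mul, mul_inv_cancel_left]
    rw [hb j _ hm, map_smul, hb j h1 hh1, hb j h2 hh2, smul_smul] at e1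
    have e2 : lam j (h1⁻¹ * h2) * lam j h1 = lam j h2 := by
      have h0 := sub_eq_zero.2 e1
      rw [← sub_smul] at h0
      rcases smul_eq_zero.1 h0 with h | h
      · exact sub_eq_zero.1 h
      · exact absurd h (hb0 j)
    have e3 : lam j h1 * conj (lam j h1) = 1 := by
      rw [Complex.mul_conj, ← Complex.sq_norm, hlam j h1 hh1]; norm_num
    calc lam j (h1⁻¹ * h2) = lam j (h1⁻¹ * h2) * (lam j h1 * conj (lam j h1)) := by
          rw [e3, mul_one]
      _ = conj (lam j h1) * lam j h2 := by rw [← e2]; ring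
  let f : H → (Fin (finrank ℂ E) → Fin 12) := fun h j => cell (lam j h)
  have hf : ∀ h1 h2 : H, f h1 = f h2 → (h1 : G)⁻¹ * h2 ∈ nearSet ρ := by
    intro h1 h2 hf12 v hv
    have hg : (h1 : G)⁻¹ * h2 ∈ H := H.mul_mem (H.inv_mem h1.2) h2.2
    have hmu : ∀ j, ‖lam j ((h1 : G)⁻¹ * h2) - 1‖ ^ 2 < kap := by
      intro j
      rw [norm_sub_one_sq (hlam j _ hg), hmul j _ h1.2 _ h2.2]
      have := re_of_cell_eq (hlam j _ h1.2) (hlam j _ h2.2) (congrFun hf12 j)
      unfold kap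
      linarith
    have hco : ∀ j, ⟪b j, ρ ((h1 : G)⁻¹ * h2) v - v⟫_ℂ
        = (lam j ((h1 : G)⁻¹ * h2) - 1) * ⟪b j, v⟫_ℂ := by
      intro j
      rw [inner_sub_right, eigen_inner ρ hiso (hbn j) (hb j _ hg)]
      ring
    rw [← b.sum_sq_norm_inner_right (ρ ((h1 : G)⁻¹ * h2) v - v), ← b.sum_sq_norm_inner_right v,
      Finset.mul_sum]
    have hex : ∃ j, ⟪b j, v⟫_ℂ ≠ 0 := by
      by_contra hall
      push Not at hall
      apply hv
      have h0 : ‖v‖ ^ 2 = 0 := by rw [← b.sum_sq_norm_inner_right v]; simp [hall]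
      simpa using h0
    obtain ⟨j0, hj0⟩ := hex
    refine Finset.sum_lt_sum (fun j _ => ?_) ⟨j0, Finset.mem_univ _, ?_⟩
    · rw [hco j, norm_mul, mul_pow]
      exact mul_le_mul_of_nonneg_right (hmu j).le (by positivity)
    · rw [hco j0, norm_mul, mul_pow]
      exact mul_lt_mul_of_pos_right (hmu j0) (by positivity)
  have hinjq : Function.Injective (fun q : H ⧸ A.subgroupOf H => f q.out) := by
    intro q1 q2 h12
    have h1 := hf q1.out q2.out h12
    have h2 : q1.out⁻¹ * q2.out ∈ A.subgroupOf H := by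
      rw [Subgroup.mem_subgroupOf]
      exact hA h1
    have h3 : ((q1.out : H) : H ⧸ A.subgroupOf H) = q2.out := QuotientGroup.eq.2 h2
    rwa [QuotientGroup.out_eq', QuotientGroup.out_eq'] at h3
  have hle := Nat.card_le_card_of_injective _ hinjq
  have hcard : Nat.card (Fin (finrank ℂ E) → Fin 12) = 12 ^ finrank ℂ E := by
    rw [Nat.card_eq_fintype_card, Fintype.card_fun, Fintype.card_fin, Fintype.card_fin]
  rw [hcard] at hle
  exact hle

/-- **Blichfeldt's form of Jordan's theorem for abelian subgroups**: a finite group acting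
faithfully by isometries on a complex inner product space of dimension `n` has an abelian normal
subgroup `A` such that `[H : H ∩ A] ≤ 12 ^ n` for every abelian subgroup `H`. -/
theorem main [Finite G] (hinj : Function.Injective ρ) :
    ∃ A : Subgroup G, A.Normal ∧ (∀ x ∈ A, ∀ y ∈ A, x * y = y * x) ∧
      ∀ H : Subgroup G, (∀ x ∈ H, ∀ y ∈ H, x * y = y * x) →
        (A.subgroupOf H).index ≤ 12 ^ finrank ℂ E := by
  refine ⟨Subgroup.normalClosure (nearSet ρ), Subgroup.normalClosure_normal, ?_, fun H hH =>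
    index_le ρ hiso _ Subgroup.subset_normalClosure H hH⟩
  have hconj : Group.conjugatesOfSet (nearSet ρ) ⊆ nearSet ρ := by
    intro g hg
    rw [Group.mem_conjugatesOfSet_iff] at hg
    obtain ⟨a, ha, hc⟩ := hg
    obtain ⟨c, rfl⟩ := isConj_iff.1 hc
    exact conj_mem_nearSet ρ hiso ha c
  have hcomm : ∀ a ∈ Group.conjugatesOfSet (nearSet ρ),
      ∀ b ∈ Group.conjugatesOfSet (nearSet ρ), a * b = b * a := fun a ha b hb =>
    nearSet_commute ρ hiso hinj (hconj ha) (hconj hb)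
  intro x hx y hy
  unfold Subgroup.normalClosure at hx hy
  have h1 : Subgroup.closure (Group.conjugatesOfSet (nearSet ρ))
      ≤ Subgroup.centralizer (Group.conjugatesOfSet (nearSet ρ)) := by
    rw [Subgroup.closure_le]
    intro a ha
    rw [SetLike.mem_coe, Subgroup.mem_centralizer_iff]
    intro b hb
    exact hcomm b hb a ha
  have h2 : Subgroup.closure (Group.conjugatesOfSet (nearSet ρ))
      ≤ Subgroup.centralizer (Subgroup.closure (Group.conjugatesOfSet (nearSet ρ)) : Set G) := by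
    rw [Subgroup.closure_le]
    intro a ha
    rw [SetLike.mem_coe, Subgroup.mem_centralizer_iff]
    intro b hb
    exact ((Subgroup.mem_centralizer_iff.1 (h1 hb)) a ha).symm
  exact ((Subgroup.mem_centralizer_iff.1 (h2 hx)) y hy).symm

end main

end Cfsg.Agent.Lib.Helper78.Blichfeldt
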