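import Mathlib
import Cfsg.Agent.Lib.Helper78.Blichfeldt

set_option autoImplicit false

/-!
# Blichfeldt's sixty-degree lemma for groups generated by the conjugates of one element (helper78)

Let the finite group `G` act faithfully, irreducibly and isometrically on a finite-dimensional
complex inner product space, and let `y` be a non-central element whose conjugates generate `G`.
Then `y` has no eigenvalue `ε` such that all eigenvalues `lam` of `y` satisfy `‖lam - ε‖ < 1`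
(are within 60° of `ε`).  Together with a pigeonhole argument this bounds the order of an element
of prime order with few distinct eigenvalues.
-/

namespace Cfsg.Agent.Lib.Helper78.Blich60

open scoped InnerProductSpace ComplexConjugate
open Module

universe u v

variable {G : Type u} [Group G] {E : Type v} [NormedAddCommGroup E] [InnerProductSpace ℂ E]
  [FiniteDimensional ℂ E]

section main

variable (ρ : G →* (E →ₗ[ℂ] E)) (hiso : ∀ g v w, ⟪ρ g v, ρ g w⟫_ℂ = ⟪v, w⟫_ℂ)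

include hiso

omit [FiniteDimensional ℂ E] in
/-- If all eigenvalues of `ρ y` are within `c` of `ε`, then `ρ y - ε` has norm at most `c`. -/
theorem norm_sub_smul_le {y : G} (b : OrthonormalBasis (Fin (finrank ℂ E)) ℂ E)
    (lam : Fin (finrank ℂ E) → ℂ) (hb : ∀ j, ρ y (b j) = lam j • b j) (ε : ℂ) (c : ℝ)
    (hc0 : 0 ≤ c) (hc : ∀ j, ‖lam j - ε‖ ≤ c) (v : E) : ‖ρ y v - ε • v‖ ≤ c * ‖v‖ := by
  have h1 : ∀ j, ⟪b j, ρ y v - ε • v⟫_ℂ = (lam j - ε) * ⟪b j, v⟫_ℂ := by
    intro j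
    rw [inner_sub_right, inner_smul_right,
      Blichfeldt.eigen_inner ρ hiso (b.orthonormal.1 j) (hb j) v]
    ring
  have h2 := b.sum_sq_norm_inner_right (ρ y v - ε • v)
  have h3 := b.sum_sq_norm_inner_right v
  have h4 : ‖ρ y v - ε • v‖ ^ 2 ≤ (c * ‖v‖) ^ 2 := by
    rw [← h2, mul_pow, ← h3, Finset.mul_sum]
    apply Finset.sum_le_sum
    intro j _
    rw [h1 j, norm_mul, mul_pow]
    have h5 : ‖lam j - ε‖ ^ 2 ≤ c ^ 2 := pow_le_pow_left₀ (norm_nonneg _) (hc j) 2
    exact mul_le_mul_of_nonneg_right h5 (sq_nonneg _)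
  exact (pow_le_pow_iff_left₀ (norm_nonneg _) (by positivity) two_ne_zero).1 h4

/-- **Blichfeldt's lemma** (for a group generated by the conjugates of `y`). -/
theorem blichfeldt_simple [Finite G] (hinj : Function.Injective ρ)
    (hirr : ∀ W : Submodule ℂ E, (∀ g : G, ∀ w ∈ W, ρ g w ∈ W) → W = ⊥ ∨ W = ⊤)
    (y : G) (hnc : ∀ H : Subgroup G, H.Normal → y ∈ H → H = ⊤)
    (hycent : ¬ ∀ g : G, y * g = g * y)
    (b : OrthonormalBasis (Fin (finrank ℂ E)) ℂ E) (lam : Fin (finrank ℂ E) → ℂ)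
    (hb : ∀ j, ρ y (b j) = lam j • b j) (j₀ : Fin (finrank ℂ E))
    (hlam : ∀ j, ‖lam j - lam j₀‖ < 1) : False := by
  classical
  obtain ⟨ε, hε⟩ : ∃ ε, ε = lam j₀ := ⟨_, rfl⟩
  rw [← hε] at hlam
  obtain ⟨c, hc0, hc1, hc⟩ : ∃ c : ℝ, 0 ≤ c ∧ c < 1 ∧ ∀ j, ‖lam j - ε‖ ≤ c := by
    obtain ⟨jm, -, hjm⟩ := Finset.exists_max_image Finset.univ (fun j => ‖lam j - ε‖)
      ⟨j₀, Finset.mem_univ _⟩
    exact ⟨‖lam jm - ε‖, norm_nonneg _, hlam jm, fun j => hjm j (Finset.mem_univ j)⟩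
  obtain ⟨N, hN⟩ : ∃ N : E →ₗ[ℂ] E, ∀ v, N v = ρ y v - ε • v :=
    ⟨ρ y - ε • (1 : E →ₗ[ℂ] E), fun v => rfl⟩
  obtain ⟨W, hWdef⟩ : ∃ W : Submodule ℂ E, W = LinearMap.ker N := ⟨_, rfl⟩
  have hW : ∀ v, v ∈ W ↔ N v = 0 := by
    intro v
    rw [hWdef, LinearMap.mem_ker]
  have hNle : ∀ v, ‖N v‖ ≤ c * ‖v‖ := by
    intro v
    rw [hN]
    exact norm_sub_smul_le ρ hiso b lam hb ε c hc0 hc v
  have hεn : ‖ε‖ = 1 := by
    rw [hε]
    exact Blichfeldt.eigen_norm ρ hiso (b.orthonormal.1 j₀) (hb j₀)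
  obtain ⟨P, hPdef⟩ : ∃ P : E →L[ℂ] E, P = W.starProjection := ⟨_, rfl⟩
  obtain ⟨Q, hQdef⟩ : ∃ Q : E →L[ℂ] E, Q = Wᗮ.starProjection := ⟨_, rfl⟩
  have hPQ : ∀ v, P v + Q v = v := by
    intro v
    rw [hPdef, hQdef]
    exact W.starProjection_add_starProjection_orthogonal v
  have hPmem : ∀ v, P v ∈ W := by
    intro v
    rw [hPdef]
    exact W.starProjection_apply_mem v
  have hQW : ∀ w ∈ W, Q w = 0 := by
    intro w hw
    rw [hQdef]
    exact Submodule.starProjection_orthogonal_apply_eq_zero hw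
  have hQle : ∀ v, ‖Q v‖ ≤ ‖v‖ := by
    intro v
    rw [hQdef]
    exact Wᗮ.norm_starProjection_apply_le v
  have hPle : ∀ v, ‖P v‖ ≤ ‖v‖ := by
    intro v
    rw [hPdef]
    exact W.norm_starProjection_apply_le v
  have hPW : ∀ w ∈ W, P w = w := by
    intro w hw
    rw [hPdef]
    exact Submodule.starProjection_eq_self_iff.2 hw
  have hNQ : ∀ v, ‖N v‖ ≤ c * ‖Q v‖ := by
    intro v
    have h1 : N v = N (Q v) := by
      conv_lhs => rw [← hPQ v]
      rw [map_add, (hW _).1 (hPmem v), zero_add]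
    rw [h1]
    exact hNle _
  have hQdist : ∀ v, ∀ w ∈ W, ‖Q v‖ ≤ ‖v - w‖ := by
    intro v w hw
    have h1 : Q v = Q (v - w) := by rw [map_sub, hQW w hw, sub_zero]
    rw [h1]
    exact hQle _
  have hQN : ∀ v, Q (N v) = N v := by
    intro v
    rw [hQdef]
    apply Submodule.starProjection_eq_self_iff.2
    rw [Submodule.mem_orthogonal]
    intro w hw
    have hw' : ρ y w = ε • w := by
      have := (hW w).1 hw
      rw [hN, sub_eq_zero] at this
      exact this
    have h1 : ⟪w, ρ y v⟫_ℂ = ε * ⟪w, v⟫_ℂ := by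
      have h2 : ⟪w, v⟫_ℂ = conj ε * ⟪w, ρ y v⟫_ℂ := by
        rw [← hiso y w v, hw', inner_smul_left]
      have h3 : ε * conj ε = 1 := by
        rw [Complex.mul_conj, ← Complex.sq_norm, hεn]
        norm_num
      rw [h2, ← mul_assoc, h3, one_mul]
    rw [hN, inner_sub_right, inner_smul_right, h1, sub_self]
  obtain ⟨T, hT⟩ : ∃ T : G → E →L[ℂ] E, ∀ k v, T k v = Q (ρ k (P v)) :=
    ⟨fun k => Q ∘L (LinearMap.toContinuousLinearMap (ρ k)) ∘L P, fun k v => rfl⟩
  obtain ⟨φ, hφdef⟩ : ∃ φ : G → ℝ, ∀ k, φ k = ‖T k‖ := ⟨fun k => ‖T k‖, fun k => rfl⟩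
  have hφ0 : ∀ k, 0 ≤ φ k := by
    intro k
    rw [hφdef]
    exact norm_nonneg _
  have hφ1 : ∀ k, φ k ≤ 1 := by
    intro k
    rw [hφdef]
    apply ContinuousLinearMap.opNorm_le_bound _ zero_le_one
    intro v
    rw [one_mul, hT]
    calc ‖Q (ρ k (P v))‖ ≤ ‖ρ k (P v)‖ := hQle _
      _ = ‖P v‖ := Blichfeldt.norm_map ρ hiso k _
      _ ≤ ‖v‖ := hPle v
  have hφle : ∀ k, ∀ u ∈ W, ‖Q (ρ k u)‖ ≤ φ k * ‖u‖ := by
    intro k u hu
    have h1 := ContinuousLinearMap.le_opNorm (T k) u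
    rw [hT, hPW u hu] at h1
    rw [hφdef]
    exact h1
  have hφbd : ∀ k (B : ℝ), 0 ≤ B → (∀ u ∈ W, ‖Q (ρ k u)‖ ≤ B * ‖u‖) → φ k ≤ B := by
    intro k B hB h
    rw [hφdef]
    apply ContinuousLinearMap.opNorm_le_bound _ hB
    intro v
    rw [hT]
    calc ‖Q (ρ k (P v))‖ ≤ B * ‖P v‖ := h _ (hPmem v)
      _ ≤ B * ‖v‖ := mul_le_mul_of_nonneg_left (hPle v) hB
  have hstab : ∀ k, φ k = 0 → ∀ u ∈ W, ρ k u ∈ W := by
    intro k hk u hu
    have h1 := hφle k u hu
    rw [hk, zero_mul] at h1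
    have h2 : Q (ρ k u) = 0 := norm_le_zero_iff.1 h1
    have h3 := hPQ (ρ k u)
    rw [h2, add_zero] at h3
    rw [← h3]
    exact hPmem _
  have hconj : ∀ k u, ρ (k⁻¹ * y * k) u - ε • u = ρ k⁻¹ (N (ρ k u)) := by
    intro k u
    rw [hN, map_sub, map_smul, map_mul, map_mul, Module.End.mul_apply, Module.End.mul_apply,
      Blichfeldt.inv_map_cancel ρ k u]
  have hM1 : ∀ k, φ (k⁻¹ * y * k) ≤ c * φ k := by
    intro k
    apply hφbd _ _ (mul_nonneg hc0 (hφ0 k))
    intro u hu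
    have hεu : ε • u ∈ W := W.smul_mem ε hu
    calc ‖Q (ρ (k⁻¹ * y * k) u)‖ ≤ ‖ρ (k⁻¹ * y * k) u - ε • u‖ := hQdist _ _ hεu
      _ = ‖N (ρ k u)‖ := by rw [hconj, Blichfeldt.norm_map ρ hiso]
      _ ≤ c * ‖Q (ρ k u)‖ := hNQ _
      _ ≤ c * (φ k * ‖u‖) := mul_le_mul_of_nonneg_left (hφle k u hu) hc0
      _ = c * φ k * ‖u‖ := by ring
  have hM2 : ∀ k, φ (k⁻¹ * y * k) = 0 → φ k = 0 ∨ 1 ≤ φ k := by
    intro k hk
    by_cases hall : ∀ u ∈ W, N (ρ k u) = 0
    · left
      apply le_antisymm _ (hφ0 k)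
      apply hφbd k 0 le_rfl
      intro u hu
      have h1 : ρ k u ∈ W := (hW _).2 (hall u hu)
      rw [hQW _ h1, norm_zero, zero_mul]
    · right
      push Not at hall
      obtain ⟨u, hu, hne⟩ := hall
      have hu'W : ρ (k⁻¹ * y * k) u - ε • u ∈ W :=
        W.sub_mem (hstab _ hk u hu) (W.smul_mem ε hu)
      have hu'z : ρ k (ρ (k⁻¹ * y * k) u - ε • u) = N (ρ k u) := by
        rw [hconj, Blichfeldt.map_inv_cancel ρ k]
      have h1 := hφle k _ hu'W
      rw [hu'z, hQN] at h1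
      have h2 : ‖ρ (k⁻¹ * y * k) u - ε • u‖ = ‖N (ρ k u)‖ := by
        rw [← hu'z, Blichfeldt.norm_map ρ hiso]
      rw [h2] at h1
      have hzpos : 0 < ‖N (ρ k u)‖ := norm_pos_iff.2 hne
      by_contra hlt
      push Not at hlt
      have h3 : φ k * ‖N (ρ k u)‖ < 1 * ‖N (ρ k u)‖ := mul_lt_mul_of_pos_right hlt hzpos
      linarith
  have hM3 : ∀ k, φ k ≠ 0 → 1 ≤ φ k := by
    by_contra hcon
    push Not at hcon
    obtain ⟨k1, hk1, hk1'⟩ := hcon
    have := Fintype.ofFinite G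
    obtain ⟨k₀, hk₀S, hmin⟩ := Finset.exists_min_image
      (Finset.univ.filter (fun k : G => φ k ≠ 0)) φ ⟨k1, by simp [hk1]⟩
    have hk₀ : φ k₀ ≠ 0 := (Finset.mem_filter.1 hk₀S).2
    have hpos : 0 < φ k₀ := lt_of_le_of_ne (hφ0 k₀) (Ne.symm hk₀)
    have hlt : φ (k₀⁻¹ * y * k₀) < φ k₀ := lt_of_le_of_lt (hM1 k₀) (by nlinarith)
    have hz : φ (k₀⁻¹ * y * k₀) = 0 := by
      by_contra hne
      have := hmin (k₀⁻¹ * y * k₀) (by simp [hne])
      linarith
    rcases hM2 k₀ hz with h | h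
    · exact hk₀ h
    · have := hmin k1 (by simp [hk1])
      linarith
  have hM4 : ∀ k, ∀ u ∈ W, ρ (k⁻¹ * y * k) u ∈ W := by
    intro k
    apply hstab
    by_contra hne
    have h1 := hM3 _ hne
    have h2 := hM1 k
    have h3 := hφ1 k
    nlinarith [hφ0 k]
  -- the stabilizer of `W`
  have hpow : ∀ h : G, (∀ u ∈ W, ρ h u ∈ W) → ∀ n : ℕ, ∀ u ∈ W, ρ (h ^ n) u ∈ W := by
    intro h hh n
    induction n with
    | zero =>
      intro u hu
      rw [pow_zero, map_one, Module.End.one_apply]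
      exact hu
    | succ n ih =>
      intro u hu
      rw [pow_succ, map_mul, Module.End.mul_apply]
      exact ih _ (hh u hu)
  have hinvst : ∀ h : G, (∀ u ∈ W, ρ h u ∈ W) → ∀ u ∈ W, ρ h⁻¹ u ∈ W := by
    intro h hh
    have h1 : h⁻¹ = h ^ (orderOf h - 1) := by
      have hpos : 0 < orderOf h := orderOf_pos h
      have h2 : h * h ^ (orderOf h - 1) = 1 := by
        rw [← pow_succ', Nat.sub_add_cancel hpos, pow_orderOf_eq_one]
      exact inv_eq_of_mul_eq_one_right h2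
    rw [h1]
    exact hpow h hh _
  let H : Subgroup G :=
    { carrier := {h | (∀ u ∈ W, ρ h u ∈ W) ∧ ∀ u ∈ W, ρ h⁻¹ u ∈ W}
      mul_mem' := by
        rintro a c ⟨ha, ha'⟩ ⟨hc, hc'⟩
        refine ⟨fun u hu => ?_, fun u hu => ?_⟩
        · rw [map_mul, Module.End.mul_apply]
          exact ha _ (hc u hu)
        · rw [mul_inv_rev, map_mul, Module.End.mul_apply]
          exact hc' _ (ha' u hu)
      one_mem' := by
        refine ⟨fun u hu => ?_, fun u hu => ?_⟩
        · rw [map_one, Module.End.one_apply]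
          exact hu
        · rw [inv_one, map_one, Module.End.one_apply]
          exact hu
      inv_mem' := by
        rintro a ⟨ha, ha'⟩
        refine ⟨ha', ?_⟩
        rw [inv_inv]
        exact ha }
  have hHle : Subgroup.normalClosure ({y} : Set G) ≤ H := by
    unfold Subgroup.normalClosure
    rw [Subgroup.closure_le]
    intro g hg
    rw [Group.mem_conjugatesOfSet_iff] at hg
    obtain ⟨a, ha, hcj⟩ := hg
    rw [Set.mem_singleton_iff] at ha
    subst ha
    obtain ⟨k, rfl⟩ := isConj_iff.1 hcj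
    have h1 : ∀ u ∈ W, ρ (k * a * k⁻¹) u ∈ W := by
      have := hM4 k⁻¹
      rw [inv_inv] at this
      exact this
    exact ⟨h1, hinvst _ h1⟩
  have htop : Subgroup.normalClosure ({y} : Set G) = ⊤ :=
    hnc _ Subgroup.normalClosure_normal (Subgroup.subset_normalClosure (Set.mem_singleton y))
  have hinvW : ∀ g : G, ∀ w ∈ W, ρ g w ∈ W := by
    intro g
    have hg : g ∈ H := hHle (by rw [htop]; exact Subgroup.mem_top g)
    exact hg.1
  rcases hirr W hinvW with hbot | hWtop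
  · have hbj : b j₀ ∈ W := by
      rw [hW, hN, hb j₀, hε, sub_self]
    rw [hbot, Submodule.mem_bot] at hbj
    have hn : ‖b j₀‖ = 1 := b.orthonormal.1 j₀
    rw [hbj, norm_zero] at hn
    exact zero_ne_one hn
  · apply hycent
    intro g
    apply hinj
    rw [map_mul, map_mul]
    apply LinearMap.ext
    intro v
    have e1 : ∀ w : E, ρ y w = ε • w := by
      intro w
      have hw : w ∈ W := by rw [hWtop]; exact Submodule.mem_top
      have := (hW w).1 hw
      rw [hN, sub_eq_zero] at this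
      exact this
    rw [Module.End.mul_apply, Module.End.mul_apply, e1, e1, map_smul]

end main

section cells

/-- The arc (one of six, of 60° each) containing a complex number. -/
noncomputable def cell6 (a : ℂ) : Fin 6 :=
  ⟨⌊(Real.pi - Complex.arg a) * 3 / Real.pi⌋₊, by
    have h1 := Complex.neg_pi_lt_arg a
    have h2 := Complex.arg_le_pi a
    have hpi := Real.pi_pos
    rw [Nat.floor_lt (by positivity)]
    rw [div_lt_iff₀ hpi]
    push_cast
    nlinarith⟩

theorem arg_sub_lt_of_cell6_eq {a b : ℂ} (h : cell6 a = cell6 b) :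
    |Complex.arg a - Complex.arg b| < Real.pi / 3 := by
  have hpi := Real.pi_pos
  have h' : ⌊(Real.pi - Complex.arg a) * 3 / Real.pi⌋₊ = ⌊(Real.pi - Complex.arg b) * 3 / Real.pi⌋₊ :=
    Fin.ext_iff.1 h
  have ha0 : 0 ≤ (Real.pi - Complex.arg a) * 3 / Real.pi := by
    have := Complex.arg_le_pi a
    have h3 : 0 ≤ Real.pi - Complex.arg a := by linarith
    positivity
  have hb0 : 0 ≤ (Real.pi - Complex.arg b) * 3 / Real.pi := by
    have := Complex.arg_le_pi b
    have h3 : 0 ≤ Real.pi - Complex.arg b := by linarith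
    positivity
  have a1 := Nat.floor_le ha0
  have a2 := Nat.lt_floor_add_one ((Real.pi - Complex.arg a) * 3 / Real.pi)
  have b1 := Nat.floor_le hb0
  have b2 := Nat.lt_floor_add_one ((Real.pi - Complex.arg b) * 3 / Real.pi)
  rw [h'] at a1 a2
  have e1 : (Real.pi - Complex.arg a) * 3 / Real.pi - (Real.pi - Complex.arg b) * 3 / Real.pi
      = (Complex.arg b - Complex.arg a) * 3 / Real.pi := by
    field_simp
    ring
  have c1 : (Complex.arg b - Complex.arg a) * 3 / Real.pi < 1 := by rw [← e1]; linarith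
  have c2 : -1 < (Complex.arg b - Complex.arg a) * 3 / Real.pi := by rw [← e1]; linarith
  rw [div_lt_iff₀ hpi] at c1
  rw [lt_div_iff₀ hpi] at c2
  rw [abs_lt]
  constructor <;> linarith

theorem norm_sub_lt_of_cell6_eq {a b : ℂ} (ha : ‖a‖ = 1) (hb : ‖b‖ = 1) (h : cell6 a = cell6 b) :
    ‖a - b‖ < 1 := by
  have ha0 : a ≠ 0 := by intro h0; rw [h0, norm_zero] at ha; exact zero_ne_one ha
  have hb0 : b ≠ 0 := by intro h0; rw [h0, norm_zero] at hb; exact zero_ne_one hb
  have e1 : a.re = Real.cos (Complex.arg a) := by rw [Complex.cos_arg ha0, ha, div_one]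
  have e2 : a.im = Real.sin (Complex.arg a) := by rw [Complex.sin_arg, ha, div_one]
  have e3 : b.re = Real.cos (Complex.arg b) := by rw [Complex.cos_arg hb0, hb, div_one]
  have e4 : b.im = Real.sin (Complex.arg b) := by rw [Complex.sin_arg, hb, div_one]
  have e5 : a.re * b.re + a.im * b.im = Real.cos (Complex.arg a - Complex.arg b) := by
    rw [Real.cos_sub, ← e1, ← e2, ← e3, ← e4]
  have hre : 1 / 2 < a.re * b.re + a.im * b.im := by
    rw [e5, ← Real.cos_abs, ← Real.cos_pi_div_three]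
    exact Real.cos_lt_cos_of_nonneg_of_le_pi (abs_nonneg _) (by linarith [Real.pi_pos])
      (arg_sub_lt_of_cell6_eq h)
  have h1 : a.re * a.re + a.im * a.im = 1 := by
    rw [← Complex.normSq_apply, ← Complex.sq_norm, ha]; norm_num
  have h2 : b.re * b.re + b.im * b.im = 1 := by
    rw [← Complex.normSq_apply, ← Complex.sq_norm, hb]; norm_num
  have hsq : ‖a - b‖ ^ 2 < 1 := by
    rw [Complex.sq_norm, Complex.normSq_apply]
    simp only [Complex.sub_re, Complex.sub_im]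
    nlinarith
  have hn := norm_nonneg (a - b)
  nlinarith

/-- Pigeonhole: some power `d ≤ 6 ^ m` brings `m` unit complex numbers within 60° of `1`. -/
theorem exists_pow_near (Λ : Finset ℂ) (hΛ : ∀ z ∈ Λ, ‖z‖ = 1) (m : ℕ) (hm : Λ.card ≤ m) :
    ∃ d : ℕ, 0 < d ∧ d ≤ 6 ^ m ∧ ∀ z ∈ Λ, ‖z ^ d - 1‖ < 1 := by
  classical
  let f : Fin (6 ^ m + 1) → (Λ → Fin 6) := fun j z => cell6 ((z : ℂ) ^ (j : ℕ))
  have hcard : Fintype.card (Λ → Fin 6) < Fintype.card (Fin (6 ^ m + 1)) := by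
    rw [Fintype.card_fun, Fintype.card_fin, Fintype.card_fin, Fintype.card_coe]
    calc 6 ^ Λ.card ≤ 6 ^ m := Nat.pow_le_pow_right (by norm_num) hm
      _ < 6 ^ m + 1 := Nat.lt_succ_self _
  obtain ⟨j1, j2, hne, heq⟩ := Fintype.exists_ne_map_eq_of_card_lt f hcard
  have key : ∀ j1 j2 : Fin (6 ^ m + 1), (j1 : ℕ) < (j2 : ℕ) → f j1 = f j2 →
      ∃ d : ℕ, 0 < d ∧ d ≤ 6 ^ m ∧ ∀ z ∈ Λ, ‖z ^ d - 1‖ < 1 := by
    intro j1 j2 hlt heq
    refine ⟨(j2 : ℕ) - (j1 : ℕ), by omega, by have := j2.2; omega, ?_⟩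
    intro z hz
    have h1 : cell6 (z ^ (j1 : ℕ)) = cell6 (z ^ (j2 : ℕ)) := congrFun heq ⟨z, hz⟩
    have hz1 := hΛ z hz
    have h2 : ‖z ^ (j2 : ℕ) - z ^ (j1 : ℕ)‖ < 1 :=
      norm_sub_lt_of_cell6_eq (by rw [norm_pow, hz1, one_pow]) (by rw [norm_pow, hz1, one_pow])
        h1.symm
    have h3 : z ^ (j2 : ℕ) - z ^ (j1 : ℕ) = z ^ (j1 : ℕ) * (z ^ ((j2 : ℕ) - (j1 : ℕ)) - 1) := by
      rw [mul_sub, mul_one, ← pow_add, Nat.add_sub_cancel' hlt.le]
    rw [h3, norm_mul, norm_pow, hz1, one_pow, one_mul] at h2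
    exact h2
  rcases lt_trichotomy (j1 : ℕ) (j2 : ℕ) with h | h | h
  · exact key j1 j2 h heq
  · exact absurd (Fin.ext h) hne
  · exact key j2 j1 h heq.symm

end cells

section core

variable (ρ : G →* (E →ₗ[ℂ] E)) (hiso : ∀ g v w, ⟪ρ g v, ρ g w⟫_ℂ = ⟪v, w⟫_ℂ)

include hiso

/-- In a group all of whose nontrivial elements are non-central and generate the group with
their conjugates (a nonabelian simple group), acting faithfully, irreducibly and isometrically:
an element `x` of prime order `p` whose eigenvalue multiplicities are all divisible by `s`, in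
dimension `t * s`, forces `p ≤ 6 ^ (t - 1)`. -/
theorem core [Finite G] (hinj : Function.Injective ρ)
    (hirr : ∀ W : Submodule ℂ E, (∀ g : G, ∀ w ∈ W, ρ g w ∈ W) → W = ⊥ ∨ W = ⊤)
    (hsimple : ∀ H : Subgroup G, H.Normal → H = ⊥ ∨ H = ⊤)
    (hcent : ∀ z : G, (∀ g : G, z * g = g * z) → z = 1)
    (x : G) (hx1 : x ≠ 1) (p : ℕ) (hp : p.Prime) (hxp : x ^ p = 1)
    (s t : ℕ) (hs : 0 < s) (ht : 0 < t) (hfin : finrank ℂ E = t * s) (hp6 : 6 ^ (t - 1) < p)
    (hdiv : ∀ ζ : ℂ, ζ ^ p = 1 → ∀ m : ℕ,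
      ∑ j ∈ Finset.range p, LinearMap.trace ℂ E (ρ (x ^ j)) * (ζ⁻¹) ^ j = (p : ℂ) * m → s ∣ m) :
    False := by
  classical
  obtain ⟨b, lam', hb'⟩ := UnitaryRep.exists_orthonormal_eigenbasis ρ hiso ({x} : Set G)
    (by rintro a rfl c rfl; rfl)
  obtain ⟨lam, hlamdef⟩ : ∃ lam : Fin (finrank ℂ E) → ℂ, ∀ i, lam i = lam' i x :=
    ⟨fun i => lam' i x, fun i => rfl⟩
  have hb : ∀ i, ρ x (b i) = lam i • b i := by
    intro i
    rw [hlamdef]
    exact hb' i x rfl
  have hbn : ∀ i, ‖b i‖ = 1 := b.orthonormal.1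
  have hlamn : ∀ i, ‖lam i‖ = 1 := fun i => Blichfeldt.eigen_norm ρ hiso (hbn i) (hb i)
  have hbpow : ∀ (d : ℕ) i, ρ (x ^ d) (b i) = lam i ^ d • b i := by
    intro d
    induction d with
    | zero =>
      intro i
      rw [pow_zero, map_one, Module.End.one_apply, pow_zero, one_smul]
    | succ d ih =>
      intro i
      rw [pow_succ, map_mul, Module.End.mul_apply, hb i, map_smul, ih i, smul_smul, pow_succ,
        mul_comm]
  have hbne : ∀ i, b i ≠ 0 := by
    intro i h0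
    have := hbn i
    rw [h0, norm_zero] at this
    exact zero_ne_one this
  have hlamp : ∀ i, lam i ^ p = 1 := by
    intro i
    have h1 := hbpow p i
    rw [hxp, map_one, Module.End.one_apply] at h1
    have h2 : (lam i ^ p - 1) • b i = 0 := by rw [sub_smul, one_smul, ← h1, sub_self]
    rcases smul_eq_zero.1 h2 with h3 | h3
    · exact sub_eq_zero.1 h3
    · exact absurd h3 (hbne i)
  have htr : ∀ d : ℕ, LinearMap.trace ℂ E (ρ (x ^ d)) = ∑ i, lam i ^ d := by
    intro d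
    rw [LinearMap.trace_eq_sum_inner (ρ (x ^ d)) b]
    apply Finset.sum_congr rfl
    intro i _
    rw [hbpow d i, inner_smul_right, inner_self_eq_norm_sq_to_K, hbn i]
    simp
  have hmult : ∀ ζ : ℂ, ζ ^ p = 1 → s ∣ (Finset.univ.filter (fun i => lam i = ζ)).card := by
    intro ζ hζ
    apply hdiv ζ hζ
    have hζ0 : ζ ≠ 0 := by
      rintro rfl
      rw [zero_pow hp.ne_zero] at hζ
      exact zero_ne_one hζ
    have h1 : ∀ i, ∑ j ∈ Finset.range p, (lam i * ζ⁻¹) ^ j
        = if lam i = ζ then (p : ℂ) else 0 := by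
      intro i
      by_cases h : lam i = ζ
      · rw [if_pos h, h, mul_inv_cancel₀ hζ0]
        simp
      · rw [if_neg h]
        have hw : lam i * ζ⁻¹ ≠ 1 := by
          intro e
          apply h
          have := congrArg (fun z => z * ζ) e
          simp only [one_mul, mul_assoc, inv_mul_cancel₀ hζ0, mul_one] at this
          exact this
        have hwp : (lam i * ζ⁻¹) ^ p = 1 := by
          rw [mul_pow, inv_pow, hlamp i, hζ, inv_one, mul_one]
        rw [geom_sum_eq hw p, hwp, sub_self, zero_div]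
    calc ∑ j ∈ Finset.range p, LinearMap.trace ℂ E (ρ (x ^ j)) * (ζ⁻¹) ^ j
        = ∑ j ∈ Finset.range p, ∑ i, (lam i * ζ⁻¹) ^ j := by
          apply Finset.sum_congr rfl
          intro j _
          rw [htr j, Finset.sum_mul]
          apply Finset.sum_congr rfl
          intro i _
          rw [mul_pow]
      _ = ∑ i, ∑ j ∈ Finset.range p, (lam i * ζ⁻¹) ^ j := Finset.sum_comm
      _ = ∑ i, (if lam i = ζ then (p : ℂ) else 0) := Finset.sum_congr rfl (fun i _ => h1 i)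
      _ = (p : ℂ) * ((Finset.univ.filter (fun i => lam i = ζ)).card : ℂ) := by
          rw [← Finset.sum_filter, Finset.sum_const, nsmul_eq_mul, mul_comm]
  have hcardΛ : (Finset.univ.image lam).card ≤ t := by
    have h1 : (Finset.univ : Finset (Fin (finrank ℂ E))).card
        = ∑ ζ ∈ Finset.univ.image lam, (Finset.univ.filter (fun i => lam i = ζ)).card :=
      Finset.card_eq_sum_card_image lam Finset.univ
    have h2 : ∀ ζ ∈ Finset.univ.image lam,
        s ≤ (Finset.univ.filter (fun i => lam i = ζ)).card := by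
      intro ζ hζ
      obtain ⟨i, -, rfl⟩ := Finset.mem_image.1 hζ
      have hd := hmult (lam i) (hlamp i)
      have hpos : 0 < (Finset.univ.filter (fun i' => lam i' = lam i)).card :=
        Finset.card_pos.2 ⟨i, by simp⟩
      exact Nat.le_of_dvd hpos hd
    have hc : (Finset.univ : Finset (Fin (finrank ℂ E))).card = finrank ℂ E := by simp
    have h3 : (Finset.univ.image lam).card * s ≤ t * s := by
      calc (Finset.univ.image lam).card * s = ∑ ζ ∈ Finset.univ.image lam, s := by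
            rw [Finset.sum_const, smul_eq_mul]
        _ ≤ ∑ ζ ∈ Finset.univ.image lam, (Finset.univ.filter (fun i => lam i = ζ)).card :=
            Finset.sum_le_sum h2
        _ = finrank ℂ E := by rw [← h1, hc]
        _ = t * s := hfin
    exact Nat.le_of_mul_le_mul_right h3 hs
  have hpos : 0 < finrank ℂ E := by
    rw [hfin]
    positivity
  obtain ⟨i₀⟩ : Nonempty (Fin (finrank ℂ E)) := ⟨⟨0, hpos⟩⟩
  have h0 : lam i₀ ≠ 0 := by
    intro h
    have := hlamn i₀
    rw [h, norm_zero] at this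
    exact zero_ne_one this
  obtain ⟨Λ, hΛ⟩ : ∃ Λ : Finset ℂ, Λ = (Finset.univ.image (fun i => lam i / lam i₀)).erase 1 :=
    ⟨_, rfl⟩
  have hΛcard : Λ.card ≤ t - 1 := by
    have h1 : (1 : ℂ) ∈ Finset.univ.image (fun i => lam i / lam i₀) :=
      Finset.mem_image.2 ⟨i₀, Finset.mem_univ _, div_self h0⟩
    rw [hΛ, Finset.card_erase_of_mem h1]
    have h2 : (Finset.univ.image (fun i => lam i / lam i₀)).card
        ≤ (Finset.univ.image lam).card := by
      have h3 : Finset.univ.image (fun i => lam i / lam i₀)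
          = (Finset.univ.image lam).image (fun z => z / lam i₀) := by
        rw [Finset.image_image]
        rfl
      rw [h3]
      exact Finset.card_image_le
    omega
  have hΛn : ∀ z ∈ Λ, ‖z‖ = 1 := by
    intro z hz
    rw [hΛ] at hz
    obtain ⟨i, -, rfl⟩ := Finset.mem_image.1 (Finset.mem_of_mem_erase hz)
    rw [norm_div, hlamn, hlamn, div_one]
  obtain ⟨d, hd0, hd6, hdΛ⟩ := exists_pow_near Λ hΛn (t - 1) hΛcard
  have hdp : d < p := lt_of_le_of_lt hd6 hp6
  have := Fact.mk hp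
  have hord : orderOf x = p := orderOf_eq_prime hxp hx1
  have hy1 : x ^ d ≠ 1 := by
    intro e
    have h1 := orderOf_dvd_of_pow_eq_one e
    rw [hord] at h1
    exact absurd (Nat.le_of_dvd hd0 h1) (not_le.2 hdp)
  refine blichfeldt_simple ρ hiso hinj hirr (x ^ d) ?_ ?_ b (fun i => lam i ^ d) (hbpow d) i₀ ?_
  · intro H hH hyH
    rcases hsimple H hH with h | h
    · rw [h, Subgroup.mem_bot] at hyH
      exact absurd hyH hy1
    · exact h
  · intro hc
    exact hy1 (hcent _ hc)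
  · intro i
    have h1 : ‖(lam i / lam i₀) ^ d - 1‖ < 1 := by
      by_cases h : lam i / lam i₀ = 1
      · rw [h, one_pow, sub_self, norm_zero]
        exact one_pos
      · apply hdΛ
        rw [hΛ]
        exact Finset.mem_erase.2 ⟨h, Finset.mem_image.2 ⟨i, Finset.mem_univ _, rfl⟩⟩
    have h2 : lam i ^ d - lam i₀ ^ d = lam i₀ ^ d * ((lam i / lam i₀) ^ d - 1) := by
      rw [div_pow]
      field_simp
    show ‖lam i ^ d - lam i₀ ^ d‖ < 1
    rw [h2, norm_mul, norm_pow, hlamn, one_pow, one_mul]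
    exact h1

end core

end Cfsg.Agent.Lib.Helper78.Blich60
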