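import Cfsg.Agent.Lib.Helper78.BrCPerLib

/-! S4504 part C, piece PerClass (from PerMul). -/

set_option autoImplicit false

namespace Cfsg.Agent.Lib.Helper78.BrCPerClass

open Cfsg.Agent.Lib.Lead Cfsg.Agent.Lib.Lead.BrHalf Cfsg.Agent.Lib.Helper78.BrCPerLib

theorem main (hPM : BrHalf.PerMul) : BrHalf.PerClass := by
  intro p _ ζ hζ a k hpa
  have ha0 : ((a : ℕ) : ZMod p) ≠ 0 := by
    rw [Ne, ZMod.natCast_eq_zero_iff]
    exact hpa
  constructor
  · intro hsq
    have := hPM p ζ hζ 1 a ha0 hsq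
    rwa [one_mul] at this
  · intro hna hnk
    have hk0 : ((k : ℕ) : ZMod p) ≠ 0 := by
      intro h0
      apply hnk
      rw [h0]
      exact IsSquare.zero
    set b : ℕ := (((a : ZMod p)) * ((k : ZMod p))⁻¹).val with hb
    have hbcast : ((b : ℕ) : ZMod p) = (a : ZMod p) * (k : ZMod p)⁻¹ := ZMod.natCast_zmod_val _
    have hne : (a : ZMod p) * (k : ZMod p)⁻¹ ≠ 0 := mul_ne_zero ha0 (inv_ne_zero hk0)
    have hb0 : ((b : ℕ) : ZMod p) ≠ 0 := by
      rw [hbcast]
      exact hne
    have hbsq : IsSquare ((b : ℕ) : ZMod p) := by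
      rw [hbcast, ← quadraticChar_one_iff_isSquare hne, map_mul,
        quadraticChar_neg_one_iff_not_isSquare.mpr hna]
      have hki : quadraticChar (ZMod p) ((k : ZMod p)⁻¹) = -1 := by
        rw [quadraticChar_neg_one_iff_not_isSquare]
        intro h
        apply hnk
        have h2 := h.inv
        rwa [inv_inv] at h2
      rw [hki]
      norm_num
    have h1 := hPM p ζ hζ k b hb0 hbsq
    rw [← h1]
    apply per_congr hζ
    rw [Nat.cast_mul, hbcast]
    field_simp

end Cfsg.Agent.Lib.Helper78.BrCPerClass
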