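import Cfsg.Agent.Lib.Lead.BrHalfStmt

/-!
Shared lemmas on the Gauss periods `per p ζ a` (S4504 part C, level 0).
-/

set_option autoImplicit false

namespace Cfsg.Agent.Lib.Helper78.BrCPerLib

open Cfsg.Agent.Lib.Lead Cfsg.Agent.Lib.Lead.BrHalf

/-- `ζ ^ m` only depends on `m` modulo `p`. -/
theorem pow_eq_pow_val {p : ℕ} [Fact p.Prime] {ζ : ℂ} (hζ : IsPrimitiveRoot ζ p) (m : ℕ) :
    ζ ^ m = ζ ^ ((m : ZMod p).val) := by
  rw [ZMod.val_natCast]
  conv_lhs => rw [← Nat.mod_add_div m p]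
  rw [pow_add, pow_mul, hζ.pow_eq_one, one_pow, mul_one]

theorem per_eq {p : ℕ} [Fact p.Prime] {ζ : ℂ} (hζ : IsPrimitiveRoot ζ p) (a : ℕ) :
    per p ζ a = ∑ s ∈ BrHalf.sq p, ζ ^ (((a : ZMod p) * s).val) := by
  unfold per
  apply Finset.sum_congr rfl
  intro s _
  rw [pow_eq_pow_val hζ (a * s.val)]
  congr 2
  rw [Nat.cast_mul, ZMod.natCast_zmod_val]

theorem per_congr {p : ℕ} [Fact p.Prime] {ζ : ℂ} (hζ : IsPrimitiveRoot ζ p) {a a' : ℕ}
    (h : (a : ZMod p) = (a' : ZMod p)) : per p ζ a = per p ζ a' := by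
  rw [per_eq hζ, per_eq hζ, h]

theorem mem_sq {p : ℕ} [Fact p.Prime] (s : ZMod p) : s ∈ BrHalf.sq p ↔ s ≠ 0 ∧ IsSquare s := by
  unfold BrHalf.sq
  rw [Finset.mem_filter]
  simp

/-- the number of nonzero squares modulo an odd prime -/
theorem card_sq (p : ℕ) [Fact p.Prime] (hp2 : p ≠ 2) : (BrHalf.sq p).card = (p - 1) / 2 := by
  classical
  have hF : ringChar (ZMod p) ≠ 2 := by
    rw [ZMod.ringChar_zmod_n]
    exact hp2
  have hsum := quadraticChar_sum_zero hF
  set nsq : Finset (ZMod p) := Finset.univ.filter (fun s : ZMod p => s ≠ 0 ∧ ¬ IsSquare s)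
    with hnsq
  have hmem : ∀ s : ZMod p, s ∈ nsq ↔ s ≠ 0 ∧ ¬ IsSquare s := by
    intro s
    rw [hnsq, Finset.mem_filter]
    simp
  have h1 : ∑ a : ZMod p, quadraticChar (ZMod p) a = ((BrHalf.sq p).card : ℤ) - (nsq.card : ℤ) := by
    have hpt : ∀ a : ZMod p, quadraticChar (ZMod p) a =
        (if a ∈ BrHalf.sq p then (1 : ℤ) else 0) - (if a ∈ nsq then (1 : ℤ) else 0) := by
      intro a
      by_cases ha : a = 0
      · subst ha
        rw [if_neg (by rw [mem_sq]; simp), if_neg (by rw [hmem]; simp), quadraticChar_zero]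
        simp
      · by_cases hs : IsSquare a
        · rw [if_pos (by rw [mem_sq]; exact ⟨ha, hs⟩), if_neg (by rw [hmem]; tauto),
            (quadraticChar_one_iff_isSquare ha).mpr hs]
          simp
        · rw [if_neg (by rw [mem_sq]; tauto), if_pos (by rw [hmem]; exact ⟨ha, hs⟩),
            quadraticChar_neg_one_iff_not_isSquare.mpr hs]
          simp
    rw [Finset.sum_congr rfl (fun a _ => hpt a), Finset.sum_sub_distrib]
    simp
  have h2 : (BrHalf.sq p).card + nsq.card = p - 1 := by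
    have hdisj : Disjoint (BrHalf.sq p) nsq := by
      rw [Finset.disjoint_left]
      intro a ha hb
      rw [mem_sq] at ha
      rw [hmem] at hb
      exact hb.2 ha.2
    rw [← Finset.card_union_of_disjoint hdisj]
    have hU : BrHalf.sq p ∪ nsq = Finset.univ.erase (0 : ZMod p) := by
      ext a
      rw [Finset.mem_union, mem_sq, hmem, Finset.mem_erase]
      simp only [Finset.mem_univ, and_true]
      tauto
    rw [hU, Finset.card_erase_of_mem (Finset.mem_univ _), Finset.card_univ, ZMod.card]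
  have h3 : ((BrHalf.sq p).card : ℤ) = nsq.card := by linarith
  have h4 : (BrHalf.sq p).card = nsq.card := by exact_mod_cast h3
  omega

end Cfsg.Agent.Lib.Helper78.BrCPerLib
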