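import Cfsg.Agent.Lib.Helper78.BrCPerLib

/-! S4504 part C, piece PerMul. -/

set_option autoImplicit false

namespace Cfsg.Agent.Lib.Helper78.BrCPerMul

open Cfsg.Agent.Lib.Lead Cfsg.Agent.Lib.Lead.BrHalf Cfsg.Agent.Lib.Helper78.BrCPerLib

theorem main : BrHalf.PerMul := by
  intro p _ ζ hζ a b hb0 hbsq
  rw [per_eq hζ, per_eq hζ]
  apply Finset.sum_nbij' (fun s => (b : ZMod p) * s) (fun t => (b : ZMod p)⁻¹ * t)
  · intro s hs
    rw [mem_sq] at hs ⊢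
    exact ⟨mul_ne_zero hb0 hs.1, hbsq.mul hs.2⟩
  · intro t ht
    rw [mem_sq] at ht ⊢
    exact ⟨mul_ne_zero (inv_ne_zero hb0) ht.1, hbsq.inv.mul ht.2⟩
  · intro s _
    show (b : ZMod p)⁻¹ * ((b : ZMod p) * s) = s
    rw [← mul_assoc, inv_mul_cancel₀ hb0, one_mul]
  · intro t _
    show (b : ZMod p) * ((b : ZMod p)⁻¹ * t) = t
    rw [← mul_assoc, mul_inv_cancel₀ hb0, one_mul]
  · intro s _
    show ζ ^ (((((a * b : ℕ)) : ZMod p) * s).val) = ζ ^ (((a : ZMod p) * ((b : ZMod p) * s)).val)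
    rw [Nat.cast_mul, mul_assoc]

end Cfsg.Agent.Lib.Helper78.BrCPerMul
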