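import Cfsg.Agent.Lib.Lead.BrHalfStmt

/-! S4504 part C, piece Q4: the moments of the two periods. -/

set_option autoImplicit false

namespace Cfsg.Agent.Lib.Helper78.BrCQ4

open Cfsg.Agent.Lib.Lead Cfsg.Agent.Lib.Lead.BrHalf
open scoped ComplexConjugate

theorem main : BrHalf.Q4 := by
  intro p A B hAB hD hD2
  obtain ⟨a1, a2⟩ := A
  obtain ⟨b1, b2⟩ := B
  have hre : a1 + b1 = -1 := by
    have := congrArg Complex.re hAB
    simpa using this
  have him : a2 + b2 = 0 := by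
    have := congrArg Complex.im hAB
    simpa using this
  have hb1 : b1 = -1 - a1 := by linarith
  have hb2 : b2 = -a2 := by linarith
  subst hb1 hb2
  have hN : (2 * a1 + 1) ^ 2 + 4 * a2 ^ 2 = (p : ℝ) := by
    have := congrArg Complex.re hD
    simp at this
    nlinarith [this]
  have hnA : ‖(⟨a1, a2⟩ : ℂ)‖ ^ 2 = a1 ^ 2 + a2 ^ 2 := by
    rw [Complex.sq_norm, Complex.normSq_apply]
    ring
  have hnB : ‖(⟨-1 - a1, -a2⟩ : ℂ)‖ ^ 2 = (1 + a1) ^ 2 + a2 ^ 2 := by
    rw [Complex.sq_norm, Complex.normSq_apply]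
    ring
  have hnA4 : ‖(⟨a1, a2⟩ : ℂ)‖ ^ 4 = (a1 ^ 2 + a2 ^ 2) ^ 2 := by
    rw [← hnA]
    ring
  have hnB4 : ‖(⟨-1 - a1, -a2⟩ : ℂ)‖ ^ 4 = ((1 + a1) ^ 2 + a2 ^ 2) ^ 2 := by
    rw [← hnB]
    ring
  refine ⟨?_, ?_⟩
  · rw [hnA, hnB]
    linarith
  · rw [hnA4, hnB4]
    unfold q4
    by_cases hp4 : p % 4 = 1
    · rw [if_pos hp4] at hD2 ⊢
      have hR : (2 * a1 + 1) ^ 2 - 4 * a2 ^ 2 = (p : ℝ) := by
        have := congrArg Complex.re hD2
        simp [pow_two] at this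
        nlinarith [this]
      have ha2 : a2 = 0 := by
        have : a2 ^ 2 = 0 := by linarith
        exact pow_eq_zero_iff (two_ne_zero) |>.mp this
      subst ha2
      have hp' : (p : ℝ) = (2 * a1 + 1) ^ 2 := by linarith
      rw [hp']
      ring
    · rw [if_neg hp4] at hD2 ⊢
      have hR : (2 * a1 + 1) ^ 2 - 4 * a2 ^ 2 = -(p : ℝ) := by
        have := congrArg Complex.re hD2
        simp [pow_two] at this
        nlinarith [this]
      have ha1 : 2 * a1 + 1 = 0 := by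
        have : (2 * a1 + 1) ^ 2 = 0 := by linarith
        exact pow_eq_zero_iff (two_ne_zero) |>.mp this
      have ha1' : a1 = -1 / 2 := by linarith
      subst ha1'
      have hp' : (p : ℝ) = 4 * a2 ^ 2 := by linarith
      rw [hp']
      ring

end Cfsg.Agent.Lib.Helper78.BrCQ4
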