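import Cfsg.Agent.Lib.Helper78.BrCPerLib

/-! S4504 part C, piece SqSum. -/

set_option autoImplicit false

namespace Cfsg.Agent.Lib.Helper78.BrCSqSum

open Cfsg.Agent.Lib.Lead Cfsg.Agent.Lib.Lead.BrHalf Cfsg.Agent.Lib.Helper78.BrCPerLib

theorem main : BrHalf.SqSum := by
  intro p _ hp2 G c₁ c₂ h1 h2
  classical
  have hp : p.Prime := Fact.out
  have hnd : ∀ a ∈ Finset.Ico 1 p, ¬ p ∣ a := by
    intro a ha hd
    rw [Finset.mem_Ico] at ha
    have := Nat.le_of_dvd (by omega) hd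
    omega
  set S1 := (Finset.Ico 1 p).filter (fun a : ℕ => IsSquare ((a : ℕ) : ZMod p)) with hS1
  set S2 := (Finset.Ico 1 p).filter (fun a : ℕ => ¬ IsSquare ((a : ℕ) : ZMod p)) with hS2
  have hsplit : ∑ a ∈ Finset.Ico 1 p, G a = ∑ a ∈ S1, G a + ∑ a ∈ S2, G a := by
    rw [hS1, hS2, Finset.sum_filter_add_sum_filter_not]
  have hc1 : ∑ a ∈ S1, G a = S1.card * c₁ := by
    rw [Finset.sum_congr rfl (fun a ha => h1 a (hnd a (Finset.mem_filter.mp ha).1)
      (Finset.mem_filter.mp ha).2)]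
    rw [Finset.sum_const, nsmul_eq_mul]
  have hc2 : ∑ a ∈ S2, G a = S2.card * c₂ := by
    rw [Finset.sum_congr rfl (fun a ha => h2 a (hnd a (Finset.mem_filter.mp ha).1)
      (Finset.mem_filter.mp ha).2)]
    rw [Finset.sum_const, nsmul_eq_mul]
  have hcard1 : S1.card = (BrHalf.sq p).card := by
    apply Finset.card_bij (fun a _ => ((a : ℕ) : ZMod p))
    · intro a ha
      rw [hS1, Finset.mem_filter] at ha
      rw [mem_sq]
      refine ⟨?_, ha.2⟩
      rw [Ne, ZMod.natCast_eq_zero_iff]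
      exact hnd a ha.1
    · intro a ha b hb hab
      rw [hS1, Finset.mem_filter, Finset.mem_Ico] at ha hb
      have := (ZMod.natCast_eq_natCast_iff a b p).mp hab
      rw [Nat.ModEq, Nat.mod_eq_of_lt ha.1.2, Nat.mod_eq_of_lt hb.1.2] at this
      exact this
    · intro s hs
      rw [mem_sq] at hs
      refine ⟨s.val, ?_, ZMod.natCast_zmod_val s⟩
      rw [hS1, Finset.mem_filter, Finset.mem_Ico, ZMod.natCast_zmod_val]
      refine ⟨⟨?_, ZMod.val_lt s⟩, hs.2⟩
      have : s.val ≠ 0 := fun h0 => hs.1 ((ZMod.val_eq_zero s).mp h0)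
      omega
  have hcard : S1.card + S2.card = p - 1 := by
    rw [hS1, hS2, Finset.card_filter_add_card_filter_not]
    simp
  have hodd : p % 2 = 1 := by
    rcases hp.eq_two_or_odd with h | h
    · exact absurd h hp2
    · exact h
  have hc : (BrHalf.sq p).card = (p - 1) / 2 := card_sq p hp2
  have hS1c : S1.card = (p - 1) / 2 := by rw [hcard1, hc]
  have hS2c : S2.card = (p - 1) / 2 := by omega
  rw [hsplit, hc1, hc2, hS1c, hS2c]
  ring

end Cfsg.Agent.Lib.Helper78.BrCSqSum
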