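import Mathlib
import Cfsg.Agent.Lib.Helper28.DxStmt
import Cfsg.Agent.Lib.Helper50.Cores

/-!
Pieces [KBASE] and [KCONJ] of S1615 (Fischer, `fischer_dx_core_not_central`): elementary
properties of the family `p ↦ Kx D p` (the image of the odd core of the subgroup generated by
the commuting partners of `p`).
-/

set_option autoImplicit false

namespace Cfsg.Agent.Lib.Helper78.DxKBASE

open Cfsg Cfsg.Agent.Lib.Helper21.W3Class Cfsg.Agent.Lib.Helper28 Cfsg.Agent.Lib.Helper28.DxStmt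

universe u

variable {G : Type u} [Group G]

theorem kx_le (D : Set G) (p : G) : Kx D p ≤ Subgroup.closure (Pt D p) :=
  Subgroup.map_subtype_le _

theorem kx_nrm [Finite G] (D : Set G) (p : G) (n : G) (hn : n ∈ Subgroup.closure (Pt D p))
    (l : G) (hl : l ∈ Kx D p) : n * l * n⁻¹ ∈ Kx D p := by
  unfold Kx at hl ⊢
  rw [Subgroup.mem_map] at hl ⊢
  obtain ⟨o, ho, rfl⟩ := hl
  have hnorm : (Cfsg.pPrimeCore 2 ↥(Subgroup.closure (Pt D p))).Normal :=
    Cfsg.Agent.Lib.Helper50.Cores.pPrimeCore_normal 2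
  refine ⟨⟨n, hn⟩ * o * ⟨n, hn⟩⁻¹, hnorm.conj_mem o ho ⟨n, hn⟩, ?_⟩
  simp

theorem kx_odd [Finite G] (D : Set G) (p : G) : Odd (Nat.card (Kx D p)) := by
  unfold Kx
  rw [Subgroup.card_map_of_injective (Subgroup.subtype_injective _)]
  exact Nat.Coprime.odd_of_right (Cfsg.Agent.Lib.Helper50.Cores.pPrimeCore_coprime 2)

theorem kx_tw [Finite G] {D : Set G} (hT : FR3.TT D) (p : G) (u : G) (hu : u ∈ Pt D p) (v : G)
    (hv : v ∈ Pt D p) (huv : u * v ∈ Kx D p) (hne : u ≠ v) : ¬ Commute u v := by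
  intro hc
  have hu2 : u * u = 1 := hT.sq u hu.1
  have hv2 : v * v = 1 := hT.sq v hv.1
  have hsq : (u * v) ^ 2 = 1 := by
    rw [pow_two]
    calc u * v * (u * v) = u * (v * u) * v := by group
      _ = u * (u * v) * v := by rw [hc.eq]
      _ = (u * u) * (v * v) := by group
      _ = 1 := by rw [hu2, hv2, mul_one]
  have h1 : orderOf (u * v) ∣ 2 := orderOf_dvd_of_pow_eq_one hsq
  have h2 : orderOf (u * v) ∣ Nat.card (Kx D p) := (Kx D p).orderOf_dvd_natCard huv
  have hodd := kx_odd D p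
  have h3 : orderOf (u * v) = 1 := by
    rcases (Nat.dvd_prime Nat.prime_two).mp h1 with h | h
    · exact h
    · exfalso
      rw [h] at h2
      exact (Nat.not_even_iff_odd.mpr hodd) (even_iff_two_dvd.mpr h2)
  have h4 : u * v = 1 := orderOf_eq_one_iff.mp h3
  apply hne
  calc u = u * (v * v) := by rw [hv2, mul_one]
    _ = (u * v) * v := by group
    _ = v := by rw [h4, one_mul]

theorem main : Cfsg.Agent.Lib.Helper28.DxStmt.KBase.{u} := by
  intro G _ _ D hT
  exact ⟨fun p _ => kx_le D p, fun p _ n hn l hl => kx_nrm D p n hn l hl,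
    fun p _ => kx_odd D p, fun p _ u hu v hv huv hne => kx_tw hT p u hu v hv huv hne⟩

/-- conjugation moves the commuting partners. -/
theorem conj_mem_pt {D : Set G} (hT : FR3.TT D) (g p y : G) (hy : y ∈ Pt D p) :
    g * y * g⁻¹ ∈ Pt D (g * p * g⁻¹) := by
  refine ⟨hT.conj g y hy.1, ?_, ?_⟩
  · intro h
    apply hy.2.1
    have : g⁻¹ * (g * y * g⁻¹) * g = g⁻¹ * (g * p * g⁻¹) * g := by rw [h]
    simpa [mul_assoc] using this
  · have hc : p * y = y * p := hy.2.2.eq
    show g * p * g⁻¹ * (g * y * g⁻¹) = g * y * g⁻¹ * (g * p * g⁻¹)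
    calc g * p * g⁻¹ * (g * y * g⁻¹) = g * (p * y) * g⁻¹ := by group
      _ = g * (y * p) * g⁻¹ := by rw [hc]
      _ = g * y * g⁻¹ * (g * p * g⁻¹) := by group

theorem conj_mem_closure {D : Set G} (hT : FR3.TT D) (g p n : G)
    (hn : n ∈ Subgroup.closure (Pt D p)) :
    g * n * g⁻¹ ∈ Subgroup.closure (Pt D (g * p * g⁻¹)) := by
  induction hn using Subgroup.closure_induction with
  | mem y hy => exact Subgroup.subset_closure (conj_mem_pt hT g p y hy)
  | one => simp
  | mul a b _ _ ha hb =>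
    have : g * (a * b) * g⁻¹ = (g * a * g⁻¹) * (g * b * g⁻¹) := by group
    rw [this]
    exact Subgroup.mul_mem _ ha hb
  | inv a _ ha =>
    have : g * a⁻¹ * g⁻¹ = (g * a * g⁻¹)⁻¹ := by group
    rw [this]
    exact Subgroup.inv_mem _ ha

theorem kconj : Cfsg.Agent.Lib.Helper28.DxStmt.KConj.{u} := by
  intro G _ _ D hT g p _ l hl
  classical
  -- the image of `Kx D p` under conjugation by `g`
  obtain ⟨L, hL⟩ : ∃ L : Subgroup G, L = (Kx D p).map (MulAut.conj g).toMonoidHom := ⟨_, rfl⟩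
  have hLmem : ∀ x, x ∈ L ↔ ∃ k ∈ Kx D p, g * k * g⁻¹ = x := by
    intro x
    rw [hL, Subgroup.mem_map]
    constructor
    · rintro ⟨k, hk, rfl⟩
      exact ⟨k, hk, by simp [MulAut.conj_apply]⟩
    · rintro ⟨k, hk, rfl⟩
      exact ⟨k, hk, by simp [MulAut.conj_apply]⟩
  have hLle : L ≤ Subgroup.closure (Pt D (g * p * g⁻¹)) := by
    intro x hx
    obtain ⟨k, hk, rfl⟩ := (hLmem x).mp hx
    exact conj_mem_closure hT g p k (kx_le D p hk)
  have hLcard : Nat.card L = Nat.card (Kx D p) := by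
    rw [hL]
    exact Subgroup.card_map_of_injective (MulAut.conj g).injective
  have hLodd : Odd (Nat.card L) := by rw [hLcard]; exact kx_odd D p
  -- normality in the closure
  have hback : ∀ n', n' ∈ Subgroup.closure (Pt D (g * p * g⁻¹)) →
      g⁻¹ * n' * g ∈ Subgroup.closure (Pt D p) := by
    intro n' hn'
    have h := conj_mem_closure hT g⁻¹ (g * p * g⁻¹) n' hn'
    have e1 : g⁻¹ * (g * p * g⁻¹) * g⁻¹⁻¹ = p := by group
    rw [e1] at h
    simpa using h
  have hnormal : (L.subgroupOf (Subgroup.closure (Pt D (g * p * g⁻¹)))).Normal := by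
    constructor
    intro x hx n'
    rw [Subgroup.mem_subgroupOf] at hx ⊢
    obtain ⟨k, hk, hkx⟩ := (hLmem _).mp hx
    have hn := hback (n' : G) n'.2
    have hk' := kx_nrm D p _ hn k hk
    refine (hLmem _).mpr ⟨_, hk', ?_⟩
    simp only [Subgroup.coe_mul, Subgroup.coe_inv]
    rw [← hkx]
    group
  have hcop : (Nat.card (L.subgroupOf (Subgroup.closure (Pt D (g * p * g⁻¹))))).Coprime 2 := by
    rw [Nat.card_congr (Subgroup.subgroupOfEquivOfLe hLle).toEquiv]
    exact hLodd.coprime_two_right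
  have hle := Cfsg.Agent.Lib.Helper50.Cores.le_pPrimeCore 2 _ hnormal hcop
  have hx : g * l * g⁻¹ ∈ L := (hLmem _).mpr ⟨l, hl, rfl⟩
  unfold Kx
  rw [Subgroup.mem_map]
  exact ⟨⟨g * l * g⁻¹, hLle hx⟩, hle (Subgroup.mem_subgroupOf.mpr hx), rfl⟩

end Cfsg.Agent.Lib.Helper78.DxKBASE
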