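import Mathlib
import Cfsg.Agent.Lib.Helper78.DxKBASE

/-!
Piece [KCONJ] of S1615: conjugation carries `Kx D p` into `Kx D (g p g⁻¹)`.
-/

set_option autoImplicit false

namespace Cfsg.Agent.Lib.Helper78.DxKCONJ

universe u

theorem main : Cfsg.Agent.Lib.Helper28.DxStmt.KConj.{u} :=
  Cfsg.Agent.Lib.Helper78.DxKBASE.kconj

end Cfsg.Agent.Lib.Helper78.DxKCONJ
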