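import Mathlib
import Cfsg.Prelude.Def_Characters
import Cfsg.Agent.Lib.CT.NormOne

set_option autoImplicit false

/-!
# Fully ramified characters under a Frobenius-type action: preliminaries

* `coprime_of_frob`: for `N ≤ G` normal in `Γ` such that no element outside `G` centralises a
  non-identity coset of `N` in `G`, the indices `[Γ:G]` and `[G:N]` are coprime.
* `vanish_off`: an irreducible character whose values on a subgroup of index `e²` all have
  absolute value `e` vanishes off that subgroup.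
-/

namespace Cfsg.Agent.Lib.Helper78.FrobRam

open Cfsg
open scoped ComplexConjugate

universe u

section frob

variable {Γ : Type u} [Group Γ] [Finite Γ] (G N : Subgroup Γ) [hG : G.Normal] [hN : N.Normal]

omit [Finite Γ] in
/-- Iterating a conjugation. -/
theorem conj_iterate (y : Γ) (k : ℕ) (g : G) :
    (((fun g : G => (⟨y * g * y⁻¹, hG.conj_mem g g.2 y⟩ : G))^[k] g : G) : Γ) =
      y ^ k * g * (y ^ k)⁻¹ := by
  induction k with
  | zero => simp
  | succ k ih =>
    rw [Function.iterate_succ_apply']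
    show y * ((((fun g : G => (⟨y * g * y⁻¹, hG.conj_mem g g.2 y⟩ : G))^[k] g : G) : Γ)) * y⁻¹ = _
    rw [ih, pow_succ']
    group

/-- Under a Frobenius-type action the two indices are coprime. -/
theorem coprime_of_frob (hNG : N ≤ G)
    (hfrob : ∀ x : Γ, x ∉ G → ∀ g : Γ, g ∈ G → x * g * x⁻¹ * g⁻¹ ∈ N → g ∈ N) :
    (G.index).Coprime (N.relIndex G) := by
  classical
  let q : Γ →* Γ ⧸ N := QuotientGroup.mk' N
  have hq : Function.Surjective q := QuotientGroup.mk'_surjective N
  have hqker : ∀ x : Γ, q x = 1 ↔ x ∈ N := fun x => QuotientGroup.eq_one_iff x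
  let G₁ : Subgroup (Γ ⧸ N) := G.map q
  have hG₁ : G₁.Normal := Subgroup.Normal.map hG q hq
  have hkerq : q.ker = N := QuotientGroup.ker_mk' N
  have hidx : G₁.index = G.index := Subgroup.index_map_eq G hq (by rw [hkerq]; exact hNG)
  have hcard : Nat.card G₁ = N.relIndex G := by
    have h1 : Nat.card G₁ * G₁.index = Nat.card (Γ ⧸ N) := G₁.card_mul_index
    have h2 : N.relIndex G * G.index = N.index := Subgroup.relIndex_mul_index hNG
    have h3 : Nat.card (Γ ⧸ N) = N.index := (Subgroup.index_eq_card N).symm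
    rw [hidx, h3, ← h2] at h1
    exact Nat.eq_of_mul_eq_mul_right (Nat.pos_of_ne_zero Subgroup.index_ne_zero_of_finite) h1
  have hfrob₁ : ∀ y : Γ ⧸ N, y ∉ G₁ → ∀ g : Γ ⧸ N, g ∈ G₁ → y * g * y⁻¹ = g → g = 1 := by
    intro y hy g hg hyg
    obtain ⟨x, rfl⟩ := hq y
    obtain ⟨g₀, hg₀, rfl⟩ := hg
    have hx : x ∉ G := fun hx => hy ⟨x, hx, rfl⟩
    have h1 : q (x * g₀ * x⁻¹ * g₀⁻¹) = 1 := by
      rw [map_mul, map_mul, map_mul, map_inv, map_inv, hyg, mul_inv_cancel]
    exact (hqker _).2 (hfrob x hx g₀ hg₀ ((hqker _).1 h1))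
  rw [← hidx, ← hcard]
  apply Nat.coprime_of_dvd
  intro p hp hp1 hp2
  have : Fact p.Prime := ⟨hp⟩
  obtain ⟨P⟩ : Nonempty (Sylow p (Γ ⧸ N)) := inferInstance
  have hPnot : ¬ (P : Subgroup (Γ ⧸ N)) ≤ G₁ := by
    intro hle
    have h1 : G₁.index ∣ (P : Subgroup (Γ ⧸ N)).index := Subgroup.index_dvd_of_le hle
    exact P.not_dvd_index (hp1.trans h1)
  obtain ⟨y, hyP, hyG⟩ := SetLike.not_le_iff_exists.1 hPnot
  obtain ⟨n, hn⟩ := (IsPGroup.iff_orderOf.1 P.isPGroup') ⟨y, hyP⟩
  have hyn : y ^ p ^ n = 1 := by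
    have h1 : (⟨y, hyP⟩ : (P : Subgroup (Γ ⧸ N))) ^ p ^ n = 1 := by
      rw [← hn]
      exact pow_orderOf_eq_one _
    exact congrArg Subtype.val h1
  let f : Function.End G₁ := fun g => ⟨y * g * y⁻¹, hG₁.conj_mem g g.2 y⟩
  have hf : f ^ p ^ n = 1 := by
    funext g
    apply Subtype.ext
    have h0 := hom_coe_pow (fun g : Function.End G₁ => (g : G₁ → G₁)) rfl (fun _ _ => rfl) f
      (p ^ n)
    have h1 : (f ^ p ^ n) g =
        (fun g : G₁ => (⟨y * g * y⁻¹, hG₁.conj_mem g g.2 y⟩ : G₁))^[p ^ n] g := congrFun h0 g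
    show (((f ^ p ^ n) g : G₁) : Γ ⧸ N) = (g : Γ ⧸ N)
    rw [h1, conj_iterate G₁ y (p ^ n) g, hyn]
    simp
  let _ : Fintype G₁ := Fintype.ofFinite _
  have hmod := Equiv.Perm.card_fixedPoints_modEq (p := p) (n := n) hf
  have hfix : Function.fixedPoints f = {1} := by
    ext g
    rw [Function.mem_fixedPoints, Set.mem_singleton_iff]
    constructor
    · intro hg
      have h1 : y * (g : Γ ⧸ N) * y⁻¹ = g := congrArg Subtype.val hg
      exact Subtype.ext (hfrob₁ y hyG g g.2 h1)
    · rintro rfl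
      apply Subtype.ext
      show y * ((1 : G₁) : Γ ⧸ N) * y⁻¹ = ((1 : G₁) : Γ ⧸ N)
      simp
  have hcf : Fintype.card (Function.fixedPoints f) = 1 := by
    rw [← Nat.card_eq_fintype_card, hfix]
    simp
  rw [hcf, ← Nat.card_eq_fintype_card] at hmod
  have h2 : (Nat.card G₁) % p = 1 % p := hmod
  rw [Nat.mod_eq_zero_of_dvd hp2, Nat.mod_eq_of_lt hp.one_lt] at h2
  exact absurd h2 (by norm_num)

end frob

/-- An irreducible character whose values on a subgroup of index `e * e` have squared absolute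
value `e * e` vanishes off that subgroup. -/
theorem vanish_off {G : Type u} [Group G] [Fintype G] (N : Subgroup G) {β : G → ℂ}
    (hβ : IsIrrCharacter G β) (e : ℕ) (hidx : N.index = e * e)
    (hres : ∀ n : N, β n * conj (β n) = (e : ℂ) * e) (g : G) (hg : g ∉ N) : β g = 0 := by
  classical
  have h1 : classInner β β = 1 := Cfsg.Agent.Lib.CT.NormOne.inner_self_eq_one_of_irr hβ
  unfold classInner at h1
  have hG0 : (Nat.card G : ℂ) ≠ 0 := Nat.cast_ne_zero.2 Nat.card_pos.ne'
  have h2 : ∑ g : G, β g * conj (β g) = (Nat.card G : ℂ) := by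
    field_simp at h1
    exact h1
  have h3 : ∀ g : G, β g * conj (β g) = ((Complex.normSq (β g) : ℝ) : ℂ) := fun g =>
    Complex.mul_conj (β g)
  have h4 : ∑ g : G, Complex.normSq (β g) = (Nat.card G : ℝ) := by
    have h5 : ((∑ g : G, Complex.normSq (β g) : ℝ) : ℂ) = ((Nat.card G : ℝ) : ℂ) := by
      push_cast
      rw [← h2]
      exact Finset.sum_congr rfl (fun g _ => (h3 g).symm)
    exact_mod_cast h5
  rw [← Finset.sum_filter_add_sum_filter_not Finset.univ (fun g => g ∈ N)] at h4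
  have h6 : ∑ g ∈ Finset.univ.filter (fun g => g ∈ N), Complex.normSq (β g) =
      (Nat.card G : ℝ) := by
    have h7 : ∀ g ∈ Finset.univ.filter (fun g : G => g ∈ N),
        Complex.normSq (β g) = (e : ℝ) * e := by
      intro g hg
      have hgN : g ∈ N := (Finset.mem_filter.1 hg).2
      have h8 := hres ⟨g, hgN⟩
      rw [h3] at h8
      exact_mod_cast h8
    rw [Finset.sum_congr rfl h7, Finset.sum_const, nsmul_eq_mul]
    have h9 : (Finset.univ.filter (fun g : G => g ∈ N)).card = Nat.card N := by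
      rw [Nat.card_eq_fintype_card, Fintype.card_subtype]
    rw [h9, ← N.card_mul_index, hidx]
    push_cast
    ring
  rw [h6] at h4
  have h10 : ∑ g ∈ Finset.univ.filter (fun g => ¬ g ∈ N), Complex.normSq (β g) = 0 := by
    linarith
  have h11 := (Finset.sum_eq_zero_iff_of_nonneg (fun g _ => Complex.normSq_nonneg (β g))).1 h10 g
    (Finset.mem_filter.2 ⟨Finset.mem_univ g, hg⟩)
  exact Complex.normSq_eq_zero.1 h11

end Cfsg.Agent.Lib.Helper78.FrobRam
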