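import Mathlib
import Cfsg.Prelude.Def_Characters
import Cfsg.Prelude.Def_CharExt
import Cfsg.Agent.Lib.Helper78.FrobRam
import Cfsg.Agent.Lib.Helper78.InvLin
import Cfsg.Agent.Lib.Helper78.InvRed
import Cfsg.Agent.Lib.Helper74.DetTools
import Cfsg.Agent.Lib.Helper81.SemiChar
import Cfsg.Agent.S0867
import Cfsg.Agent.S4446
import Cfsg.Agent.S4451

set_option autoImplicit false

/-!
# Fully ramified linear characters under a Frobenius-type action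

`N ≤ G` normal in `Γ`, `Γ/G` cyclic acting on `G/N` without fixed points, `φ` a `Γ`-invariant
linear character of `N` and `β` an irreducible character of `G` with `β|N = e φ`, `[G:N] = e²`:
then `[Γ:G]` divides `e - 1` or `e + 1` (through Isaacs 13.14).
-/

namespace Cfsg.Agent.Lib.Helper78.FrobRam2

open Cfsg
open scoped ComplexConjugate

universe u

/-- The determinantal order of an irreducible character divides the group order. -/
theorem detOrder_dvd_card {G : Type u} [Group G] [Finite G] {χ : G → ℂ}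
    (hχ : IsIrrCharacter G χ) : detOrder χ ∣ Nat.card G := by
  obtain ⟨δ, hδ⟩ := Cfsg.Agent.Lib.Helper74.DetTools.exists_detHom hχ
  apply Cfsg.Agent.Lib.Helper74.DetTools.detOrder_dvd_of_pow
  intro g
  rw [hδ]
  show ((δ g : ℂˣ) : ℂ) ^ Nat.card G = 1
  rw [← Units.val_pow_eq_pow_val, ← map_pow, pow_card_eq_one', map_one, Units.val_one]

/-- The values of a linear character of a finite group have absolute value one. -/
theorem hom_mul_conj {A : Type*} [Group A] [Finite A] (φ : A →* ℂˣ) (a : A) :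
    ((φ a : ℂˣ) : ℂ) * conj ((φ a : ℂˣ) : ℂ) = 1 := by
  have h1 : ((φ a : ℂˣ) : ℂ) ^ Nat.card A = 1 := by
    rw [← Units.val_pow_eq_pow_val, ← map_pow, pow_card_eq_one', map_one, Units.val_one]
  have h2 : ‖((φ a : ℂˣ) : ℂ)‖ = 1 := Complex.norm_eq_one_of_pow_eq_one h1 Nat.card_pos.ne'
  rw [Complex.mul_conj, Complex.normSq_eq_norm_sq, h2]
  simp

section lin

variable {Γ : Type u} [Group Γ] [Finite Γ] (G N : Subgroup Γ) [hG : G.Normal] [hN : N.Normal]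

/-- The linear case. -/
theorem linear_case (hNG : N ≤ G) (hcyc : IsCyclic (Γ ⧸ G))
    (hfrob : ∀ x : Γ, x ∉ G → ∀ g : Γ, g ∈ G → x * g * x⁻¹ * g⁻¹ ∈ N → g ∈ N)
    (φ : N →* ℂˣ)
    (hinv : ∀ (x : Γ) (n : N), φ ⟨x * n * x⁻¹, hN.conj_mem n n.2 x⟩ = φ n)
    (β : G → ℂ) (hβ : IsIrrCharacter G β) (e : ℕ) (hidx : N.relIndex G = e * e)
    (hres : ∀ n : N, β ⟨n, hNG n.2⟩ = e * ((φ n : ℂˣ) : ℂ)) :
    (G.index : ℤ) ∣ (e : ℤ) - 1 ∨ (G.index : ℤ) ∣ (e : ℤ) + 1 := by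
  classical
  by_cases hm1 : G.index = 1
  · left
    rw [hm1]
    simp
  have hcop : (G.index).Coprime (N.relIndex G) :=
    Cfsg.Agent.Lib.Helper78.FrobRam.coprime_of_frob G N hNG hfrob
  -- vanishing off `N`
  let _ : Fintype G := Fintype.ofFinite _
  have hvan : ∀ g : G, (g : Γ) ∉ N → β g = 0 := by
    intro g hg
    refine Cfsg.Agent.Lib.Helper78.FrobRam.vanish_off (N.subgroupOf G) hβ e hidx (fun n => ?_) g
      (by rw [Subgroup.mem_subgroupOf]; exact hg)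
    have hn : ((n : G) : Γ) ∈ N := Subgroup.mem_subgroupOf.1 n.2
    have h1 : β (n : G) = e * ((φ ⟨((n : G) : Γ), hn⟩ : ℂˣ) : ℂ) := hres ⟨((n : G) : Γ), hn⟩
    rw [h1, map_mul, Complex.conj_natCast]
    have h2 := hom_mul_conj φ ⟨((n : G) : Γ), hn⟩
    linear_combination ((e : ℂ) * e) * h2
  -- splitting the order of `φ`
  have hnpos : 0 < orderOf φ := Cfsg.Agent.Lib.Helper15.LinExt.orderOf_hom_pos φ
  obtain ⟨a, b, k, hab, hak, hb⟩ :=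
    Cfsg.Agent.Lib.Helper78.InvLin.exists_split (N.relIndex G) (orderOf φ) hnpos
  have hcab : Nat.Coprime a b :=
    Nat.Coprime.coprime_dvd_left hak (Nat.Coprime.pow_left k hb.symm)
  obtain ⟨x, y, hxy⟩ : ∃ x y : ℤ, x * a + y * b = 1 := by
    have h1 : IsCoprime (a : ℤ) (b : ℤ) := Nat.isCoprime_iff_coprime.2 hcab
    exact h1
  set φ₁ : N →* ℂˣ := φ ^ (x * a) with hφ₁
  set φ₂ : N →* ℂˣ := φ ^ (y * b) with hφ₂
  have hφn : ∀ n : N, φ n ^ (orderOf φ) = 1 := by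
    intro n
    rw [← MonoidHom.pow_apply, pow_orderOf_eq_one]
    rfl
  have hmul : φ = φ₁ * φ₂ := by
    ext n
    rw [MonoidHom.mul_apply, hφ₁, hφ₂, MonoidHom.zpow_apply, MonoidHom.zpow_apply, ← zpow_add, hxy,
      zpow_one]
  have hφ₁b : φ₁ ^ b = 1 := by
    ext n
    rw [MonoidHom.pow_apply, hφ₁, MonoidHom.zpow_apply, ← zpow_natCast, ← zpow_mul]
    have h1 : x * (a : ℤ) * (b : ℤ) = ((orderOf φ : ℕ) : ℤ) * x := by
      rw [hab]
      push_cast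
      ring
    rw [h1, zpow_mul, zpow_natCast, hφn, one_zpow]
    rfl
  have hφ₂a : φ₂ ^ a = 1 := by
    ext n
    rw [MonoidHom.pow_apply, hφ₂, MonoidHom.zpow_apply, ← zpow_natCast, ← zpow_mul]
    have h1 : y * (b : ℤ) * (a : ℤ) = ((orderOf φ : ℕ) : ℤ) * y := by
      rw [hab]
      push_cast
      ring
    rw [h1, zpow_mul, zpow_natCast, hφn, one_zpow]
    rfl
  have hinv₁ : ∀ (x : Γ) (n : N), φ₁ ⟨x * n * x⁻¹, hN.conj_mem n n.2 x⟩ = φ₁ n := by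
    intro x n
    rw [hφ₁, MonoidHom.zpow_apply, MonoidHom.zpow_apply, hinv]
  have hinv₂ : ∀ (x : Γ) (n : N), φ₂ ⟨x * n * x⁻¹, hN.conj_mem n n.2 x⟩ = φ₂ n := by
    intro x n
    rw [hφ₂, MonoidHom.zpow_apply, MonoidHom.zpow_apply, hinv]
  -- the first part extends to `G`
  let E : N.subgroupOf G ≃* N := Subgroup.subgroupOfEquivOfLe hNG
  let lam : N.subgroupOf G →* ℂˣ := φ₁.comp E.toMonoidHom
  have hlam : ∀ k : N.subgroupOf G, lam k = φ₁ (E k) := fun k => rfl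
  have hlamb : lam ^ b = 1 := by
    ext k
    rw [MonoidHom.pow_apply, hlam, ← MonoidHom.pow_apply, hφ₁b]
    rfl
  have hclam : Nat.Coprime (N.subgroupOf G).index (orderOf lam) :=
    Nat.Coprime.coprime_dvd_right (orderOf_dvd_of_pow_eq_one hlamb) hb.symm
  have hlaminv : ∀ (g : G) (k : N.subgroupOf G),
      lam ⟨g * k * g⁻¹, (inferInstance : (N.subgroupOf G).Normal).conj_mem (k : G) k.2 g⟩ =
        lam k := by
    intro g k
    rw [hlam, hlam]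
    exact hinv₁ (g : Γ) (E k)
  obtain ⟨μ, hμ, -⟩ :=
    Cfsg.Agent.Lib.Helper15.LinExt.exists_extension_of_coprime (N.subgroupOf G) lam hlaminv hclam
  -- the twisted character
  let β₂ : G → ℂ := fun g => β g * ((μ⁻¹ g : ℂˣ) : ℂ)
  have hβ₂ : IsIrrCharacter G β₂ :=
    Cfsg.Agent.Lib.CT.LinChar.isIrrCharacter_mul_linear hβ
      (Cfsg.Agent.Lib.CT.LinChar.isCharacter_of_hom μ⁻¹) (by simp)
  have hβ₂res : ∀ n : N, β₂ ⟨n, hNG n.2⟩ = e * ((φ₂ n : ℂˣ) : ℂ) := by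
    intro n
    show β ⟨n, hNG n.2⟩ * ((μ⁻¹ ⟨n, hNG n.2⟩ : ℂˣ) : ℂ) = _
    have h1 : μ ⟨n, hNG n.2⟩ = φ₁ n := hμ ⟨⟨n, hNG n.2⟩, n.2⟩
    have h2 : φ n = φ₁ n * φ₂ n := by rw [← MonoidHom.mul_apply, ← hmul]
    rw [hres, MonoidHom.inv_apply, h1, h2, mul_assoc, ← Units.val_mul]
    congr 2
    rw [mul_comm (φ₁ n), mul_assoc, mul_inv_cancel, mul_one]
  have hβ₂van : ∀ g : G, (g : Γ) ∉ N → β₂ g = 0 := by
    intro g hg
    show β g * _ = 0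
    rw [hvan g hg, zero_mul]
  have hβ₂inv : ∀ (x : Γ) (g : G), β₂ ⟨x * g * x⁻¹, hG.conj_mem g g.2 x⟩ = β₂ g := by
    intro x g
    by_cases hg : (g : Γ) ∈ N
    · have h1 := hβ₂res ⟨x * g * x⁻¹, hN.conj_mem g hg x⟩
      have h2 := hβ₂res ⟨g, hg⟩
      have h3 := hinv₂ x ⟨g, hg⟩
      exact h1.trans (by rw [h3]; exact h2.symm)
    · have hg' : x * g * x⁻¹ ∉ N := by
        intro h
        apply hg
        have h1 := hN.conj_mem _ h x⁻¹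
        have h2 : x⁻¹ * (x * (g : Γ) * x⁻¹) * x⁻¹⁻¹ = g := by group
        rw [h2] at h1
        exact h1
      rw [hβ₂van _ hg', hβ₂van g hg]
  -- the kernel of `φ₂`
  let K : Subgroup Γ := φ₂.ker.map N.subtype
  have hKmem : ∀ k : Γ, k ∈ K ↔ ∃ h : k ∈ N, φ₂ ⟨k, h⟩ = 1 := by
    intro k
    constructor
    · rintro ⟨n, hn, rfl⟩
      exact ⟨n.2, hn⟩
    · rintro ⟨h, hk⟩
      exact ⟨⟨k, h⟩, hk, rfl⟩
  have hKN : K ≤ N := fun k hk => ((hKmem k).1 hk).1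
  have hKnormal : K.Normal := by
    constructor
    intro k hk x
    obtain ⟨h, hk1⟩ := (hKmem k).1 hk
    refine (hKmem _).2 ⟨hN.conj_mem k h x, ?_⟩
    rw [← hk1]
    exact hinv₂ x ⟨k, h⟩
  let q : Γ →* Γ ⧸ K := QuotientGroup.mk' K
  have hq : Function.Surjective q := QuotientGroup.mk'_surjective K
  have hqker : ∀ x : Γ, q x = 1 ↔ x ∈ K := fun x => QuotientGroup.eq_one_iff x
  let G₁ : Subgroup (Γ ⧸ K) := G.map q
  let N₁ : Subgroup (Γ ⧸ K) := N.map q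
  have hG₁ : G₁.Normal := Subgroup.Normal.map hG q hq
  have hNG₁ : N₁ ≤ G₁ := Subgroup.map_mono hNG
  have hkerq : q.ker = K := QuotientGroup.ker_mk' K
  have hidx₁ : G₁.index = G.index :=
    Subgroup.index_map_eq G hq (by rw [hkerq]; exact hKN.trans hNG)
  -- exponent bound for `G₁`
  set r := N.relIndex G with hr
  have hpowG : ∀ g : Γ, g ∈ G → g ^ r ∈ N := by
    intro g hg
    have h1 := Subgroup.pow_index_mem (N.subgroupOf G) (⟨g, hg⟩ : G)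
    rw [Subgroup.mem_subgroupOf] at h1
    exact h1
  have hpowN : ∀ n : Γ, n ∈ N → n ^ a ∈ K := by
    intro n hn
    refine (hKmem _).2 ⟨N.pow_mem hn a, ?_⟩
    have h1 : (⟨n ^ a, N.pow_mem hn a⟩ : N) = (⟨n, hn⟩ : N) ^ a := rfl
    rw [h1, map_pow, ← MonoidHom.pow_apply, hφ₂a]
    rfl
  have hexp : ∀ y : Γ ⧸ K, y ∈ G₁ → y ^ (r * a) = 1 := by
    rintro y ⟨g, hg, rfl⟩
    rw [← map_pow, hqker, pow_mul]
    exact hpowN _ (hpowG g hg)
  have hmo : Nat.Coprime (r * a) G.index := by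
    apply Nat.Coprime.mul_left hcop.symm
    exact Nat.Coprime.coprime_dvd_left hak (Nat.Coprime.pow_left k hcop.symm)
  have hcop₁ : Nat.Coprime (Nat.card G₁) G₁.index := by
    rw [hidx₁]
    apply Nat.coprime_of_dvd
    intro p hp hp1 hp2
    have : Fact p.Prime := ⟨hp⟩
    obtain ⟨y, hy⟩ := exists_prime_orderOf_dvd_card' p hp1
    have h1 : (y : Γ ⧸ K) ^ (r * a) = 1 := hexp y y.2
    have h2 : y ^ (r * a) = 1 := Subtype.ext h1
    have h3 : p ∣ r * a := by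
      rw [← hy]
      exact orderOf_dvd_of_pow_eq_one h2
    have h4 := Nat.dvd_gcd h3 hp2
    rw [hmo] at h4
    exact hp.one_lt.ne' (Nat.dvd_one.1 h4)
  -- Schur-Zassenhaus
  obtain ⟨S₁, hS₁⟩ := Subgroup.exists_left_complement'_of_coprime hcop₁
  have hcardS : Nat.card S₁ = G₁.index := hS₁.index_eq_card.symm
  have hdisj : ∀ s : Γ ⧸ K, s ∈ S₁ → s ∈ G₁ → s = 1 := by
    intro s hs hg
    have h2 : s ∈ S₁ ⊓ G₁ := ⟨hs, hg⟩
    rw [hS₁.disjoint.eq_bot, Subgroup.mem_bot] at h2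
    exact h2
  -- the complement is cyclic
  have hKker : K ≤ (QuotientGroup.mk' G).ker := by
    rw [QuotientGroup.ker_mk']
    exact hKN.trans hNG
  let rr : Γ ⧸ K →* Γ ⧸ G := QuotientGroup.lift K (QuotientGroup.mk' G) hKker
  have hrr : ∀ y : Γ ⧸ K, rr y = 1 → y ∈ G₁ := by
    intro y hy
    obtain ⟨x, rfl⟩ := hq y
    have h1 : rr (q x) = QuotientGroup.mk' G x := rfl
    rw [h1] at hy
    have h2 : x ∈ G := (QuotientGroup.eq_one_iff x).1 hy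
    exact ⟨x, h2, rfl⟩
  have hinj : Function.Injective (rr.comp S₁.subtype) := by
    rw [injective_iff_map_eq_one]
    intro s hs1
    exact Subtype.ext (hdisj s s.2 (hrr _ hs1))
  have hcycS : IsCyclic S₁ := isCyclic_of_injective (rr.comp S₁.subtype) hinj
  -- the Frobenius condition in the quotient
  have hmemN₁ : ∀ z : Γ, q z ∈ N₁ → z ∈ N := by
    rintro z ⟨n, hn, hnz⟩
    have h1 : n⁻¹ * z ∈ K := by
      rw [← hqker, map_mul, map_inv, hnz, inv_mul_cancel]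
    have h2 : n * (n⁻¹ * z) ∈ N := N.mul_mem hn (hKN h1)
    rw [mul_inv_cancel_left] at h2
    exact h2
  have hfrob₁ : ∀ y : Γ ⧸ K, y ∉ G₁ → ∀ g : Γ ⧸ K, g ∈ G₁ → y * g * y⁻¹ * g⁻¹ ∈ N₁ →
      g ∈ N₁ := by
    intro y hy g hg hyg
    obtain ⟨x, rfl⟩ := hq y
    obtain ⟨g₀, hg₀, rfl⟩ := hg
    have hx : x ∉ G := fun hx => hy ⟨x, hx, rfl⟩
    have h1 : q (x * g₀ * x⁻¹ * g₀⁻¹) ∈ N₁ := by
      rw [map_mul, map_mul, map_mul, map_inv, map_inv]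
      exact hyg
    exact ⟨g₀, hfrob x hx g₀ hg₀ (hmemN₁ _ h1), rfl⟩
  -- `N₁` is central
  have hcentral : ∀ y : Γ ⧸ K, y ∈ N₁ → ∀ z : Γ ⧸ K, z * y = y * z := by
    rintro y ⟨n, hn, rfl⟩ z
    obtain ⟨x, rfl⟩ := hq z
    rw [← map_mul, ← map_mul]
    show ((x * n : Γ) : Γ ⧸ K) = ((n * x : Γ) : Γ ⧸ K)
    rw [QuotientGroup.eq]
    have hmem : x⁻¹ * n * x⁻¹⁻¹ ∈ N := hN.conj_mem n hn x⁻¹
    have h1 : φ₂ ⟨x⁻¹ * n * x⁻¹⁻¹, hmem⟩ = φ₂ ⟨n, hn⟩ := hinv₂ x⁻¹ ⟨n, hn⟩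
    have h2 : (x * n)⁻¹ * (n * x) = n⁻¹ * (x⁻¹ * n * x⁻¹⁻¹) := by group
    rw [h2]
    refine (hKmem _).2 ⟨N.mul_mem (N.inv_mem hn) hmem, ?_⟩
    have h3 : (⟨n⁻¹ * (x⁻¹ * n * x⁻¹⁻¹), N.mul_mem (N.inv_mem hn) hmem⟩ : N) =
        (⟨n, hn⟩ : N)⁻¹ * ⟨x⁻¹ * n * x⁻¹⁻¹, hmem⟩ := rfl
    rw [h3, map_mul, map_inv, h1, inv_mul_cancel]
  -- descend the character
  let fG : G →* G₁ := q.subgroupMap G
  have hfG : Function.Surjective fG := q.subgroupMap_surjective G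
  have hker : ∀ a : G, fG a = 1 → β₂ a = β₂ 1 := by
    intro a ha
    have h1 : q (a : Γ) = 1 := congrArg Subtype.val ha
    obtain ⟨h, h2⟩ := (hKmem _).1 ((hqker _).1 h1)
    have h3 := hβ₂res ⟨a, h⟩
    have h4 := hβ₂res 1
    rw [h2] at h3
    rw [map_one] at h4
    exact h3.trans h4.symm
  obtain ⟨β₃, hβ₃irr, hβ₃val⟩ :=
    Cfsg.Agent.Lib.Helper78.InvRed.exists_descend_irr fG hfG hβ₂ hker
  have hβ₃one : β₃ 1 = e := by
    have h1 := hβ₃val 1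
    rw [map_one] at h1
    rw [h1]
    have h2 : β₂ 1 = e * ((φ₂ 1 : ℂˣ) : ℂ) := hβ₂res 1
    rw [map_one] at h2
    simpa using h2
  have hβ₃inv : ∀ (z : Γ ⧸ K) (g : G₁), β₃ ⟨z * g * z⁻¹, hG₁.conj_mem g g.2 z⟩ = β₃ g := by
    intro z g
    obtain ⟨x, rfl⟩ := hq z
    obtain ⟨g₀, rfl⟩ := hfG g
    have h1 : (⟨q x * (fG g₀ : Γ ⧸ K) * (q x)⁻¹, hG₁.conj_mem _ (fG g₀).2 (q x)⟩ : G₁) =
        fG ⟨x * g₀ * x⁻¹, hG.conj_mem g₀ g₀.2 x⟩ := by
      apply Subtype.ext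
      show q x * q g₀ * (q x)⁻¹ = q (x * g₀ * x⁻¹)
      rw [map_mul, map_mul, map_inv]
    rw [h1, hβ₃val, hβ₃val, hβ₂inv]
  -- the canonical extension
  let _ : Fintype (Γ ⧸ K) := Fintype.ofFinite _
  let _ : Fintype G₁ := Fintype.ofFinite _
  let _ : Fintype N₁ := Fintype.ofFinite _
  have hcardG₁ : Nat.Coprime (Nat.card G₁) G.index := by
    rw [← hidx₁]
    exact hcop₁
  have hdetcop : Nat.Coprime (detOrder β₃) G.index :=
    Nat.Coprime.coprime_dvd_left (detOrder_dvd_card hβ₃irr) hcardG₁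
  have hcope : Nat.Coprime G₁.index (detOrder β₃ * e) := by
    rw [hidx₁]
    apply Nat.Coprime.mul_right hdetcop.symm
    have h1 : e ∣ r := by
      rw [hidx]
      exact dvd_mul_right e e
    exact Nat.Coprime.coprime_dvd_right h1 hcop
  obtain ⟨χh, ⟨hχhirr, hχhext, hχhdet⟩, -⟩ :=
    Cfsg.Agent.S0867.result G₁ β₃ hβ₃irr hβ₃inv e hβ₃one hcope
  -- the Glauberman setting
  have hcopS : (Nat.card G₁).Coprime (Nat.card S₁) := by
    rw [hcardS]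
    exact hcop₁
  have htop : G₁ ⊔ S₁ = ⊤ := by
    rw [sup_comm]
    exact hS₁.sup_eq_top
  obtain ⟨s₀, hs₀, hs₀1⟩ : ∃ s₀ ∈ S₁, s₀ ≠ 1 := by
    by_contra hcon
    push Not at hcon
    have h1 : S₁ = ⊥ := (Subgroup.eq_bot_iff_forall S₁).2 hcon
    have h2 : Nat.card S₁ = 1 := by
      rw [h1]
      exact Subgroup.card_bot
    rw [hcardS, hidx₁] at h2
    exact hm1 h2
  have hnotG : ∀ s ∈ S₁, s ≠ 1 → s ∉ G₁ := fun s hs h1 hG' => h1 (hdisj s hs hG')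
  have hcomm1 : ∀ s g : Γ ⧸ K, s * g = g * s → s * g * s⁻¹ * g⁻¹ ∈ N₁ := by
    intro s g h
    have h2 : s * g * s⁻¹ * g⁻¹ = 1 := by
      rw [h]
      group
    rw [h2]
    exact N₁.one_mem
  have hC : N₁ = G₁ ⊓ Subgroup.centralizer (S₁ : Set (Γ ⧸ K)) := by
    apply le_antisymm
    · intro y hy
      exact ⟨hNG₁ hy, Subgroup.mem_centralizer_iff.2 (fun s _ => hcentral y hy s)⟩
    · rintro g ⟨hgG, hgC⟩
      have hgC' := Subgroup.mem_centralizer_iff.1 hgC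
      exact hfrob₁ s₀ (hnotG s₀ hs₀ hs₀1) g hgG (hcomm1 s₀ g (hgC' s₀ hs₀))
  have hfpf : ∀ x ∈ S₁, x ≠ 1 → G₁ ⊓ Subgroup.centralizer ({x} : Set (Γ ⧸ K)) = N₁ := by
    intro x hx hx1
    apply le_antisymm
    · rintro g ⟨hgG, hgC⟩
      have hgC' := Subgroup.mem_centralizer_iff.1 hgC
      exact hfrob₁ x (hnotG x hx hx1) g hgG (hcomm1 x g (hgC' x (Set.mem_singleton x)))
    · intro y hy
      exact ⟨hNG₁ hy, Subgroup.mem_centralizer_iff.2 (fun s _ => hcentral y hy s)⟩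
  let χ₃ : IrrCharacter G₁ := ⟨β₃, hβ₃irr⟩
  let χH : IrrCharacter (Γ ⧸ K) := ⟨χh, hχhirr⟩
  have hinvS : ∀ s ∈ S₁, ∀ g g' : G₁, (g' : Γ ⧸ K) = s * g * s⁻¹ →
      (χ₃ : G₁ → ℂ) g' = (χ₃ : G₁ → ℂ) g := by
    intro s _ g g' hg
    have h1 : g' = ⟨s * g * s⁻¹, hG₁.conj_mem g g.2 s⟩ := Subtype.ext hg
    rw [h1]
    exact hβ₃inv s g
  have hext : ∀ g : G₁, (χH : Γ ⧸ K → ℂ) g = (χ₃ : G₁ → ℂ) g := hχhext
  have hdet : (detOrder (χH : Γ ⧸ K → ℂ)).Coprime (Nat.card S₁) := by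
    show (detOrder χh).Coprime (Nat.card S₁)
    rw [hχhdet, hcardS, hidx₁]
    exact hdetcop
  have hnormS : ∀ s ∈ S₁, ∀ g ∈ G₁, s * g * s⁻¹ ∈ G₁ := fun s _ g hg => hG₁.conj_mem g hg s
  obtain ⟨hA, -, -⟩ := Cfsg.Agent.S4446.result G₁ S₁ hnormS hcopS htop hcycS N₁ hC hNG₁
  obtain ⟨⟨⟨β', ε₀⟩, ⟨hε₀, hβ'⟩, -⟩, -⟩ := hA χ₃ χH hinvS hext hdet
  obtain ⟨ε, hε, -, -, hdvd⟩ := Cfsg.Agent.S4451.result G₁ S₁ hnormS hcopS htop hcycS N₁ hC hNG₁
    hfpf χ₃ hinvS χH hext hdet β' ε₀ hε₀ hβ'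
  -- degrees
  have hdeg₃ : charDegree (χ₃ : G₁ → ℂ) = e :=
    Cfsg.Agent.Lib.CT.Wedderburn.charDegree_eq_of_apply_one hβ₃one
  have hdegβ' : charDegree (β' : N₁ → ℂ) = 1 := by
    apply Cfsg.Agent.Lib.CT.Wedderburn.charDegree_eq_of_apply_one
    have h1 := Cfsg.Agent.Lib.Helper81.SemiChar.abelian_linear (G := N₁)
      (fun a b => Subtype.ext (hcentral b b.2 a)) β'
    rw [h1]
    simp
  rw [hdeg₃, hdegβ', hcardS, hidx₁] at hdvd
  rcases hε with rfl | rfl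
  · left
    simpa using hdvd
  · right
    have h1 : (e : ℤ) - -1 * ((1 : ℕ) : ℤ) = e + 1 := by
      push_cast
      ring
    rw [h1] at hdvd
    exact hdvd

end lin

end Cfsg.Agent.Lib.Helper78.FrobRam2
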