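import Mathlib
import Cfsg.Agent.Lib.Helper37.HypStmt

/-! S5992 piece FXLT. -/

set_option autoImplicit false

namespace Cfsg.Agent.Lib.Helper78.HypFXLT

open Cfsg.Agent.Lib.Helper37
open scoped Matrix

universe u

theorem main : HypStmt.FxLt.{u} := by
  intro F _ d x hx
  by_contra hnot
  push Not at hnot
  have hfin : Module.finrank F (HypStmt.I d → F) = 2 * d + 1 := by
    rw [Module.finrank_pi]
    simp [HypStmt.I]
    omega
  have hle : Module.finrank F ↥(HypStmt.Fx x) ≤ Module.finrank F (HypStmt.I d → F) :=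
    Submodule.finrank_le _
  have heq : Module.finrank F ↥(HypStmt.Fx x) = Module.finrank F (HypStmt.I d → F) := by omega
  have htop : HypStmt.Fx x = ⊤ := Submodule.eq_top_of_finrank_eq heq
  apply hx
  have hall : ∀ v : HypStmt.I d → F, x *ᵥ v = v := by
    intro v
    rw [← HypStmt.mem_Fx, htop]
    exact Submodule.mem_top
  apply Matrix.toLin'.injective
  apply LinearMap.ext
  intro v
  rw [Matrix.toLin'_apply, Matrix.toLin'_one, hall]
  rfl

end Cfsg.Agent.Lib.Helper78.HypFXLT
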