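import Mathlib
import Cfsg.Agent.Lib.Helper37.HypStmt

/-! S5992 piece NDARITH. -/

set_option autoImplicit false

namespace Cfsg.Agent.Lib.Helper78.HypNDARITH

open Cfsg.Agent.Lib.Helper37

theorem main : HypStmt.NdArith := by
  intro q d h t r hr hrq hth hhd hdvd
  have hfr : Fact r.Prime := ⟨hr⟩
  set s := 2 * (d - t) with hs
  have hq0 : q ≠ 0 := by
    rintro rfl
    exact hrq (dvd_zero r)
  have hqs : 1 ≤ q ^ s := Nat.one_le_pow _ _ (Nat.pos_of_ne_zero hq0)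
  have hpow : ((q : ℕ) : ZMod r) ^ s = 1 := by
    have h0 : ((q ^ s - 1 : ℕ) : ZMod r) = 0 := (ZMod.natCast_eq_zero_iff _ _).mpr hdvd
    rw [Nat.cast_sub hqs, Nat.cast_pow, Nat.cast_one, sub_eq_zero] at h0
    exact h0
  have hi : orderOf ((q : ℕ) : ZMod r) ∣ s := orderOf_dvd_of_pow_eq_one hpow
  have hc : HypStmt.cc (orderOf ((q : ℕ) : ZMod r)) ∣ s := by
    unfold HypStmt.cc
    split_ifs with he
    · exact hi
    · rw [Nat.not_even_iff_odd] at he
      have hcop : Nat.Coprime (orderOf ((q : ℕ) : ZMod r)) 2 := Nat.coprime_two_right.mpr he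
      have h1 : orderOf ((q : ℕ) : ZMod r) ∣ d - t := hcop.dvd_of_dvd_mul_left hi
      rw [hs]
      exact Nat.mul_dvd_mul_left 2 h1
  obtain ⟨k, hk⟩ := hc
  have hn : 2 * d + 1 = HypStmt.cc (orderOf ((q : ℕ) : ZMod r)) * k + (2 * t + 1) := by
    rw [← hk, hs]
    omega
  rw [hn, Nat.mul_add_mod]
  calc (2 * t + 1) % _ ≤ 2 * t + 1 := Nat.mod_le _ _
    _ < 2 * h := by omega

end Cfsg.Agent.Lib.Helper78.HypNDARITH
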