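import Mathlib
import Cfsg.Agent.Lib.Helper27.JzStmt
import Cfsg.Agent.Lib.Helper90.FStarES

/-!
S5403 piece GLOC1: the situation `SCtx` holds in the centraliser of the element `a` of order
five.
-/

set_option autoImplicit false

namespace Cfsg.Agent.Lib.Helper78.JzGLOC1

open Cfsg Cfsg.Agent.Lib.Helper27.OzStmt Cfsg.Agent.Lib.Helper27.JzStmt

variable {G : Type} [Group G]

/-- elements of `zpowers a ⊔ center G` commute with the centraliser of `a` -/
theorem sup_comm {a z : G} (hz : z ∈ Subgroup.zpowers a ⊔ Subgroup.center G) {x : G}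
    (hx : x * a = a * x) : z * x = x * z := by
  rw [Subgroup.mem_sup_of_normal_right] at hz
  obtain ⟨y, hy, c', hc', rfl⟩ := hz
  obtain ⟨k, rfl⟩ := Subgroup.mem_zpowers_iff.mp hy
  have h1 : a ^ k * x = x * a ^ k := ((Commute.zpow_right (show Commute x a from hx) k).eq).symm
  have h2 : c' * x = x * c' := ((Subgroup.mem_center_iff.mp hc') x).symm
  calc a ^ k * c' * x = a ^ k * (c' * x) := mul_assoc _ _ _
    _ = a ^ k * (x * c') := by rw [h2]
    _ = (a ^ k * x) * c' := (mul_assoc _ _ _).symm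
    _ = (x * a ^ k) * c' := by rw [h1]
    _ = x * (a ^ k * c') := mul_assoc _ _ _

/-- elements of `zpowers a ⊔ center G` of 2-power order are central, when `a ^ 5 = 1` and the
centre has exponent two -/
theorem sup_two_pow {a : G} (ha5 : a ^ 5 = 1) (hc2 : ∀ c ∈ Subgroup.center G, c * c = 1) {z : G}
    (hz : z ∈ Subgroup.zpowers a ⊔ Subgroup.center G) (m : ℕ) (hzm : z ^ (2 ^ m) = 1) :
    z ∈ Subgroup.center G := by
  rw [Subgroup.mem_sup_of_normal_right] at hz
  obtain ⟨y, hy, c, hc, rfl⟩ := hz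
  obtain ⟨k, rfl⟩ := Subgroup.mem_zpowers_iff.mp hy
  have hcomm : Commute (a ^ k) c := (Subgroup.mem_center_iff.mp hc) (a ^ k)
  have hc2' : c ^ (2 * 2 ^ m) = 1 := by rw [pow_mul, pow_two, hc2 c hc, one_pow]
  have hz2 : (a ^ k * c) ^ (2 * 2 ^ m) = 1 := by rw [mul_comm 2, pow_mul, hzm, one_pow]
  have h1 : (a ^ k) ^ (2 * 2 ^ m) = 1 := by
    rw [hcomm.mul_pow, hc2', mul_one] at hz2
    exact hz2
  have h5 : (a ^ k) ^ 5 = 1 := by
    rw [← zpow_natCast, ← zpow_mul, mul_comm, zpow_mul, zpow_natCast, ha5, one_zpow]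
  have hord : orderOf (a ^ k) = 1 := by
    have d1 := orderOf_dvd_of_pow_eq_one h1
    have d5 := orderOf_dvd_of_pow_eq_one h5
    have hcop : Nat.Coprime (2 * 2 ^ m) 5 := by
      rw [← pow_succ']
      exact Nat.Coprime.pow_left _ (by norm_num)
    have h3 := Nat.dvd_gcd d1 d5
    rw [hcop.gcd_eq_one] at h3
    exact Nat.dvd_one.mp h3
  rw [orderOf_eq_one_iff.mp hord, one_mul]
  exact hc

theorem matOf_acode_ne : matOf acode ≠ 1 := by
  intro h
  have h2 : matOf acode (Sum.inl 0) (Sum.inl 0) = (1 : M8) (Sum.inl 0) (Sum.inl 0) := by rw [h]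
  revert h2
  decide

theorem main : CK → Cnt → XS5 → GLoc1 := by
  intro hCK hCnt hXS G _ _ t n a K φ ha hJ
  have c := hJ.ctx
  have hn_cen : n ∈ Subgroup.center G := (c.center n).mpr (Or.inr rfl)
  have hn_comm : ∀ x : G, n * x = x * n := fun x => ((Subgroup.mem_center_iff.mp hn_cen) x).symm
  have hnn : n * n = 1 := by
    have h1 : n * n ∈ Subgroup.center G := Subgroup.mul_mem _ hn_cen hn_cen
    rcases (c.center (n * n)).mp h1 with h | h
    · exact h
    · exfalso
      exact c.n_ne (mul_left_cancel (a := n) (h.trans (mul_one n).symm))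
  have hc2 : ∀ c' ∈ Subgroup.center G, c' * c' = 1 := by
    intro c' hc'
    rcases (c.center c').mp hc' with h | h
    · rw [h, one_mul]
    · rw [h, hnn]
  have hat : a * t = t * a := hJ.a_t
  have hZ : ∀ z ∈ Subgroup.zpowers a ⊔ Subgroup.center G, ∀ m : ℕ, z ^ (2 ^ m) = 1 →
      z = 1 ∨ z = n :=
    fun z hz m hzm => (c.center z).mp (sup_two_pow hJ.a5 hc2 hz m hzm)
  have hMAa : ∀ x : ↥(MA a), (x : G) * a = a * (x : G) := fun x =>
    (Subgroup.mem_centralizer_iff.mp x.2 a (Subgroup.mem_zpowers a)).symm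
  have hnorm : ∀ k ∈ K, a * k * a⁻¹ ∈ K := fun k hk => c.K_normal a hat k hk
  have hnc : ∃ k ∈ K, a * k ≠ k * a := by
    by_contra hcon
    push Not at hcon
    obtain ⟨x, hxa, hxm⟩ := hJ.am
    have h1 : φ x = 1 := hCK G t n K φ c hJ.nc x (fun k hk => by rw [hxa]; exact hcon k hk)
    rw [h1] at hxm
    exact matOf_acode_ne hxm.symm
  have hk3 : ∃ k ∈ K, a * k = k * a ∧ k ≠ 1 ∧ k ≠ t := by
    obtain ⟨g, h, hga, hha, hht, ⟨x, hx, hφx⟩, hfus⟩ := hJ.fus
    have hT1a : a * (g * t * g⁻¹) = (g * t * g⁻¹) * a := by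
      have c1 : Commute a g := hga.symm
      have c2 : Commute a t := hat
      exact ((c1.mul_right c2).mul_right c1.inv_right).eq
    have hT1ne : g * t * g⁻¹ ≠ 1 := by
      intro h1
      apply c.t_ne
      have h2 : t = g⁻¹ * (g * t * g⁻¹) * g := by group
      rw [h2, h1]
      group
    have hT1t : g * t * g⁻¹ ≠ t := by
      intro h1
      rw [h1] at hfus
      have h2 : h * t * h⁻¹ = t := by rw [hht]; group
      rw [h2, c.t_sq, one_mul] at hfus
      exact c.t_ne hfus.symm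
    rcases (c.ker x).mp hφx with hk | hk
    · rw [hx] at hk
      exact ⟨g * t * g⁻¹, hk, hT1a, hT1ne, hT1t⟩
    · rw [hx] at hk
      refine ⟨n * (g * t * g⁻¹), hk, ?_, ?_, ?_⟩
      · calc a * (n * (g * t * g⁻¹)) = (a * n) * (g * t * g⁻¹) := (mul_assoc _ _ _).symm
          _ = (n * a) * (g * t * g⁻¹) := by rw [hn_comm a]
          _ = n * (a * (g * t * g⁻¹)) := mul_assoc _ _ _
          _ = n * ((g * t * g⁻¹) * a) := by rw [hT1a]
          _ = n * (g * t * g⁻¹) * a := (mul_assoc _ _ _).symm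
      · intro h1
        have h2 : g * t * g⁻¹ = n := by
          calc g * t * g⁻¹ = (n * n) * (g * t * g⁻¹) := by rw [hnn, one_mul]
            _ = n * (n * (g * t * g⁻¹)) := mul_assoc _ _ _
            _ = n := by rw [h1, mul_one]
        have h3 : t = n := by
          have h4 : t = g⁻¹ * (g * t * g⁻¹) * g := by group
          rw [h4, h2, mul_assoc, hn_comm g, ← mul_assoc, inv_mul_cancel, one_mul]
        exact c.n_not_mem (h3 ▸ c.t_mem)
      · intro h1
        apply c.not_conj g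
        calc g * t * g⁻¹ = (n * n) * (g * t * g⁻¹) := by rw [hnn, one_mul]
          _ = n * (n * (g * t * g⁻¹)) := mul_assoc _ _ _
          _ = n * t := by rw [h1]
  have hcard : Nat.card ↥(K ⊓ Subgroup.centralizer ({a} : Set G)) = 2 ^ 5 :=
    hCnt G K a t c.card_K hJ.a5 hnorm hnc c.t_mem hat c.t_ne hk3
  have hxs : IsExtraspecial 2 ↥(K ⊓ Subgroup.centralizer ({a} : Set G)) :=
    hXS G K a c.xs c.card_K hJ.a5 hnorm hcard
  have hle : K ⊓ Subgroup.centralizer ({a} : Set G) ≤ MA a := by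
    intro x hx
    exact mem_MA ((Subgroup.mem_centralizer_iff.mp hx.2 a rfl).symm)
  have e : ↥(QA a K) ≃* ↥(K ⊓ Subgroup.centralizer ({a} : Set G)) :=
    Subgroup.subgroupOfEquivOfLe hle
  refine ⟨?_, ?_, ?_, ?_, ?_, ?_, ?_, ?_, ?_, ?_⟩
  · -- central
    intro z hz x
    have hz' : (z : G) ∈ Subgroup.zpowers a ⊔ Subgroup.center G := Subgroup.mem_subgroupOf.mp hz
    exact Subtype.ext (sup_comm hz' (hMAa x))
  · -- t_sq
    exact Subtype.ext c.t_sq
  · -- t_nmem
    intro h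
    have h' : t ∈ Subgroup.zpowers a ⊔ Subgroup.center G := Subgroup.mem_subgroupOf.mp h
    rcases hZ t h' 1 (by rw [pow_one, pow_two]; exact c.t_sq) with h1 | h1
    · exact c.t_ne h1
    · exact c.n_not_mem (h1 ▸ c.t_mem)
  · -- nofus
    intro g hg
    have hg' : (g : G) * t * (g : G)⁻¹ * t⁻¹ ∈ Subgroup.zpowers a ⊔ Subgroup.center G :=
      Subgroup.mem_subgroupOf.mp hg
    have hzt : ((g : G) * t * (g : G)⁻¹ * t⁻¹) * t = t * ((g : G) * t * (g : G)⁻¹ * t⁻¹) :=
      sup_comm hg' ha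
    have hzt' : ((g : G) * t * (g : G)⁻¹ * t⁻¹) * t = (g : G) * t * (g : G)⁻¹ := by group
    have hzz : ((g : G) * t * (g : G)⁻¹ * t⁻¹) * ((g : G) * t * (g : G)⁻¹ * t⁻¹) = 1 := by
      have h1 : (((g : G) * t * (g : G)⁻¹ * t⁻¹) * t) * (((g : G) * t * (g : G)⁻¹ * t⁻¹) * t)
          = 1 := by
        rw [hzt']
        calc (g : G) * t * (g : G)⁻¹ * ((g : G) * t * (g : G)⁻¹)
            = (g : G) * (t * t) * (g : G)⁻¹ := by group
          _ = 1 := by rw [c.t_sq, mul_one, mul_inv_cancel]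
      have h2 : (((g : G) * t * (g : G)⁻¹ * t⁻¹) * t) * (((g : G) * t * (g : G)⁻¹ * t⁻¹) * t)
          = ((g : G) * t * (g : G)⁻¹ * t⁻¹) * ((g : G) * t * (g : G)⁻¹ * t⁻¹) := by
        calc (((g : G) * t * (g : G)⁻¹ * t⁻¹) * t) * (((g : G) * t * (g : G)⁻¹ * t⁻¹) * t)
            = ((g : G) * t * (g : G)⁻¹ * t⁻¹) * (t * ((g : G) * t * (g : G)⁻¹ * t⁻¹)) * t := by
              simp only [mul_assoc]
          _ = ((g : G) * t * (g : G)⁻¹ * t⁻¹) * (((g : G) * t * (g : G)⁻¹ * t⁻¹) * t) * t := by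
              rw [hzt]
          _ = ((g : G) * t * (g : G)⁻¹ * t⁻¹) * ((g : G) * t * (g : G)⁻¹ * t⁻¹) * (t * t) := by
              simp only [mul_assoc]
          _ = ((g : G) * t * (g : G)⁻¹ * t⁻¹) * ((g : G) * t * (g : G)⁻¹ * t⁻¹) := by
              rw [c.t_sq, mul_one]
      rw [← h2]
      exact h1
    rcases hZ _ hg' 1 (by rw [pow_one, pow_two]; exact hzz) with h1 | h1
    · apply Subtype.ext
      show (g : G) * t = t * (g : G)
      have h3 : (g : G) * t * (g : G)⁻¹ = t := by rw [← hzt', h1, one_mul]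
      calc (g : G) * t = ((g : G) * t * (g : G)⁻¹) * g := by group
        _ = t * g := by rw [h3]
    · exfalso
      exact c.not_conj (g : G) (by rw [← hzt', h1])
  · -- Q_comm
    intro q hq
    have hq' : (q : G) ∈ K ⊓ Subgroup.centralizer ({a} : Set G) := Subgroup.mem_subgroupOf.mp hq
    exact Subtype.ext (c.K_comm _ hq'.1)
  · -- Q_norm
    intro h hh q hq
    have hq' : (q : G) ∈ K ⊓ Subgroup.centralizer ({a} : Set G) := Subgroup.mem_subgroupOf.mp hq
    have hh' : (h : G) * t = t * (h : G) := congrArg Subtype.val hh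
    have hqa : a * (q : G) = (q : G) * a := Subgroup.mem_centralizer_iff.mp hq'.2 a rfl
    rw [Subgroup.mem_subgroupOf]
    show (h : G) * (q : G) * (h : G)⁻¹ ∈ K ⊓ Subgroup.centralizer ({a} : Set G)
    refine Subgroup.mem_inf.mpr ⟨c.K_normal _ hh' _ hq'.1, ?_⟩
    rw [Subgroup.mem_centralizer_iff]
    intro x hx
    rw [Set.mem_singleton_iff] at hx
    rw [hx]
    have c1 : Commute a (h : G) := (hMAa h).symm
    have c2 : Commute a (q : G) := hqa
    exact ((c1.mul_right c2).mul_right c1.inv_right).eq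
  · -- Q_meet
    intro q hq hqz
    have hq' : (q : G) ∈ K ⊓ Subgroup.centralizer ({a} : Set G) := Subgroup.mem_subgroupOf.mp hq
    have hqz' : (q : G) ∈ Subgroup.zpowers a ⊔ Subgroup.center G := Subgroup.mem_subgroupOf.mp hqz
    have hpow : (q : G) ^ (2 ^ 9) = 1 := by
      have h1 : (⟨(q : G), hq'.1⟩ : K) ^ Nat.card K = 1 := pow_card_eq_one'
      rw [c.card_K] at h1
      have h2 := congrArg Subtype.val h1
      simpa using h2
    rcases hZ _ hqz' 9 hpow with h1 | h1
    · exact Subtype.ext h1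
    · exfalso
      exact c.n_not_mem (h1 ▸ hq'.1)
  · -- xs
    exact Cfsg.Agent.Lib.Helper90.FStarES.isExtraspecial_of_mulEquiv e.symm hxs
  · -- card_Q
    rw [Nat.card_congr e.toEquiv]
    exact hcard
  · -- t_mem
    rw [Subgroup.mem_subgroupOf]
    refine Subgroup.mem_inf.mpr ⟨c.t_mem, ?_⟩
    rw [Subgroup.mem_centralizer_iff]
    intro x hx
    rw [Set.mem_singleton_iff] at hx
    rw [hx]
    exact hat

end Cfsg.Agent.Lib.Helper78.JzGLOC1
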