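import Mathlib

set_option autoImplicit false

/-!
# A weighted lattice inequality for generalized characters of finite abelian groups (helper78)

Let `A` be a finite abelian group and `l` a list of subgroups of `A` with trivial intersection.
Put `wt l y = ∏ K ∈ l, (if y ∈ K then 1 else 1 + [A : K])`.  Then for every integer combination
`ψ = ∑ i, c i • μ i` of linear characters of `A` which is not identically zero,
`|A| ^ 2 ≤ ∑ y, wt l y * ‖ψ y‖ ^ 2` (`main'`).
-/

namespace Cfsg.Agent.Lib.Helper78.KnorrLattice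

open Finset
open scoped ComplexConjugate

section Weight

variable {A : Type*} [Group A]

open Classical in
/-- The weight attached to a list of subgroups. -/
noncomputable def wt (l : List (Subgroup A)) (y : A) : ℝ :=
  (l.map (fun K : Subgroup A => if y ∈ K then (1 : ℝ) else 1 + (K.index : ℝ))).prod

theorem wt_nil (y : A) : wt ([] : List (Subgroup A)) y = 1 := by simp [wt]

open Classical in
theorem wt_cons (K : Subgroup A) (l : List (Subgroup A)) (y : A) :
    wt (K :: l) y = (if y ∈ K then (1 : ℝ) else 1 + (K.index : ℝ)) * wt l y := by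
  simp [wt]

theorem wt_append (l₁ l₂ : List (Subgroup A)) (y : A) :
    wt (l₁ ++ l₂) y = wt l₁ y * wt l₂ y := by
  simp [wt]

theorem wt_pos (l : List (Subgroup A)) (y : A) : 0 < wt l y := by
  classical
  induction l with
  | nil => rw [wt_nil]; exact one_pos
  | cons K l ih =>
    rw [wt_cons]
    apply mul_pos _ ih
    split_ifs
    · exact one_pos
    · positivity

end Weight

section Abstract

variable {D : Type*} [CommGroup D] [Fintype D]

/-- Translation of an integer-valued function on a group. -/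
def T (η : D) (a : D → ℤ) : D → ℤ := fun φ => a (η⁻¹ * φ)

open Classical in
/-- The support of `a`, saturated under the subgroup `N`. -/
noncomputable def Sat (N : Subgroup D) (a : D → ℤ) : Finset D :=
  univ.filter (fun φ => ∃ ψ, a ψ ≠ 0 ∧ φ * ψ⁻¹ ∈ N)

open Classical in
/-- The saturation of a finset under the subgroup `M`. -/
noncomputable def SatF (M : Subgroup D) (S₀ : Finset D) : Finset D :=
  univ.filter (fun φ => ∃ σ ∈ S₀, φ * σ⁻¹ ∈ M)

open Classical in
/-- A subgroup as a finset. -/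
noncomputable def subF (M : Subgroup D) : Finset D := univ.filter (fun φ => φ ∈ M)

open Classical in
/-- The overlap of a finset with its translate. -/
noncomputable def ovl (S₀ : Finset D) (η : D) : ℕ := (S₀ ∩ S₀.image (fun φ => η * φ)).card

theorem mem_Sat (N : Subgroup D) (a : D → ℤ) (φ : D) :
    φ ∈ Sat N a ↔ ∃ ψ, a ψ ≠ 0 ∧ φ * ψ⁻¹ ∈ N := by
  classical
  simp [Sat]

theorem mem_SatF (M : Subgroup D) (S₀ : Finset D) (φ : D) :
    φ ∈ SatF M S₀ ↔ ∃ σ ∈ S₀, φ * σ⁻¹ ∈ M := by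
  classical
  simp [SatF]

theorem mem_subF (M : Subgroup D) (φ : D) : φ ∈ subF M ↔ φ ∈ M := by
  classical
  simp [subF]

theorem sat_sup (M N : Subgroup D) (a : D → ℤ) : Sat (M ⊔ N) a = SatF M (Sat N a) := by
  ext φ
  rw [mem_Sat, mem_SatF]
  constructor
  · rintro ⟨ψ, hψ, hmem⟩
    obtain ⟨m, hm, n, hn, hmn⟩ := Subgroup.mem_sup.1 hmem
    refine ⟨n * ψ, (mem_Sat N a _).2 ⟨ψ, hψ, by rw [mul_inv_cancel_right]; exact hn⟩, ?_⟩
    have e : φ * (n * ψ)⁻¹ = m := by
      rw [mul_inv_rev, ← mul_assoc, ← hmn, mul_inv_cancel_right]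
    rw [e]
    exact hm
  · rintro ⟨σ, hσ, hmem⟩
    obtain ⟨ψ, hψ, hn⟩ := (mem_Sat N a σ).1 hσ
    refine ⟨ψ, hψ, Subgroup.mem_sup.2 ⟨φ * σ⁻¹, hmem, σ * ψ⁻¹, hn, by group⟩⟩

theorem link (N : Subgroup D) (a : D → ℤ) (η : D) :
    2 * (Sat N a).card ≤ (Sat N (a - T η a)).card + 2 * ovl (Sat N a) η := by
  classical
  unfold ovl
  have h1 : Sat N a \ (Sat N a).image (fun φ => η * φ) ⊆ Sat N (a - T η a) := by
    intro φ hφ
    obtain ⟨hφ0, hφ1⟩ := Finset.mem_sdiff.1 hφ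
    obtain ⟨ψ, hψ, hmem⟩ := (mem_Sat N a φ).1 hφ0
    refine (mem_Sat N _ φ).2 ⟨ψ, ?_, hmem⟩
    have h0 : a (η⁻¹ * ψ) = 0 := by
      by_contra hne
      apply hφ1
      refine Finset.mem_image.2 ⟨η⁻¹ * φ, (mem_Sat N a _).2 ⟨η⁻¹ * ψ, hne, ?_⟩,
        mul_inv_cancel_left η φ⟩
      have e : η⁻¹ * φ * (η⁻¹ * ψ)⁻¹ = φ * ψ⁻¹ := by
        rw [mul_inv_rev, inv_inv, mul_comm η⁻¹ φ, mul_assoc, ← mul_assoc η⁻¹, mul_comm η⁻¹ ψ⁻¹,
          mul_assoc, inv_mul_cancel, mul_one]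
      rw [e]
      exact hmem
    show a ψ - a (η⁻¹ * ψ) ≠ 0
    rw [h0, sub_zero]
    exact hψ
  have h2 : (Sat N a).image (fun φ => η * φ) \ Sat N a ⊆ Sat N (a - T η a) := by
    intro φ hφ
    obtain ⟨hφ1, hφ0⟩ := Finset.mem_sdiff.1 hφ
    obtain ⟨φ', hφ', rfl⟩ := Finset.mem_image.1 hφ1
    obtain ⟨ψ', hψ', hmem⟩ := (mem_Sat N a φ').1 hφ'
    have e : η * φ' * (η * ψ')⁻¹ = φ' * ψ'⁻¹ := by
      rw [mul_inv_rev, mul_comm η φ', mul_assoc, ← mul_assoc η, mul_comm η ψ'⁻¹, mul_assoc,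
        mul_inv_cancel, mul_one]
    have h0 : a (η * ψ') = 0 := by
      by_contra hne
      apply hφ0
      refine (mem_Sat N a _).2 ⟨η * ψ', hne, ?_⟩
      rw [e]
      exact hmem
    refine (mem_Sat N _ _).2 ⟨η * ψ', ?_, by rw [e]; exact hmem⟩
    show a (η * ψ') - a (η⁻¹ * (η * ψ')) ≠ 0
    rw [h0, inv_mul_cancel_left, zero_sub, neg_ne_zero]
    exact hψ'
  have hdisj : Disjoint (Sat N a \ (Sat N a).image (fun φ => η * φ))
      ((Sat N a).image (fun φ => η * φ) \ Sat N a) :=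
    Finset.disjoint_left.2 (fun x hx hx' =>
      (Finset.mem_sdiff.1 hx).2 (Finset.mem_sdiff.1 hx').1)
  have h3 := Finset.card_le_card (Finset.union_subset h1 h2)
  rw [Finset.card_union_of_disjoint hdisj] at h3
  have h4 := Finset.card_sdiff_add_card_inter (Sat N a) ((Sat N a).image (fun φ => η * φ))
  have h5 := Finset.card_sdiff_add_card_inter ((Sat N a).image (fun φ => η * φ)) (Sat N a)
  have h6 : ((Sat N a).image (fun φ => η * φ)).card = (Sat N a).card :=
    Finset.card_image_of_injective _ (mul_right_injective η)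
  rw [Finset.inter_comm] at h5
  omega

theorem comb (M : Subgroup D) (S₀ : Finset D) :
    (SatF M S₀).card + ∑ η ∈ subF M, ovl S₀ η ≤ ((subF M).card + 1) * S₀.card := by
  classical
  unfold ovl
  let q : D → D ⧸ M := fun x => (x : D ⧸ M)
  have hq : ∀ x y : D, q x = q y ↔ x⁻¹ * y ∈ M := fun x y => QuotientGroup.eq
  set Q := S₀.image q with hQ
  set t : D ⧸ M → ℕ := fun ω => (S₀.filter (fun x => q x = ω)).card with ht
  set m := (subF M).card with hm
  -- fibres of `q` have at most `m` elements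
  have hfib : ∀ (s : Finset D) (ω : D ⧸ M), (s.filter (fun x => q x = ω)).card ≤ m := by
    intro s ω
    rcases (s.filter (fun x => q x = ω)).eq_empty_or_nonempty with h | ⟨x₀, hx₀⟩
    · rw [h, Finset.card_empty]
      exact Nat.zero_le _
    · have hx₀' := (Finset.mem_filter.1 hx₀).2
      have hsub : s.filter (fun x => q x = ω) ⊆ (subF M).image (fun n => x₀ * n) := by
        intro x hx
        have hx' := (Finset.mem_filter.1 hx).2
        refine Finset.mem_image.2 ⟨x₀⁻¹ * x, (mem_subF M _).2 ?_, mul_inv_cancel_left x₀ x⟩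
        exact (hq x₀ x).1 (by rw [hx₀', hx'])
      exact le_trans (Finset.card_le_card hsub) Finset.card_image_le
  have h1 : S₀.card = ∑ ω ∈ Q, t ω := Finset.card_eq_sum_card_image q S₀
  have h2 : (SatF M S₀).card ≤ ∑ ω ∈ Q, m := by
    rw [Finset.sum_const, smul_eq_mul, mul_comm]
    have hsub : (SatF M S₀).image q ⊆ Q := by
      intro ω hω
      obtain ⟨φ, hφ, rfl⟩ := Finset.mem_image.1 hω
      obtain ⟨σ, hσ, hmem⟩ := (mem_SatF M S₀ φ).1 hφ
      refine Finset.mem_image.2 ⟨σ, hσ, ?_⟩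
      rw [hq]
      have e : σ⁻¹ * φ = φ * σ⁻¹ := mul_comm _ _
      rw [e]
      exact hmem
    exact le_trans (Finset.card_le_mul_card_image (SatF M S₀) m (fun ω _ => hfib _ ω))
      (Nat.mul_le_mul_left m (Finset.card_le_card hsub))
  have h3 : ∑ η ∈ subF M, (S₀ ∩ S₀.image (fun φ => η * φ)).card ≤ ∑ ω ∈ Q, t ω * t ω := by
    have e1 : ∀ η ∈ subF M, (S₀ ∩ S₀.image (fun φ => η * φ)).card
        ≤ ∑ φ ∈ S₀, if η⁻¹ * φ ∈ S₀ then 1 else 0 := by
      intro η _
      rw [← Finset.card_filter]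
      apply Finset.card_le_card
      intro φ hφ
      obtain ⟨hφ0, hφ1⟩ := Finset.mem_inter.1 hφ
      obtain ⟨σ, hσ, rfl⟩ := Finset.mem_image.1 hφ1
      refine Finset.mem_filter.2 ⟨hφ0, ?_⟩
      rw [inv_mul_cancel_left]
      exact hσ
    refine le_trans (Finset.sum_le_sum e1) ?_
    rw [Finset.sum_comm]
    have e2 : ∀ φ ∈ S₀, (∑ η ∈ subF M, if η⁻¹ * φ ∈ S₀ then 1 else 0) ≤ t (q φ) := by
      intro φ _
      rw [← Finset.card_filter]
      refine Finset.card_le_card_of_injOn (fun η => η⁻¹ * φ) ?_ ?_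
      · intro η hη
        have hη' := Finset.mem_filter.1 (Finset.mem_coe.1 hη)
        refine Finset.mem_coe.2 (Finset.mem_filter.2 ⟨hη'.2, ?_⟩)
        rw [hq]
        have e : (η⁻¹ * φ)⁻¹ * φ = η := by
          rw [mul_inv_rev, inv_inv, mul_comm φ⁻¹ η, mul_assoc, inv_mul_cancel, mul_one]
        rw [e]
        exact (mem_subF M η).1 hη'.1
      · intro η _ η' _ h
        exact inv_injective (mul_right_cancel h)
    refine le_trans (Finset.sum_le_sum e2) ?_
    rw [← Finset.sum_fiberwise_of_maps_to (t := Q) (g := q)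
      (fun φ hφ => Finset.mem_image_of_mem q hφ)]
    apply Finset.sum_le_sum
    intro ω _
    rw [Finset.sum_congr rfl (fun φ hφ => by rw [(Finset.mem_filter.1 hφ).2] :
      ∀ φ ∈ S₀.filter (fun x => q x = ω), t (q φ) = t ω), Finset.sum_const, smul_eq_mul]
  have h4 : ∀ ω ∈ Q, m + t ω * t ω ≤ (m + 1) * t ω := by
    intro ω hω
    have hle : t ω ≤ m := hfib S₀ ω
    have hpos : 1 ≤ t ω := by
      obtain ⟨x, hx, rfl⟩ := Finset.mem_image.1 hω
      exact Finset.card_pos.2 ⟨x, Finset.mem_filter.2 ⟨hx, rfl⟩⟩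
    obtain ⟨k, hk⟩ := Nat.exists_eq_add_of_le hpos
    obtain ⟨j, hj⟩ := Nat.exists_eq_add_of_le hle
    rw [hj, hk]
    nlinarith [Nat.zero_le (k * j)]
  calc (SatF M S₀).card + ∑ η ∈ subF M, (S₀ ∩ S₀.image (fun φ => η * φ)).card
      ≤ ∑ ω ∈ Q, m + ∑ ω ∈ Q, t ω * t ω := Nat.add_le_add h2 h3
    _ = ∑ ω ∈ Q, (m + t ω * t ω) := Finset.sum_add_distrib.symm
    _ ≤ ∑ ω ∈ Q, (m + 1) * t ω := Finset.sum_le_sum h4
    _ = (m + 1) * S₀.card := by rw [h1, Finset.mul_sum]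

end Abstract

section Comm

variable {A : Type*} [CommGroup A] [Fintype A] [Fintype (A →* ℂˣ)]

/-- The Fourier sum of an integer-valued function on the dual group. -/
noncomputable def F (a : (A →* ℂˣ) → ℤ) (y : A) : ℂ :=
  ∑ φ : A →* ℂˣ, (a φ : ℂ) * ((φ y : ℂˣ) : ℂ)

omit [Fintype A] in
theorem F_T (η : A →* ℂˣ) (a : (A →* ℂˣ) → ℤ) (y : A) :
    F (T η a) y = ((η y : ℂˣ) : ℂ) * F a y := by
  unfold F T
  rw [Finset.mul_sum]
  refine Fintype.sum_equiv (Equiv.mulLeft η⁻¹) _ _ (fun φ => ?_)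
  simp only [Equiv.coe_mulLeft, MonoidHom.mul_apply, MonoidHom.inv_apply, Units.val_mul,
    Units.val_inv_eq_inv_val]
  have h0 : ((η y : ℂˣ) : ℂ) ≠ 0 := Units.ne_zero _
  field_simp

omit [Fintype A] in
theorem F_sub (a b : (A →* ℂˣ) → ℤ) (y : A) : F (a - b) y = F a y - F b y := by
  unfold F
  rw [← Finset.sum_sub_distrib]
  refine Finset.sum_congr rfl (fun φ _ => ?_)
  simp only [Pi.sub_apply, Int.cast_sub]
  ring

omit [Fintype (A →* ℂˣ)] in
theorem norm_char (φ : A →* ℂˣ) (y : A) : ‖((φ y : ℂˣ) : ℂ)‖ = 1 := by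
  have h : ((φ y : ℂˣ) : ℂ) ^ Fintype.card A = 1 := by
    rw [← Units.val_pow_eq_pow_val, ← map_pow, pow_card_eq_one, map_one, Units.val_one]
  exact Complex.norm_eq_one_of_pow_eq_one h Fintype.card_ne_zero

omit [Fintype (A →* ℂˣ)] in
theorem conj_char (φ : A →* ℂˣ) (y : A) :
    conj ((φ y : ℂˣ) : ℂ) = (((φ⁻¹) y : ℂˣ) : ℂ) := by
  rw [MonoidHom.inv_apply, Units.val_inv_eq_inv_val, Complex.inv_eq_conj (norm_char φ y)]

omit [Fintype (A →* ℂˣ)] in
theorem sum_char (φ : A →* ℂˣ) :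
    ∑ y : A, ((φ y : ℂˣ) : ℂ) = if φ = 1 then (Fintype.card A : ℂ) else 0 := by
  classical
  split_ifs with h
  · subst h
    simp
  · have h1 : (Units.coeHom ℂ).comp φ ≠ 1 := by
      intro e
      apply h
      ext y
      have := DFunLike.congr_fun e y
      simpa using this
    exact sum_hom_units_eq_zero ((Units.coeHom ℂ).comp φ) h1

theorem parseval (a : (A →* ℂˣ) → ℤ) :
    ∑ y : A, ‖F a y‖ ^ 2 = (Fintype.card A : ℝ) * ∑ φ : A →* ℂˣ, ((a φ : ℤ) : ℝ) ^ 2 := by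
  classical
  apply Complex.ofReal_injective
  push_cast
  have key : ∀ y, ((‖F a y‖ : ℝ) : ℂ) ^ 2 = F a y * conj (F a y) := fun y =>
    (Complex.mul_conj' _).symm
  simp_rw [key]
  have h1 : ∀ y : A, F a y * conj (F a y)
      = ∑ φ : A →* ℂˣ, ∑ ψ : A →* ℂˣ, (a φ : ℂ) * (a ψ : ℂ) * (((φ * ψ⁻¹) y : ℂˣ) : ℂ) := by
    intro y
    unfold F
    rw [map_sum, Finset.sum_mul_sum]
    refine Finset.sum_congr rfl (fun φ _ => Finset.sum_congr rfl (fun ψ _ => ?_))
    rw [map_mul, map_intCast, conj_char, MonoidHom.mul_apply, Units.val_mul]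
    ring
  simp_rw [h1]
  rw [Finset.sum_comm, Finset.mul_sum]
  refine Finset.sum_congr rfl (fun φ _ => ?_)
  rw [Finset.sum_comm]
  have h2 : ∀ ψ : A →* ℂˣ, ∑ y : A, (a φ : ℂ) * (a ψ : ℂ) * (((φ * ψ⁻¹) y : ℂˣ) : ℂ)
      = if ψ = φ then (Fintype.card A : ℂ) * (a φ : ℂ) ^ 2 else 0 := by
    intro ψ
    rw [← Finset.mul_sum, sum_char]
    by_cases h : ψ = φ
    · subst h
      rw [if_pos rfl, if_pos (mul_inv_cancel ψ)]
      ring
    · rw [if_neg h, if_neg, mul_zero]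
      intro e
      exact h (mul_inv_eq_one.1 e).symm
  simp_rw [h2]
  rw [Finset.sum_ite_eq' Finset.univ φ, if_pos (Finset.mem_univ _)]

/-- The annihilator of a subgroup in the dual group. -/
noncomputable def ann (K : Subgroup A) : Subgroup (A →* ℂˣ) :=
  haveI : NeZero (Monoid.exponent A) := ⟨Monoid.exponent_ne_zero_of_finite⟩
  OrderDual.ofDual (CommGroup.subgroupOrderIsoSubgroupMonoidHom A ℂ K)

omit [Fintype (A →* ℂˣ)] in
theorem mem_ann (K : Subgroup A) (φ : A →* ℂˣ) : φ ∈ ann K ↔ ∀ g ∈ K, φ g = 1 := by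
  have : NeZero (Monoid.exponent A) := ⟨Monoid.exponent_ne_zero_of_finite⟩
  exact CommGroup.mem_subgroupOrderIsoSubgroupMonoidHom_iff ℂ K φ

omit [Fintype (A →* ℂˣ)] in
theorem card_ann (K : Subgroup A) : Nat.card (ann K) = K.index := by
  haveI : NeZero (Monoid.exponent A) := ⟨Monoid.exponent_ne_zero_of_finite⟩
  exact CommGroup.card_subgroupOrderIsoSubgroupMonoidHom ℂ K

omit [Fintype (A →* ℂˣ)] in
theorem exists_ann_ne (K : Subgroup A) (y : A) (hy : y ∉ K) : ∃ φ ∈ ann K, φ y ≠ 1 := by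
  haveI : NeZero (Monoid.exponent A) := ⟨Monoid.exponent_ne_zero_of_finite⟩
  by_contra hcon
  push Not at hcon
  exact hy ((CommGroup.forall_monoidHom_apply_eq_one_iff ℂ K y).1
    (fun φ hφ => hcon φ ((mem_ann K φ).2 hφ)))

omit [Fintype (A →* ℂˣ)] in
theorem ann_inf (K L : Subgroup A) : ann (K ⊓ L) = ann K ⊔ ann L := by
  haveI : NeZero (Monoid.exponent A) := ⟨Monoid.exponent_ne_zero_of_finite⟩
  unfold ann
  rw [OrderIso.map_inf]
  rfl

omit [Fintype (A →* ℂˣ)] in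
theorem ann_top : ann (⊤ : Subgroup A) = ⊥ := by
  haveI : NeZero (Monoid.exponent A) := ⟨Monoid.exponent_ne_zero_of_finite⟩
  unfold ann
  rw [OrderIso.map_top]
  rfl

omit [Fintype (A →* ℂˣ)] in
theorem ann_bot : ann (⊥ : Subgroup A) = ⊤ := by
  haveI : NeZero (Monoid.exponent A) := ⟨Monoid.exponent_ne_zero_of_finite⟩
  unfold ann
  rw [OrderIso.map_bot]
  rfl

theorem card_subF_ann (K : Subgroup A) : (subF (ann K)).card = K.index := by
  classical
  rw [← card_ann K, Nat.card_eq_fintype_card, Fintype.card_subtype]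
  rfl

open Classical in
theorem sum_ann (K : Subgroup A) (y : A) :
    ∑ η ∈ subF (ann K), ((η y : ℂˣ) : ℂ) = if y ∈ K then (K.index : ℂ) else 0 := by
  classical
  split_ifs with hy
  · rw [← card_subF_ann K, Finset.card_eq_sum_ones]
    push_cast
    refine Finset.sum_congr rfl (fun η hη => ?_)
    rw [(mem_ann K η).1 ((mem_subF _ η).1 hη) y hy, Units.val_one]
  · obtain ⟨η₀, hη₀, hne⟩ := exists_ann_ne K y hy
    have h1 : ∑ η ∈ subF (ann K), ((η y : ℂˣ) : ℂ)
        = ((η₀ y : ℂˣ) : ℂ) * ∑ η ∈ subF (ann K), ((η y : ℂˣ) : ℂ) := by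
      rw [Finset.mul_sum]
      refine Finset.sum_equiv (Equiv.mulLeft η₀⁻¹) (fun η => ?_) (fun η _ => ?_)
      · rw [mem_subF, mem_subF, Equiv.coe_mulLeft]
        exact ((ann K).mul_mem_cancel_left ((ann K).inv_mem hη₀)).symm
      · simp only [Equiv.coe_mulLeft, MonoidHom.mul_apply, MonoidHom.inv_apply, Units.val_mul,
          Units.val_inv_eq_inv_val]
        have h0 : ((η₀ y : ℂˣ) : ℂ) ≠ 0 := Units.ne_zero _
        field_simp
    have h2 : ((η₀ y : ℂˣ) : ℂ) ≠ 1 := by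
      intro e
      apply hne
      exact Units.ext e
    have h3 : (1 - ((η₀ y : ℂˣ) : ℂ)) * ∑ η ∈ subF (ann K), ((η y : ℂˣ) : ℂ) = 0 := by
      rw [sub_mul, one_mul, ← h1, sub_self]
    rcases mul_eq_zero.1 h3 with h | h
    · exact absurd (sub_eq_zero.1 h).symm h2
    · exact h

omit [Fintype (A →* ℂˣ)] in
theorem norm_one_sub_sq (φ : A →* ℂˣ) (y : A) :
    ‖1 - ((φ y : ℂˣ) : ℂ)‖ ^ 2 = 2 - 2 * (((φ y : ℂˣ) : ℂ)).re := by
  have h := norm_char φ y
  have h1 : (((φ y : ℂˣ) : ℂ)).re * (((φ y : ℂˣ) : ℂ)).re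
      + (((φ y : ℂˣ) : ℂ)).im * (((φ y : ℂˣ) : ℂ)).im = 1 := by
    rw [← Complex.normSq_apply, Complex.normSq_eq_norm_sq, h]
    norm_num
  rw [← Complex.normSq_eq_norm_sq, Complex.normSq_apply]
  simp only [Complex.sub_re, Complex.one_re, Complex.sub_im, Complex.one_im]
  nlinarith

open Classical in
theorem wfac (K : Subgroup A) (y : A) :
    (if y ∈ K then (1 : ℝ) else 1 + (K.index : ℝ))
      = 1 + (1 / 2) * ∑ η ∈ subF (ann K), ‖1 - ((η y : ℂˣ) : ℂ)‖ ^ 2 := by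
  simp_rw [norm_one_sub_sq]
  rw [Finset.sum_sub_distrib, Finset.sum_const, ← Finset.mul_sum, card_subF_ann, nsmul_eq_mul]
  have h := congrArg Complex.re (sum_ann K y)
  rw [Complex.re_sum] at h
  rw [h]
  split_ifs with hy
  · simp
    ring
  · simp
    ring

/-- The weighted energy. -/
noncomputable def E (l : List (Subgroup A)) (a : (A →* ℂˣ) → ℤ) : ℝ :=
  ∑ y : A, wt l y * ‖F a y‖ ^ 2

theorem E_cons (K : Subgroup A) (l : List (Subgroup A)) (a : (A →* ℂˣ) → ℤ) :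
    E (K :: l) a = E l a + (1 / 2) * ∑ η ∈ subF (ann K), E l (a - T η a) := by
  unfold E
  have h1 : ∀ (η : A →* ℂˣ) (y : A),
      ‖F (a - T η a) y‖ ^ 2 = ‖1 - ((η y : ℂˣ) : ℂ)‖ ^ 2 * ‖F a y‖ ^ 2 := by
    intro η y
    rw [F_sub, F_T, ← mul_pow, ← norm_mul]
    congr 2
    ring
  simp_rw [h1]
  rw [Finset.sum_comm, Finset.mul_sum, ← Finset.sum_add_distrib]
  refine Finset.sum_congr rfl (fun y _ => ?_)
  have h2 : ∑ η ∈ subF (ann K), wt l y * (‖1 - ((η y : ℂˣ) : ℂ)‖ ^ 2 * ‖F a y‖ ^ 2)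
      = wt l y * ‖F a y‖ ^ 2 * ∑ η ∈ subF (ann K), ‖1 - ((η y : ℂˣ) : ℂ)‖ ^ 2 := by
    rw [Finset.mul_sum]
    refine Finset.sum_congr rfl (fun η _ => ?_)
    ring
  rw [h2, wt_cons, wfac]
  ring

/-- The dual of the intersection of the list. -/
noncomputable def NL : List (Subgroup A) → Subgroup (A →* ℂˣ)
  | [] => ⊥
  | K :: l => ann K ⊔ NL l

omit [Fintype (A →* ℂˣ)] in
theorem NL_eq (l : List (Subgroup A)) : NL l = ann (l.foldr (· ⊓ ·) ⊤) := by
  induction l with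
  | nil => exact ann_top.symm
  | cons K l ih =>
    show ann K ⊔ NL l = ann (K ⊓ l.foldr (· ⊓ ·) ⊤)
    rw [ann_inf, ih]

omit [Fintype A] [Fintype (A →* ℂˣ)] in
theorem mem_foldr_inf (l : List (Subgroup A)) (y : A) :
    y ∈ l.foldr (· ⊓ ·) ⊤ ↔ ∀ K ∈ l, y ∈ K := by
  induction l with
  | nil => simp
  | cons K l ih =>
    rw [List.foldr_cons, Subgroup.mem_inf, ih, List.forall_mem_cons]

theorem energy_ge (l : List (Subgroup A)) :
    ∀ a : (A →* ℂˣ) → ℤ, (Fintype.card A : ℝ) * ((Sat (NL l) a).card : ℝ) ≤ E l a := by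
  classical
  induction l with
  | nil =>
    intro a
    have h0 : E ([] : List (Subgroup A)) a = ∑ y : A, ‖F a y‖ ^ 2 := by
      unfold E
      refine Finset.sum_congr rfl (fun y _ => ?_)
      rw [wt_nil, one_mul]
    rw [h0, parseval]
    apply mul_le_mul_of_nonneg_left _ (Nat.cast_nonneg _)
    have h1 : ((Sat (NL ([] : List (Subgroup A))) a).card : ℝ)
        = ∑ φ ∈ Sat (NL ([] : List (Subgroup A))) a, (1 : ℝ) := by
      rw [Finset.sum_const, nsmul_eq_mul, mul_one]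
    rw [h1]
    refine le_trans (Finset.sum_le_sum (g := fun φ => ((a φ : ℤ) : ℝ) ^ 2) ?_)
      (Finset.sum_le_sum_of_subset_of_nonneg (Finset.subset_univ _) (fun φ _ _ => sq_nonneg _))
    intro φ hφ
    obtain ⟨ψ, hψ, hmem⟩ := (mem_Sat _ a φ).1 hφ
    have hmem' : φ * ψ⁻¹ = 1 := Subgroup.mem_bot.1 hmem
    have e : φ = ψ := mul_inv_eq_one.1 hmem'
    rw [e]
    have h2 : (1 : ℤ) ≤ (a ψ) ^ 2 := by
      have := Int.one_le_abs hψ
      nlinarith [abs_nonneg (a ψ), sq_abs (a ψ)]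
    exact_mod_cast h2
  | cons K l ih =>
    intro a
    rw [E_cons]
    have hlink : ∀ η : A →* ℂˣ, 2 * ((Sat (NL l) a).card : ℝ)
        ≤ ((Sat (NL l) (a - T η a)).card : ℝ) + 2 * (ovl (Sat (NL l) a) η : ℝ) := by
      intro η
      exact_mod_cast link (NL l) a η
    have hcomb : ((SatF (ann K) (Sat (NL l) a)).card : ℝ)
        + ∑ η ∈ subF (ann K), (ovl (Sat (NL l) a) η : ℝ)
        ≤ (((subF (ann K)).card : ℝ) + 1) * ((Sat (NL l) a).card : ℝ) := by
      exact_mod_cast comb (ann K) (Sat (NL l) a)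
    have hsat : Sat (NL (K :: l)) a = SatF (ann K) (Sat (NL l) a) := sat_sup (ann K) (NL l) a
    rw [hsat]
    have hcA : (0 : ℝ) ≤ (Fintype.card A : ℝ) := Nat.cast_nonneg _
    have h1 := ih a
    have h2 : ∑ η ∈ subF (ann K), (Fintype.card A : ℝ) * (2 * ((Sat (NL l) a).card : ℝ)
          - 2 * (ovl (Sat (NL l) a) η : ℝ))
        ≤ ∑ η ∈ subF (ann K), E l (a - T η a) := by
      apply Finset.sum_le_sum
      intro η _
      refine le_trans (mul_le_mul_of_nonneg_left ?_ hcA) (ih (a - T η a))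
      linarith [hlink η]
    have h3 : ∑ η ∈ subF (ann K), (Fintype.card A : ℝ) * (2 * ((Sat (NL l) a).card : ℝ)
          - 2 * (ovl (Sat (NL l) a) η : ℝ))
        = 2 * (Fintype.card A : ℝ) * (((subF (ann K)).card : ℝ) * ((Sat (NL l) a).card : ℝ)
          - ∑ η ∈ subF (ann K), (ovl (Sat (NL l) a) η : ℝ)) := by
      rw [← Finset.mul_sum, Finset.sum_sub_distrib, Finset.sum_const, ← Finset.mul_sum,
        nsmul_eq_mul]
      ring
    rw [h3] at h2
    have h4 := mul_le_mul_of_nonneg_left hcomb hcA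
    nlinarith

/-- The lattice inequality for integer-valued functions on the dual group. -/
theorem main (l : List (Subgroup A)) (hl : ∀ y : A, (∀ K ∈ l, y ∈ K) → y = 1)
    (a : (A →* ℂˣ) → ℤ) (ha : ∃ φ, a φ ≠ 0) : (Fintype.card A : ℝ) ^ 2 ≤ E l a := by
  classical
  have h1 := energy_ge l a
  have hbot : l.foldr (· ⊓ ·) ⊤ = (⊥ : Subgroup A) := by
    rw [eq_bot_iff]
    intro y hy
    exact Subgroup.mem_bot.2 (hl y ((mem_foldr_inf l y).1 hy))
  rw [NL_eq, hbot, ann_bot] at h1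
  obtain ⟨ψ, hψ⟩ := ha
  have h2 : Sat (⊤ : Subgroup (A →* ℂˣ)) a = Finset.univ := by
    ext φ
    rw [mem_Sat]
    exact ⟨fun _ => Finset.mem_univ _, fun _ => ⟨ψ, hψ, Subgroup.mem_top _⟩⟩
  have h3 : Fintype.card (A →* ℂˣ) = Fintype.card A := by
    haveI : NeZero (Monoid.exponent A) := ⟨Monoid.exponent_ne_zero_of_finite⟩
    rw [← Nat.card_eq_fintype_card, ← Nat.card_eq_fintype_card]
    exact CommGroup.card_monoidHom_of_hasEnoughRootsOfUnity A ℂ
  rw [h2, Finset.card_univ, h3] at h1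
  rw [sq]
  exact h1

end Comm

section Final

/-- The lattice inequality for integer combinations of linear characters (commutative group
instance). -/
theorem main_comm {A : Type*} [CommGroup A] [Fintype A]
    (l : List (Subgroup A)) (hl : ∀ y : A, (∀ K ∈ l, y ∈ K) → y = 1)
    {ι : Type*} [Fintype ι] (μ : ι → (A →* ℂˣ)) (c : ι → ℤ) :
    (∀ y : A, ∑ i, (c i : ℂ) * ((μ i y : ℂˣ) : ℂ) = 0) ∨
      (Fintype.card A : ℝ) ^ 2
        ≤ ∑ y : A, wt l y * ‖∑ i, (c i : ℂ) * ((μ i y : ℂˣ) : ℂ)‖ ^ 2 := by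
  classical
  haveI : Fintype (A →* ℂˣ) := Fintype.ofFinite _
  let a : (A →* ℂˣ) → ℤ := fun φ => ∑ i ∈ Finset.univ.filter (fun i => μ i = φ), c i
  have hF : ∀ y : A, F a y = ∑ i, (c i : ℂ) * ((μ i y : ℂˣ) : ℂ) := by
    intro y
    unfold F
    rw [← Finset.sum_fiberwise_of_maps_to (s := Finset.univ) (t := Finset.univ) (g := μ)
      (fun i _ => Finset.mem_univ _)]
    refine Finset.sum_congr rfl (fun φ _ => ?_)
    simp only [a]
    push_cast
    rw [Finset.sum_mul]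
    refine Finset.sum_congr rfl (fun i hi => ?_)
    rw [(Finset.mem_filter.1 hi).2]
  by_cases ha : ∃ φ, a φ ≠ 0
  · right
    have h := main l hl a ha
    unfold E at h
    simp_rw [hF] at h
    exact h
  · left
    push Not at ha
    intro y
    rw [← hF]
    unfold F
    simp [ha]

/-- **Lattice inequality.**  Let `A` be a finite commutative group and `l` a list of subgroups
of `A` with trivial intersection.  An integer combination of linear characters of `A` either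
vanishes identically or has weighted square norm at least `|A| ^ 2`. -/
theorem main' {A : Type*} [Group A] [Fintype A] (hcomm : ∀ a b : A, a * b = b * a)
    (l : List (Subgroup A)) (hl : ∀ y : A, (∀ K ∈ l, y ∈ K) → y = 1)
    {ι : Type*} [Fintype ι] (μ : ι → (A →* ℂˣ)) (c : ι → ℤ) :
    (∀ y : A, ∑ i, (c i : ℂ) * ((μ i y : ℂˣ) : ℂ) = 0) ∨
      (Fintype.card A : ℝ) ^ 2
        ≤ ∑ y : A, wt l y * ‖∑ i, (c i : ℂ) * ((μ i y : ℂˣ) : ℂ)‖ ^ 2 := by
  letI instC : CommGroup A := { (inferInstance : Group A) with mul_comm := hcomm }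
  exact main_comm l hl μ c

end Final

end Cfsg.Agent.Lib.Helper78.KnorrLattice
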