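import Mathlib
import Cfsg.Prelude.Def_Characters
import Cfsg.Prelude.Def_Blocks
import Cfsg.Agent.Lib.CT.NormOne
import Cfsg.Agent.Lib.CT.FrobRec
import Cfsg.Agent.Lib.CT.Ops
import Cfsg.Agent.Lib.CT.Wedderburn
import Cfsg.Agent.Lib.Helper78.HallBig
import Cfsg.Agent.S0176

/-!
The explicit Jordan-type bound for finite linear groups
(namespace `Cfsg.Agent.Lib.Helper78.LinBound`).

* `nilpotent_abelian_index`: a finite nilpotent group with a faithful character of degree `n` has
  an abelian subgroup of index dividing `n!`.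
* `index_bound`: if the normal subgroup `A` of the linear group `G` of degree `n` satisfies
  `|H : H ∩ A| ≤ 12 ^ n` for all abelian subgroups `H`, then `|G : A| ≤ n! * 12 ^ (n (π(n+1)+1))`.
-/

set_option autoImplicit false

namespace Cfsg.Agent.Lib.Helper78.LinBound

open Cfsg Cfsg.Agent.Lib.CT

universe u

section Mono

variable {P : Type u} [Group P] [Fintype P]

/-- A character induced from a linear character is trivial on commutators of elements all of
whose conjugates lie in the inducing subgroup. -/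
theorem indFun_comm (H : Subgroup P) (lam : H →* ℂˣ) (b₁ b₂ : P)
    (h₁ : ∀ x : P, x⁻¹ * b₁ * x ∈ H) (h₂ : ∀ x : P, x⁻¹ * b₂ * x ∈ H) :
    indFun H (fun h => ((lam h : ℂˣ) : ℂ)) (b₁ * b₂ * b₁⁻¹ * b₂⁻¹) =
      indFun H (fun h => ((lam h : ℂˣ) : ℂ)) 1 := by
  unfold indFun
  congr 1
  apply Finset.sum_congr rfl
  intro x _
  have e1 : x⁻¹ * (b₁ * b₂ * b₁⁻¹ * b₂⁻¹) * x =
      (x⁻¹ * b₁ * x) * (x⁻¹ * b₂ * x) * (x⁻¹ * b₁ * x)⁻¹ * (x⁻¹ * b₂ * x)⁻¹ := by group
  have e2 : x⁻¹ * 1 * x = 1 := by group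
  rw [e1, e2]
  have hm : (x⁻¹ * b₁ * x) * (x⁻¹ * b₂ * x) * (x⁻¹ * b₁ * x)⁻¹ * (x⁻¹ * b₂ * x)⁻¹ ∈ H :=
    H.mul_mem (H.mul_mem (H.mul_mem (h₁ x) (h₂ x)) (H.inv_mem (h₁ x))) (H.inv_mem (h₂ x))
  rw [FrobRec.extendByZero_apply_of_mem H _ hm, FrobRec.extendByZero_apply_of_mem H _ H.one_mem]
  have e3 : (⟨_, hm⟩ : H) = ⟨_, h₁ x⟩ * ⟨_, h₂ x⟩ * (⟨_, h₁ x⟩ : H)⁻¹ * (⟨_, h₂ x⟩ : H)⁻¹ := rfl
  have e4 : (⟨1, H.one_mem⟩ : H) = 1 := rfl
  rw [e3, e4, map_mul, map_mul, map_mul, map_inv, map_inv, map_one]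
  have e5 : lam ⟨_, h₁ x⟩ * lam ⟨_, h₂ x⟩ * (lam ⟨_, h₁ x⟩)⁻¹ * (lam ⟨_, h₂ x⟩)⁻¹ = 1 := by
    rw [mul_comm (lam ⟨_, h₁ x⟩) (lam ⟨_, h₂ x⟩), mul_inv_cancel_right, mul_inv_cancel]
  rw [e5]

/-- The degree of a character induced from a linear character is the index. -/
theorem indFun_one (H : Subgroup P) (lam : H →* ℂˣ) :
    indFun H (fun h => ((lam h : ℂˣ) : ℂ)) 1 = (H.index : ℂ) := by
  unfold indFun
  have e : ∀ x : P, extendByZero H (fun h => ((lam h : ℂˣ) : ℂ)) (x⁻¹ * 1 * x) = 1 := by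
    intro x
    have e2 : x⁻¹ * 1 * x = ((1 : H) : P) := by simp
    rw [e2, FrobRec.extendByZero_apply_coe H _ 1, map_one]
    rfl
  rw [Finset.sum_congr rfl (fun x _ => e x), Finset.sum_const, Finset.card_univ, nsmul_eq_mul,
    mul_one, ← Nat.card_eq_fintype_card, ← H.card_mul_index]
  push_cast
  have h0 : (Nat.card H : ℂ) ≠ 0 := Nat.cast_ne_zero.2 Nat.card_pos.ne'
  field_simp

end Mono

/-- A finite nilpotent group with a faithful character of degree `n` has an abelian subgroup of
index dividing `n!` (the kernel of the permutation action attached to a monomial form). -/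
theorem nilpotent_abelian_index {P : Type u} [Group P] [Finite P] [Group.IsNilpotent P]
    {θ : P → ℂ} (hθ : IsCharacter P θ) (hfaith : ∀ g, θ g = θ 1 → g = 1) {n : ℕ}
    (hn : θ 1 = (n : ℂ)) :
    ∃ B : Subgroup P, (∀ x ∈ B, ∀ y ∈ B, x * y = y * x) ∧ B.index ∣ n.factorial := by
  classical
  let _ : Fintype P := Fintype.ofFinite P
  have := Wedderburn.finite_irrCharacter P
  let _ : Fintype (IrrCharacter P) := Fintype.ofFinite _
  obtain ⟨m, hm, hexp⟩ := NormOne.exists_mult_sum hθ
  have hθe : ∀ g, θ g = ∑ ψ : IrrCharacter P, (m ψ : ℂ) * (ψ : P → ℂ) g := by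
    intro g
    conv_lhs => rw [hexp]
    simp [Finset.sum_apply]
  have hmono : ∀ ψ : IrrCharacter P, ∃ (H : Subgroup P) (lam : H →* ℂˣ),
      (ψ : P → ℂ) = indFun H (fun h => ((lam h : ℂˣ) : ℂ)) :=
    fun ψ => Cfsg.Agent.S0176.result ψ.1 ψ.2
  choose Hs lam hlam using hmono
  refine ⟨(MulAction.toPermHom P
    (Σ i : {ψ : IrrCharacter P // m ψ ≠ 0}, P ⧸ Hs i.1)).ker, ?_, ?_⟩
  · intro b₁ hb₁ b₂ hb₂
    have key : ∀ b ∈ (MulAction.toPermHom P
        (Σ i : {ψ : IrrCharacter P // m ψ ≠ 0}, P ⧸ Hs i.1)).ker,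
        ∀ ψ : IrrCharacter P, m ψ ≠ 0 → ∀ x : P, x⁻¹ * b * x ∈ Hs ψ := by
      intro b hb ψ hψ x
      have h1 : MulAction.toPermHom P
        (Σ i : {ψ : IrrCharacter P // m ψ ≠ 0}, P ⧸ Hs i.1) b = 1 := hb
      have h3 : b • (⟨⟨ψ, hψ⟩, (x : P ⧸ Hs ψ)⟩ :
          Σ i : {ψ : IrrCharacter P // m ψ ≠ 0}, P ⧸ Hs i.1) = ⟨⟨ψ, hψ⟩, (x : P ⧸ Hs ψ)⟩ := by
        have h2 := congrArg (fun σ => σ (⟨⟨ψ, hψ⟩, (x : P ⧸ Hs ψ)⟩ :
          Σ i : {ψ : IrrCharacter P // m ψ ≠ 0}, P ⧸ Hs i.1)) h1
        exact h2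
      rw [Sigma.smul_mk] at h3
      have h4 : b • (x : P ⧸ Hs ψ) = (x : P ⧸ Hs ψ) := eq_of_heq (Sigma.mk.inj h3).2
      rw [MulAction.Quotient.smul_mk, QuotientGroup.eq] at h4
      have h5 := (Hs ψ).inv_mem h4
      have e : ((b • x)⁻¹ * x)⁻¹ = x⁻¹ * b * x := by
        rw [smul_eq_mul]
        group
      rwa [e] at h5
    have hc : θ (b₁ * b₂ * b₁⁻¹ * b₂⁻¹) = θ 1 := by
      rw [hθe, hθe 1]
      apply Finset.sum_congr rfl
      intro ψ _
      by_cases hmψ : m ψ = 0
      · simp [hmψ]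
      · have h6 := indFun_comm (Hs ψ) (lam ψ) b₁ b₂ (key b₁ hb₁ ψ hmψ) (key b₂ hb₂ ψ hmψ)
        rw [← hlam ψ] at h6
        rw [h6]
    have h1 := hfaith _ hc
    have h2 : b₁ * b₂ = (b₁ * b₂ * b₁⁻¹ * b₂⁻¹) * (b₂ * b₁) := by group
    rw [h2, h1, one_mul]
  · rw [Subgroup.index_ker]
    have h1 : Nat.card (MulAction.toPermHom P
        (Σ i : {ψ : IrrCharacter P // m ψ ≠ 0}, P ⧸ Hs i.1)).range ∣
        Nat.card (Equiv.Perm (Σ i : {ψ : IrrCharacter P // m ψ ≠ 0}, P ⧸ Hs i.1)) :=
      Subgroup.card_subgroup_dvd_card _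
    rw [Nat.card_perm] at h1
    apply h1.trans
    apply Nat.factorial_dvd_factorial
    rw [Nat.card_sigma]
    have hdeg : ∀ ψ : IrrCharacter P, (ψ : P → ℂ) 1 = ((Hs ψ).index : ℂ) :=
      fun ψ => (congrFun (hlam ψ) 1).trans (indFun_one _ _)
    have hn' : n = ∑ ψ : IrrCharacter P, m ψ * (Hs ψ).index := by
      have h1 := hθe 1
      rw [hn] at h1
      have h2 : (n : ℂ) = ((∑ ψ : IrrCharacter P, m ψ * (Hs ψ).index : ℕ) : ℂ) := by
        rw [h1]
        push_cast
        exact Finset.sum_congr rfl (fun ψ _ => by rw [hdeg ψ])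
      exact_mod_cast h2
    rw [hn']
    calc ∑ i : {ψ : IrrCharacter P // m ψ ≠ 0}, Nat.card (P ⧸ Hs i.1)
        = ∑ i : {ψ : IrrCharacter P // m ψ ≠ 0}, (Hs i.1).index := rfl
      _ = ∑ ψ ∈ Finset.univ.filter (fun ψ : IrrCharacter P => m ψ ≠ 0), (Hs ψ).index :=
          (Finset.sum_subtype (Finset.univ.filter (fun ψ : IrrCharacter P => m ψ ≠ 0))
            (fun ψ => by simp) (fun ψ => (Hs ψ).index)).symm
      _ ≤ ∑ ψ ∈ Finset.univ.filter (fun ψ : IrrCharacter P => m ψ ≠ 0),
            m ψ * (Hs ψ).index :=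
          Finset.sum_le_sum (fun ψ hψ =>
            Nat.le_mul_of_pos_left _ (Nat.pos_of_ne_zero (Finset.mem_filter.1 hψ).2))
      _ ≤ ∑ ψ, m ψ * (Hs ψ).index :=
          Finset.sum_le_sum_of_subset (Finset.filter_subset _ _)

/-- `p`-parts of the index of a normal subgroup can be computed inside a subgroup of index prime
to `p`. -/
theorem factorization_index_eq {G : Type*} [Group G] [Finite G] (A : Subgroup G) [A.Normal]
    (K : Subgroup G) {p : ℕ} (hK : ¬ p ∣ K.index) :
    (A.index).factorization p = (A.relIndex K).factorization p := by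
  have h1 : A.relIndex (K ⊔ A) * (K ⊔ A).index = A.index :=
    Subgroup.relIndex_mul_index le_sup_right
  rw [Subgroup.relIndex_sup_right] at h1
  have h2 : ¬ p ∣ (K ⊔ A).index := fun h => hK (h.trans (Subgroup.index_dvd_of_le le_sup_left))
  have h3 : A.relIndex K ≠ 0 := (A.subgroupOf K).index_ne_zero_of_finite
  rw [← h1, Nat.factorization_mul h3
    (K ⊔ A).index_ne_zero_of_finite, Finsupp.add_apply,
    Nat.factorization_eq_zero_of_not_dvd h2, add_zero]

/-- A partial product of prime-power parts of `N` is at most `N`. -/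
theorem prod_pow_factorization_le (N : ℕ) (hN : N ≠ 0) (S : Finset ℕ) :
    ∏ p ∈ S, p ^ N.factorization p ≤ N := by
  classical
  have h1 : ∏ p ∈ S, p ^ N.factorization p =
      ∏ p ∈ S.filter (· ∈ N.primeFactors), p ^ N.factorization p := by
    rw [Finset.prod_filter]
    apply Finset.prod_congr rfl
    intro p _
    split_ifs with h
    · rfl
    · have h0 : N.factorization p = 0 := by
        rw [← Finsupp.notMem_support_iff, Nat.support_factorization]
        exact h
      rw [h0, pow_zero]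
  rw [h1]
  calc ∏ p ∈ S.filter (· ∈ N.primeFactors), p ^ N.factorization p
      ≤ ∏ p ∈ N.primeFactors, p ^ N.factorization p := by
        apply Finset.prod_le_prod_of_subset_of_one_le'
        · intro p hp
          exact (Finset.mem_filter.1 hp).2
        · intro p hp _
          exact Nat.one_le_pow _ _ (Nat.pos_of_mem_primeFactors hp)
    _ = N := by
        rw [← Nat.prod_factorization_eq_prod_primeFactors (fun p k => p ^ k)]
        exact Nat.prod_factorization_pow_eq_self hN

/-- **The explicit bound.** -/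
theorem index_bound {G : Type u} [Group G] [Finite G] {χ : G → ℂ} (hχ : IsCharacter G χ)
    (hfaith : ∀ g, χ g = χ 1 → g = 1) {n : ℕ} (hn : χ 1 = (n : ℂ))
    (A : Subgroup G) [hAn : A.Normal]
    (hA : ∀ H : Subgroup G, (∀ x ∈ H, ∀ y ∈ H, x * y = y * x) →
      (A.subgroupOf H).index ≤ 12 ^ n) :
    A.index ≤ n.factorial * 12 ^ (n * (Nat.primeCounting (n + 1) + 1)) := by
  classical
  obtain ⟨Hπ, hHab, hHcard, hHidx⟩ := HallBig.exists_abelian_hall hχ hfaith hn
  have hA0 : A.index ≠ 0 := A.index_ne_zero_of_finite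
  have hsmall : ∀ p : ℕ, p.Prime →
      p ^ (A.index).factorization p ≤ p ^ (n.factorial).factorization p * 12 ^ n := by
    intro p hp
    have := Fact.mk hp
    obtain ⟨P⟩ := (inferInstance : Nonempty (Sylow p G))
    have hnil : Group.IsNilpotent (P : Subgroup G) := P.isPGroup'.isNilpotent
    obtain ⟨B', hB'ab, hB'idx⟩ := nilpotent_abelian_index
      (Ops.isCharacter_restrict (P : Subgroup G) hχ)
      (fun c hc => Subtype.ext (hfaith c (by simpa using hc))) (n := n) (by simpa using hn)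
    have hBab : ∀ x ∈ B'.map (P : Subgroup G).subtype,
        ∀ y ∈ B'.map (P : Subgroup G).subtype, x * y = y * x := by
      rintro x ⟨a, ha, rfl⟩ y ⟨b, hb, rfl⟩
      exact congrArg Subtype.val (hB'ab a ha b hb)
    have hBP : B'.map (P : Subgroup G).subtype ≤ P := Subgroup.map_subtype_le B'
    have h1 : (A.index).factorization p = (A.relIndex P).factorization p :=
      factorization_index_eq A P P.not_dvd_index
    have h2 : p ^ (A.index).factorization p ∣ A.relIndex P := by
      rw [h1]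
      exact Nat.ordProj_dvd _ _
    have h3 : A.relIndex P ∣ (A ⊓ B'.map (P : Subgroup G).subtype).relIndex P :=
      Subgroup.relIndex_dvd_of_le_left _ inf_le_left
    have h4 := Subgroup.relIndex_mul_relIndex (A ⊓ B'.map (P : Subgroup G).subtype)
      (B'.map (P : Subgroup G).subtype) P inf_le_right hBP
    rw [Subgroup.inf_relIndex_right] at h4
    have h5 : (B'.map (P : Subgroup G).subtype).relIndex P = B'.index := by
      unfold Subgroup.relIndex Subgroup.subgroupOf
      rw [Subgroup.comap_map_eq_self_of_injective (Subgroup.subtype_injective _)]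
    have h6 : A.relIndex (B'.map (P : Subgroup G).subtype) ≤ 12 ^ n := hA _ hBab
    have h7 : B'.index ∣ p ^ (n.factorial).factorization p := by
      have h8 : B'.index ∣ Nat.card (P : Subgroup G) := B'.index_dvd_card
      rw [P.card_eq_multiplicity] at h8
      obtain ⟨j, -, hj⟩ := (Nat.dvd_prime_pow hp).1 h8
      rw [hj] at hB'idx ⊢
      exact pow_dvd_pow p
        ((Nat.Prime.pow_dvd_iff_le_factorization hp (Nat.factorial_ne_zero n)).1 hB'idx)
    have h9 : p ^ (A.index).factorization p ∣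
        A.relIndex (B'.map (P : Subgroup G).subtype) * B'.index := by
      rw [← h5, h4]
      exact h2.trans h3
    have hpos : 0 < A.relIndex (B'.map (P : Subgroup G).subtype) * B'.index :=
      Nat.mul_pos (Nat.pos_of_ne_zero (A.subgroupOf _).index_ne_zero_of_finite)
        (Nat.pos_of_ne_zero B'.index_ne_zero_of_finite)
    calc p ^ (A.index).factorization p
        ≤ A.relIndex (B'.map (P : Subgroup G).subtype) * B'.index := Nat.le_of_dvd hpos h9
      _ ≤ 12 ^ n * p ^ (n.factorial).factorization p :=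
          Nat.mul_le_mul h6 (Nat.le_of_dvd (pow_pos hp.pos _) h7)
      _ = _ := mul_comm _ _
  have hlarge : ∀ p : ℕ, p.Prime → n + 1 < p →
      (A.index).factorization p = (A.relIndex Hπ).factorization p := by
    intro p hp hlt
    exact factorization_index_eq A Hπ (fun h => by have := hHidx p hp h; omega)
  have hprod : A.index = ∏ p ∈ A.index.primeFactors, p ^ (A.index).factorization p := by
    rw [← Nat.prod_factorization_eq_prod_primeFactors (fun p k => p ^ k)]
    exact (Nat.prod_factorization_pow_eq_self hA0).symm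
  have hcard : (A.index.primeFactors.filter (fun p => p ≤ n + 1)).card ≤
      Nat.primeCounting (n + 1) := by
    have e : Nat.primeCounting (n + 1) = ((Finset.range (n + 2)).filter Nat.Prime).card := by
      unfold Nat.primeCounting Nat.primeCounting'
      rw [Nat.count_eq_card_filter_range]
    rw [e]
    apply Finset.card_le_card
    intro p hp
    rw [Finset.mem_filter] at hp ⊢
    exact ⟨Finset.mem_range.2 (by omega), Nat.prime_of_mem_primeFactors hp.1⟩
  have hfirst : ∏ p ∈ A.index.primeFactors.filter (fun p => p ≤ n + 1),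
      p ^ (A.index).factorization p ≤ n.factorial * 12 ^ (n * Nat.primeCounting (n + 1)) := by
    calc ∏ p ∈ A.index.primeFactors.filter (fun p => p ≤ n + 1), p ^ (A.index).factorization p
        ≤ ∏ p ∈ A.index.primeFactors.filter (fun p => p ≤ n + 1),
            (p ^ (n.factorial).factorization p * 12 ^ n) :=
          Finset.prod_le_prod (fun p _ => Nat.zero_le _) (fun p hp =>
            hsmall p (Nat.prime_of_mem_primeFactors (Finset.mem_filter.1 hp).1))
      _ = (∏ p ∈ A.index.primeFactors.filter (fun p => p ≤ n + 1),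
            p ^ (n.factorial).factorization p) *
            (12 ^ n) ^ (A.index.primeFactors.filter (fun p => p ≤ n + 1)).card := by
          rw [Finset.prod_mul_distrib, Finset.prod_const]
      _ ≤ n.factorial * (12 ^ n) ^ Nat.primeCounting (n + 1) :=
          Nat.mul_le_mul (prod_pow_factorization_le _ (Nat.factorial_ne_zero n) _)
            (Nat.pow_le_pow_right (by positivity) hcard)
      _ = _ := by rw [← pow_mul]
  have hsecond : ∏ p ∈ A.index.primeFactors.filter (fun p => ¬ p ≤ n + 1),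
      p ^ (A.index).factorization p ≤ 12 ^ n := by
    calc ∏ p ∈ A.index.primeFactors.filter (fun p => ¬ p ≤ n + 1),
          p ^ (A.index).factorization p
        = ∏ p ∈ A.index.primeFactors.filter (fun p => ¬ p ≤ n + 1),
            p ^ (A.relIndex Hπ).factorization p := by
          apply Finset.prod_congr rfl
          intro p hp
          rw [Finset.mem_filter] at hp
          rw [hlarge p (Nat.prime_of_mem_primeFactors hp.1) (by omega)]
      _ ≤ A.relIndex Hπ :=
          prod_pow_factorization_le _ (A.subgroupOf Hπ).index_ne_zero_of_finite _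
      _ ≤ 12 ^ n := hA Hπ hHab
  rw [hprod, ← Finset.prod_filter_mul_prod_filter_not _ (fun p => p ≤ n + 1)]
  calc _ ≤ (n.factorial * 12 ^ (n * Nat.primeCounting (n + 1))) * 12 ^ n :=
        Nat.mul_le_mul hfirst hsecond
    _ = _ := by
        rw [mul_assoc, ← pow_add]
        congr 2

end Cfsg.Agent.Lib.Helper78.LinBound
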