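import Mathlib

/-!
# S0998: elementary number theory (Mersenne/Fermat-type coincidences modulo 3)
-/

set_option autoImplicit false

namespace Cfsg.Agent.Lib.Helper78.PRQArith

theorem two_pow_mod_three (i : ℕ) : 2 ^ i % 3 = if Even i then 1 else 2 := by
  induction i with
  | zero => simp
  | succ n ih =>
    rw [pow_succ, Nat.mul_mod, ih]
    by_cases hn : Even n
    · have : ¬ Even (n + 1) := by
        rw [Nat.even_add_one]; exact not_not.mpr hn
      simp [hn, this]
    · have : Even (n + 1) := by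
        rw [Nat.even_add_one]; exact hn
      simp [hn, this]

theorem eq_three_of_dvd {n : ℕ} (hn : n.Prime) (h : n % 3 = 0) : n = 3 :=
  ((Nat.prime_dvd_prime_iff_eq Nat.prime_three hn).mp (Nat.dvd_of_mod_eq_zero h)).symm

theorem two_pow_eq_two {i : ℕ} (h : 2 ^ i = 2) : i = 1 :=
  Nat.pow_right_injective (le_refl 2) (by simpa using h)

theorem two_pow_eq_four {i : ℕ} (h : 2 ^ i = 4) : i = 2 :=
  Nat.pow_right_injective (le_refl 2) (by simpa using h)

/-- `r = 2 ^ i - 1` and `r + 2 = 2 ^ i + 1` both prime forces `r = 3`. -/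
theorem za {r i : ℕ} (hr : r.Prime) (hp : (r + 2).Prime) (h : r + 1 = 2 ^ i) : r = 3 := by
  have h3 := two_pow_mod_three i
  have hr2 := hr.two_le
  by_cases hi : Even i
  · rw [if_pos hi] at h3
    exact eq_three_of_dvd hr (by omega)
  · rw [if_neg hi] at h3
    have := eq_three_of_dvd hp (by omega)
    omega

/-- `2 ^ k + 1` and `2 ^ (k + 1) + 1` are not both prime for `k ≥ 2`. -/
theorem zb {k : ℕ} (hr : (2 ^ k + 1).Prime) (hp : (2 ^ (k + 1) + 1).Prime) (hk : 2 ≤ k) :
    False := by
  have h3 := two_pow_mod_three k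
  have h3' := two_pow_mod_three (k + 1)
  by_cases hi : Even k
  · have hi' : ¬ Even (k + 1) := by rw [Nat.even_add_one]; exact not_not.mpr hi
    rw [if_neg hi'] at h3'
    have h1 := eq_three_of_dvd hp (by omega)
    have h2 : 2 ^ (k + 1) = 2 := by omega
    have := two_pow_eq_two h2
    omega
  · rw [if_neg hi] at h3
    have h1 := eq_three_of_dvd hr (by omega)
    have h2 : 2 ^ k = 2 := by omega
    have := two_pow_eq_two h2
    omega

/-- `r = 2 ^ m - 1` and `2 * r + 1 = 2 ^ (m + 1) - 1` both prime forces `r = 3`. -/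
theorem zc {r m : ℕ} (hr : r.Prime) (hp : (2 * r + 1).Prime) (h : r + 1 = 2 ^ m) : r = 3 := by
  have h3 := two_pow_mod_three m
  have hr2 := hr.two_le
  by_cases hi : Even m
  · rw [if_pos hi] at h3
    exact eq_three_of_dvd hr (by omega)
  · rw [if_neg hi] at h3
    have := eq_three_of_dvd hp (by omega)
    omega

end Cfsg.Agent.Lib.Helper78.PRQArith
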