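import Mathlib
import Cfsg.Prelude.Def_KGroupFacts
import Cfsg.Agent.Lib.Helper66.Hopf2

set_option autoImplicit false

/-!
# Projective representations and Schur multipliers (helper78)

* `exists_hom_extension`: a homomorphism to `ℂˣ` defined on a subgroup meeting the commutator
  subgroup trivially extends to the whole group (divisibility of `ℂˣ`).
* `pull β`: the pullback of `GL n ℂ → PGL n ℂ` along a projective representation `β`.
* `exists_lift_of_inf_eq_bot`: `β` lifts to a linear representation as soon as the kernel of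
  the pullback meets its commutator subgroup trivially.
* `ker_inf_commutator_eq_bot_of_cover`: this holds for `β = γ ∘ σ`, `σ` a Schur cover.
-/

namespace Cfsg.Agent.Lib.Helper78.ProjSchur

open Matrix

section Divisible

theorem exists_zpow_eq (w : ℂˣ) {n : ℤ} (hn : n ≠ 0) : ∃ z : ℂˣ, z ^ n = w := by
  have hk : 0 < n.natAbs := Int.natAbs_pos.mpr hn
  obtain ⟨z, hz⟩ := IsAlgClosed.exists_pow_nat_eq (w : ℂ) hk
  have hz0 : z ≠ 0 := by
    rintro rfl
    rw [zero_pow hk.ne'] at hz
    exact w.ne_zero hz.symm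
  have hu : (Units.mk0 z hz0) ^ n.natAbs = w := by
    apply Units.ext
    rw [Units.val_pow_eq_pow_val, Units.val_mk0, hz]
  rcases Int.natAbs_eq n with h | h
  · refine ⟨Units.mk0 z hz0, ?_⟩
    rw [h, zpow_natCast, hu]
  · refine ⟨(Units.mk0 z hz0)⁻¹, ?_⟩
    rw [h, _root_.zpow_neg, zpow_natCast, inv_pow, inv_inv, hu]

/-- `ℂˣ` is a divisible group. -/
theorem divisibleUnits : Nonempty (DivisibleBy (Additive ℂˣ) ℤ) :=
  ⟨divisibleByOfSMulRightSurj _ _ (fun {n} hn w => by
    obtain ⟨z, hz⟩ := exists_zpow_eq (Additive.toMul w) hn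
    exact ⟨Additive.ofMul z, by
      show Additive.ofMul (z ^ n) = w
      rw [hz]; rfl⟩)⟩

/-- A homomorphism to `ℂˣ` on a subgroup of a commutative group extends. -/
theorem exists_hom_extension_comm {B : Type*} [CommGroup B] (C : Subgroup B) (c : C →* ℂˣ) :
    ∃ μ : B →* ℂˣ, ∀ x : C, μ x = c x := by
  obtain ⟨hdiv⟩ := divisibleUnits
  obtain ⟨h, hh⟩ := (Module.Baer.of_divisible (Additive ℂˣ)).extension_property_addMonoidHom
    (MonoidHom.toAdditive C.subtype)
    (fun x y hxy => Subtype.ext hxy) (MonoidHom.toAdditive c)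
  refine ⟨MonoidHom.toAdditive.symm h, ?_⟩
  intro x
  exact DFunLike.congr_fun hh (Additive.ofMul x)

/-- A homomorphism to `ℂˣ` defined on a subgroup meeting the commutator subgroup trivially
extends to the whole group. -/
theorem exists_hom_extension {Y : Type*} [Group Y] (C : Subgroup Y)
    (hC : C ⊓ commutator Y = ⊥) (c : C →* ℂˣ) : ∃ μ : Y →* ℂˣ, ∀ x : C, μ x = c x := by
  let i : C →* Abelianization Y := Abelianization.of.comp C.subtype
  have hi : Function.Injective i := by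
    rw [injective_iff_map_eq_one]
    intro x hx
    have h1 : (x : Y) ∈ (Abelianization.of : Y →* Abelianization Y).ker := hx
    rw [Abelianization.ker_of] at h1
    have h2 : (x : Y) ∈ C ⊓ commutator Y := ⟨x.2, h1⟩
    rw [hC, Subgroup.mem_bot] at h2
    exact Subtype.ext h2
  let e : C ≃* i.range := MonoidHom.ofInjective hi
  obtain ⟨μ, hμ⟩ := exists_hom_extension_comm i.range (c.comp e.symm.toMonoidHom)
  refine ⟨μ.comp Abelianization.of, ?_⟩
  intro x
  have h1 := hμ (e x)
  simp only [MonoidHom.coe_comp, MulEquiv.coe_toMonoidHom, Function.comp_apply,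
    MulEquiv.symm_apply_apply] at h1
  rw [← h1]
  rfl

end Divisible

section Pull

variable {Γ : Type*} [Group Γ] {n : ℕ}

/-- The pullback of `GL n ℂ → PGL n ℂ` along a projective representation `β` of `Γ`. -/
def pull (β : Γ →* GL (Fin n) ℂ ⧸ Subgroup.center (GL (Fin n) ℂ)) :
    Subgroup (Γ × GL (Fin n) ℂ) :=
  MonoidHom.eqLocus (β.comp (MonoidHom.fst Γ (GL (Fin n) ℂ)))
    ((QuotientGroup.mk' (Subgroup.center (GL (Fin n) ℂ))).comp (MonoidHom.snd Γ (GL (Fin n) ℂ)))

theorem mem_pull (β : Γ →* GL (Fin n) ℂ ⧸ Subgroup.center (GL (Fin n) ℂ))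
    (y : Γ × GL (Fin n) ℂ) :
    y ∈ pull β ↔ β y.1 = QuotientGroup.mk' (Subgroup.center (GL (Fin n) ℂ)) y.2 := Iff.rfl

/-- First projection of the pullback. -/
def pfst (β : Γ →* GL (Fin n) ℂ ⧸ Subgroup.center (GL (Fin n) ℂ)) : pull β →* Γ :=
  (MonoidHom.fst Γ (GL (Fin n) ℂ)).comp (pull β).subtype

/-- Second projection of the pullback. -/
def psnd (β : Γ →* GL (Fin n) ℂ ⧸ Subgroup.center (GL (Fin n) ℂ)) : pull β →* GL (Fin n) ℂ :=
  (MonoidHom.snd Γ (GL (Fin n) ℂ)).comp (pull β).subtype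

theorem pull_spec (β : Γ →* GL (Fin n) ℂ ⧸ Subgroup.center (GL (Fin n) ℂ)) (y : pull β) :
    β (pfst β y) = QuotientGroup.mk' (Subgroup.center (GL (Fin n) ℂ)) (psnd β y) := y.2

theorem pfst_surjective (β : Γ →* GL (Fin n) ℂ ⧸ Subgroup.center (GL (Fin n) ℂ)) :
    Function.Surjective (pfst β) := by
  intro x
  obtain ⟨g, hg⟩ := QuotientGroup.mk'_surjective (Subgroup.center (GL (Fin n) ℂ)) (β x)
  exact ⟨⟨(x, g), hg.symm⟩, rfl⟩

theorem psnd_mem_center (β : Γ →* GL (Fin n) ℂ ⧸ Subgroup.center (GL (Fin n) ℂ)) (y : pull β)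
    (hy : β (pfst β y) = 1) : psnd β y ∈ Subgroup.center (GL (Fin n) ℂ) := by
  have h := pull_spec β y
  rw [hy] at h
  exact (QuotientGroup.eq_one_iff _).mp h.symm

theorem pull_ext (β : Γ →* GL (Fin n) ℂ ⧸ Subgroup.center (GL (Fin n) ℂ)) (y y' : pull β)
    (h1 : pfst β y = pfst β y') (h2 : psnd β y = psnd β y') : y = y' :=
  Subtype.ext (Prod.ext h1 h2)

/-- `β` lifts to a linear representation as soon as the kernel of the pullback meets its
commutator subgroup trivially. -/
theorem exists_lift_of_inf_eq_bot (β : Γ →* GL (Fin n) ℂ ⧸ Subgroup.center (GL (Fin n) ℂ))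
    (h : (pfst β).ker ⊓ commutator (pull β) = ⊥) :
    ∃ ρ : Γ →* GL (Fin n) ℂ,
      (QuotientGroup.mk' (Subgroup.center (GL (Fin n) ℂ))).comp ρ = β := by
  rcases Nat.eq_zero_or_pos n with hn | hn
  · subst hn
    refine ⟨1, ?_⟩
    apply MonoidHom.ext
    intro x
    obtain ⟨g, hg⟩ := QuotientGroup.mk'_surjective (Subgroup.center (GL (Fin 0) ℂ)) (β x)
    rw [← hg]
    exact Subsingleton.elim _ _
  have : Nonempty (Fin n) := ⟨⟨0, hn⟩⟩
  have hinj : Function.Injective (GeneralLinearGroup.scalar (Fin n) : ℂˣ →* GL (Fin n) ℂ) := by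
    intro a b hab
    have h1 : (GeneralLinearGroup.scalar (Fin n) a : Matrix (Fin n) (Fin n) ℂ) ⟨0, hn⟩ ⟨0, hn⟩ =
        (GeneralLinearGroup.scalar (Fin n) b : Matrix (Fin n) (Fin n) ℂ) ⟨0, hn⟩ ⟨0, hn⟩ := by
      rw [hab]
    simp only [GeneralLinearGroup.coe_scalar, Matrix.scalar_apply, Matrix.diagonal_apply_eq] at h1
    exact Units.ext h1
  have hmem : ∀ y : (pfst β).ker, ((psnd β).comp (pfst β).ker.subtype) y ∈
      (GeneralLinearGroup.scalar (Fin n) : ℂˣ →* GL (Fin n) ℂ).range := by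
    intro y
    rw [← GeneralLinearGroup.center_eq_range_scalar]
    apply psnd_mem_center
    have : pfst β (y : pull β) = 1 := y.2
    simp [this]
  let cR : (pfst β).ker →* (GeneralLinearGroup.scalar (Fin n) : ℂˣ →* GL (Fin n) ℂ).range :=
    ((psnd β).comp (pfst β).ker.subtype).codRestrict _ hmem
  let c : (pfst β).ker →* ℂˣ := (MonoidHom.ofInjective hinj).symm.toMonoidHom.comp cR
  have hc : ∀ y : (pfst β).ker, GeneralLinearGroup.scalar (Fin n) (c y) = psnd β (y : pull β) := by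
    intro y
    have h1 : MonoidHom.ofInjective hinj (c y) = cR y :=
      (MonoidHom.ofInjective hinj).apply_symm_apply (cR y)
    have h2 := congrArg Subtype.val h1
    exact h2
  obtain ⟨μ, hμ⟩ := exists_hom_extension (pfst β).ker h c
  have hcen : ∀ y : pull β, GeneralLinearGroup.scalar (Fin n) (μ y) ∈
      Subgroup.center (GL (Fin n) ℂ) := by
    intro y
    rw [GeneralLinearGroup.center_eq_range_scalar]
    exact ⟨_, rfl⟩
  let ρ' : pull β →* GL (Fin n) ℂ := MonoidHom.mk'
    (fun y => (GeneralLinearGroup.scalar (Fin n) (μ y))⁻¹ * psnd β y) (by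
      intro y y'
      have h1 := Subgroup.mem_center_iff.mp (Subgroup.inv_mem _ (hcen y')) (psnd β y)
      have hab : GeneralLinearGroup.scalar (Fin n) (μ y) * GeneralLinearGroup.scalar (Fin n) (μ y') =
          GeneralLinearGroup.scalar (Fin n) (μ y') * GeneralLinearGroup.scalar (Fin n) (μ y) := by
        exact ((Commute.all (μ y) (μ y')).map (GeneralLinearGroup.scalar (Fin n))).eq
      have h1' : ∀ x, psnd β y * ((GeneralLinearGroup.scalar (Fin n) (μ y'))⁻¹ * x) =
          (GeneralLinearGroup.scalar (Fin n) (μ y'))⁻¹ * (psnd β y * x) := by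
        intro x
        rw [← mul_assoc, h1, mul_assoc]
      rw [map_mul, map_mul, map_mul, hab, _root_.mul_inv_rev]
      simp only [mul_assoc]
      rw [h1'])
  have hρ' : ∀ y, ρ' y = (GeneralLinearGroup.scalar (Fin n) (μ y))⁻¹ * psnd β y := fun y => rfl
  have hker : (pfst β).ker ≤ ρ'.ker := by
    intro y hy
    rw [MonoidHom.mem_ker, hρ']
    have h1 := hc ⟨y, hy⟩
    have h2 := hμ ⟨y, hy⟩
    simp only at h1 h2
    rw [h2, h1, inv_mul_cancel]
  refine ⟨(pfst β).liftOfSurjective (pfst_surjective β) ⟨ρ', hker⟩, ?_⟩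
  apply MonoidHom.ext
  intro x
  obtain ⟨y, rfl⟩ := pfst_surjective β x
  have h1 : ((pfst β).liftOfSurjective (pfst_surjective β) ⟨ρ', hker⟩) (pfst β y) = ρ' y :=
    MonoidHom.liftOfRightInverse_comp_apply _ _ _ _ y
  rw [MonoidHom.comp_apply, h1, hρ', pull_spec β y, map_mul]
  have h2 : QuotientGroup.mk' (Subgroup.center (GL (Fin n) ℂ))
      (GeneralLinearGroup.scalar (Fin n) (μ y))⁻¹ = 1 :=
    (QuotientGroup.eq_one_iff _).mpr (Subgroup.inv_mem _ (hcen y))
  rw [h2, one_mul]

end Pull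

section Cover

variable {Q : Type*} [Group Q] [Finite Q] {A : Type*} [CommGroup A]
  {Γ : Type*} [Group Γ] [Finite Γ] {n : ℕ}

/-- For a Schur cover `σ : Γ → Q` and a projective representation `γ` of `Q`, the pullback of
`γ ∘ σ` has kernel meeting the commutator subgroup trivially. -/
theorem ker_inf_commutator_eq_bot_of_cover (hA : Cfsg.HasSchurMultiplier Q A) (σ : Γ →* Q)
    (hσ : Cfsg.IsStemExtension σ) (hk : Nonempty (σ.ker ≃* A))
    (γ : Q →* GL (Fin n) ℂ ⧸ Subgroup.center (GL (Fin n) ℂ)) :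
    (pfst (γ.comp σ)).ker ⊓ commutator (pull (γ.comp σ)) = ⊥ := by
  obtain ⟨hσs, hσc, hσd⟩ := hσ
  obtain ⟨e⟩ := hk
  have hAfin : Finite A := Finite.of_equiv _ e.toEquiv
  set β := γ.comp σ with hβ
  let ξ : pull β →* Q := σ.comp (pfst β)
  have hξs : Function.Surjective ξ := hσs.comp (pfst_surjective β)
  have hξk : ∀ y : pull β, y ∈ ξ.ker ↔ pfst β y ∈ σ.ker := fun y => Iff.rfl
  have hξc : ξ.ker ≤ Subgroup.center (pull β) := by
    intro y hy
    have h1 : pfst β y ∈ Subgroup.center Γ := hσc ((hξk y).mp hy)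
    have h2 : psnd β y ∈ Subgroup.center (GL (Fin n) ℂ) := by
      apply psnd_mem_center
      show γ (σ (pfst β y)) = 1
      rw [MonoidHom.mem_ker.mp ((hξk y).mp hy), map_one]
    rw [Subgroup.mem_center_iff]
    intro w
    apply pull_ext
    · rw [map_mul, map_mul]
      exact Subgroup.mem_center_iff.mp h1 _
    · rw [map_mul, map_mul]
      exact Subgroup.mem_center_iff.mp h2 _
  obtain ⟨f, hf⟩ := Cfsg.Agent.Lib.Helper66.Hopf2.exists_hom_of_hasSchurMultiplier hA ξ hξs hξc
  have hfk : ∀ a, pfst β (f a) ∈ σ.ker := by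
    intro a
    have := (hf (f a)).mpr ⟨a, rfl⟩
    exact (hξk _).mp this.2
  let g : A → σ.ker := fun a => ⟨pfst β (f a), hfk a⟩
  have hgs : Function.Surjective g := by
    rintro ⟨k, hk⟩
    have h1 : k ∈ commutator Γ := hσd hk
    have h2 : commutator Γ = (commutator (pull β)).map (pfst β) := by
      rw [commutator_def, commutator_def, Subgroup.map_commutator,
        ← MonoidHom.range_eq_map, MonoidHom.range_eq_top.mpr (pfst_surjective β)]
    rw [h2] at h1
    obtain ⟨y, hy, rfl⟩ := h1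
    obtain ⟨a, ha⟩ := (hf y).mp ⟨hy, (hξk y).mpr hk⟩
    refine ⟨a, ?_⟩
    apply Subtype.ext
    show pfst β (f a) = pfst β y
    rw [ha]
  have hgi : Function.Injective g := by
    have h1 : Function.Surjective (e ∘ g) := e.surjective.comp hgs
    have h2 : Function.Injective (e ∘ g) := Finite.injective_iff_surjective.mpr h1
    exact fun a b hab => h2 (congrArg e hab)
  rw [eq_bot_iff]
  intro y hy
  obtain ⟨hy1, hy2⟩ := hy
  have hy1' : pfst β y = 1 := hy1
  have hy3 : y ∈ ξ.ker := by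
    rw [hξk, hy1']
    exact Subgroup.one_mem _
  obtain ⟨a, ha⟩ := (hf y).mp ⟨hy2, hy3⟩
  have ha1 : a = 1 := by
    apply hgi
    apply Subtype.ext
    show pfst β (f a) = pfst β (f 1)
    rw [ha, map_one, map_one, hy1']
  rw [Subgroup.mem_bot, ← ha, ha1, map_one]

/-- Every projective representation of `Q` lifts to a linear representation of any Schur
cover of `Q`. -/
theorem exists_lift_of_cover (hA : Cfsg.HasSchurMultiplier Q A) (σ : Γ →* Q)
    (hσ : Cfsg.IsStemExtension σ) (hk : Nonempty (σ.ker ≃* A))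
    (γ : Q →* GL (Fin n) ℂ ⧸ Subgroup.center (GL (Fin n) ℂ)) :
    ∃ ρ : Γ →* GL (Fin n) ℂ,
      (QuotientGroup.mk' (Subgroup.center (GL (Fin n) ℂ))).comp ρ = γ.comp σ :=
  exists_lift_of_inf_eq_bot (γ.comp σ) (ker_inf_commutator_eq_bot_of_cover hA σ hσ hk γ)

end Cover

end Cfsg.Agent.Lib.Helper78.ProjSchur
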