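import Mathlib
import Cfsg.Prelude.Def_KGroupFacts
import Cfsg.Prelude.Def_Characters
import Cfsg.Agent.Lib.CT.MatCoeff
import Cfsg.Agent.Lib.CT.Orth
import Cfsg.Agent.Lib.Helper78.ProjSchur

set_option autoImplicit false

/-!
# Projective representations and Schur multipliers, part 2 (helper78)

* `exists_scalar_rep`: a nontrivial element `l` of a finite group is moved by some
  representation `τ : Δ →* GL n ℂ` mapping the centre into the scalars.
* `exists_descend`: such a `τ` induces a projective representation of any central quotient.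
* `card_ker_le_of_lift`: if every projective representation of `Q` lifts along the stem
  extension `σ`, then every finite stem extension of `Q` has kernel of order at most `|ker σ|`.
-/

namespace Cfsg.Agent.Lib.Helper78.ProjSchur2

open Matrix Cfsg Cfsg.Agent.Lib.CT Cfsg.Agent.Lib.CT.MatCoeff Cfsg.Agent.Lib.Helper78.ProjSchur

/-- A nontrivial element of a finite group is moved by a representation that maps the centre
into the scalar matrices. -/
theorem exists_scalar_rep {Δ : Type*} [Group Δ] [Finite Δ] (l : Δ) (hl : l ≠ 1) :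
    ∃ (n : ℕ) (τ : Δ →* GL (Fin n) ℂ),
      (∀ z ∈ Subgroup.center Δ, τ z ∈ Subgroup.center (GL (Fin n) ℂ)) ∧ τ l ≠ 1 := by
  have h1 : ∃ χ : IrrCharacter Δ, (χ : Δ → ℂ) l ≠ (χ : Δ → ℂ) 1 := by
    by_contra hno
    push Not at hno
    have := Cfsg.Agent.Lib.CT.Orth.isConj_of_irr_eq l 1 hno
    exact hl (isConj_one_left.mp this)
  obtain ⟨⟨χ, n, ρ, hirr, hρ⟩, hχ⟩ := h1
  let f : Δ →* Matrix (Fin n) (Fin n) ℂ :=
    { toFun := fun g => mat ρ g
      map_one' := mat_one ρ
      map_mul' := mat_mul ρ }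
  refine ⟨n, f.toHomUnits, ?_, ?_⟩
  · intro z hz
    rw [GeneralLinearGroup.mem_center_iff_val_mem_range_scalar]
    obtain ⟨c, hc⟩ := schur_scalar ρ (mat ρ z) (by
      intro g
      rw [← mat_mul, ← mat_mul, Subgroup.mem_center_iff.mp hz g])
    refine ⟨c, ?_⟩
    show Matrix.scalar (Fin n) c = mat ρ z
    rw [hc, Matrix.scalar_apply, Matrix.smul_one_eq_diagonal]
  · intro h
    apply hχ
    have h2 : mat ρ l = 1 := by
      have := congrArg (fun u : GL (Fin n) ℂ => (u : Matrix (Fin n) (Fin n) ℂ)) h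
      exact this
    show χ l = χ 1
    rw [← hρ, character_eq_trace, character_eq_trace, h2, mat_one]

/-- A representation mapping the centre to scalars induces a projective representation of a
central quotient. -/
theorem exists_descend {Δ Q : Type*} [Group Δ] [Group Q] (τ₀ : Δ →* Q)
    (hs : Function.Surjective τ₀) (hc : τ₀.ker ≤ Subgroup.center Δ) {n : ℕ}
    (τ : Δ →* GL (Fin n) ℂ)
    (hτ : ∀ z ∈ Subgroup.center Δ, τ z ∈ Subgroup.center (GL (Fin n) ℂ)) :
    ∃ γ : Q →* GL (Fin n) ℂ ⧸ Subgroup.center (GL (Fin n) ℂ),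
      γ.comp τ₀ = (QuotientGroup.mk' (Subgroup.center (GL (Fin n) ℂ))).comp τ := by
  have hker : τ₀.ker ≤ ((QuotientGroup.mk' (Subgroup.center (GL (Fin n) ℂ))).comp τ).ker := by
    intro z hz
    rw [MonoidHom.mem_ker, MonoidHom.comp_apply]
    exact (QuotientGroup.eq_one_iff _).mpr (hτ z (hc hz))
  refine ⟨τ₀.liftOfSurjective hs ⟨_, hker⟩, ?_⟩
  apply MonoidHom.ext
  intro d
  have h1 : (τ₀.liftOfSurjective hs ⟨(QuotientGroup.mk' (Subgroup.center (GL (Fin n) ℂ))).comp τ,
      hker⟩) (τ₀ d) = ((QuotientGroup.mk' (Subgroup.center (GL (Fin n) ℂ))).comp τ) d :=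
    MonoidHom.liftOfRightInverse_comp_apply _ _ _ _ d
  exact h1

section Core

variable {Q : Type*} [Group Q] {Γ : Type*} [Group Γ] [Finite Γ] {Δ : Type*} [Group Δ] [Finite Δ]

/-- If every projective representation of `Q` lifts along the stem extension `σ`, then every
finite stem extension of `Q` has kernel of order at most `|ker σ|`. -/
theorem card_ker_le_of_lift (σ : Γ →* Q) (hσs : Function.Surjective σ)
    (hlift : ∀ (n : ℕ) (γ : Q →* (GL (Fin n) ℂ ⧸ Subgroup.center (GL (Fin n) ℂ))),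
      ∃ ρ : Γ →* GL (Fin n) ℂ,
        (QuotientGroup.mk' (Subgroup.center (GL (Fin n) ℂ))).comp ρ = γ.comp σ)
    (τ₀ : Δ →* Q) (hτ₀ : Cfsg.IsStemExtension τ₀) :
    Nat.card τ₀.ker ≤ Nat.card σ.ker := by
  obtain ⟨hτs, hτc, hτd⟩ := hτ₀
  let W : Subgroup (Γ × Δ) :=
    MonoidHom.eqLocus (σ.comp (MonoidHom.fst Γ Δ)) (τ₀.comp (MonoidHom.snd Γ Δ))
  let wf : W →* Γ := (MonoidHom.fst Γ Δ).comp W.subtype
  let ws : W →* Δ := (MonoidHom.snd Γ Δ).comp W.subtype
  have hW : ∀ w : W, σ (wf w) = τ₀ (ws w) := fun w => w.2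
  have hws : Function.Surjective ws := by
    intro d
    obtain ⟨x, hx⟩ := hσs (τ₀ d)
    exact ⟨⟨(x, d), hx⟩, rfl⟩
  let D : Subgroup W := commutator W ⊓ (σ.comp wf).ker
  have hD : ∀ w : D, wf (w : W) ∈ σ.ker := fun w => w.2.2
  have hD' : ∀ w : D, ws (w : W) ∈ τ₀.ker := by
    intro w
    rw [MonoidHom.mem_ker, ← hW]
    exact hD w
  let φ : D → σ.ker := fun w => ⟨wf (w : W), hD w⟩
  let ψ : D → τ₀.ker := fun w => ⟨ws (w : W), hD' w⟩
  have hψ : Function.Surjective ψ := by
    rintro ⟨l, hl⟩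
    have h1 : l ∈ commutator Δ := hτd hl
    have h2 : commutator Δ = (commutator W).map ws := by
      rw [commutator_def, commutator_def, Subgroup.map_commutator,
        ← MonoidHom.range_eq_map, MonoidHom.range_eq_top.mpr hws]
    rw [h2] at h1
    obtain ⟨w, hw, rfl⟩ := h1
    have hw2 : w ∈ (σ.comp wf).ker := by
      rw [MonoidHom.mem_ker, MonoidHom.comp_apply, hW]
      exact hl
    exact ⟨⟨w, hw, hw2⟩, rfl⟩
  have key : ∀ w : W, w ∈ commutator W → wf w = 1 → ws w = 1 := by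
    intro w hw hw1
    by_contra hl
    have hlk : ws w ∈ τ₀.ker := by
      rw [MonoidHom.mem_ker, ← hW, hw1, map_one]
    obtain ⟨n, τ, hτcen, hτl⟩ := exists_scalar_rep (ws w) hl
    obtain ⟨γ, hγ⟩ := exists_descend τ₀ hτs hτc τ hτcen
    obtain ⟨ρ, hρ⟩ := hlift n γ
    have hmem : ∀ v : W, (ρ (wf v))⁻¹ * τ (ws v) ∈ Subgroup.center (GL (Fin n) ℂ) := by
      intro v
      rw [← QuotientGroup.eq_one_iff, QuotientGroup.mk_mul, QuotientGroup.mk_inv]
      have e1 : (QuotientGroup.mk (ρ (wf v)) : GL (Fin n) ℂ ⧸ Subgroup.center (GL (Fin n) ℂ)) =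
          γ (σ (wf v)) := DFunLike.congr_fun hρ (wf v)
      have e2 : γ (τ₀ (ws v)) =
          (QuotientGroup.mk (τ (ws v)) : GL (Fin n) ℂ ⧸ Subgroup.center (GL (Fin n) ℂ)) :=
        DFunLike.congr_fun hγ (ws v)
      rw [e1, ← e2, hW, inv_mul_cancel]
    let ν : W →* GL (Fin n) ℂ := MonoidHom.mk'
      (fun v => (ρ (wf v))⁻¹ * τ (ws v)) (by
        intro v v'
        have hc := Subgroup.mem_center_iff.mp (hmem v) (ρ (wf v'))⁻¹
        rw [map_mul, map_mul, map_mul, map_mul, _root_.mul_inv_rev, ← mul_assoc _ (ρ (wf v'))⁻¹,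
          ← hc]
        simp only [mul_assoc])
    have hνd : ∀ v, ν v = (ρ (wf v))⁻¹ * τ (ws v) := fun v => rfl
    have hle : commutator W ≤ ν.ker := by
      rw [commutator_def, Subgroup.commutator_le]
      intro a _ b _
      rw [MonoidHom.mem_ker, map_commutatorElement, commutatorElement_eq_one_iff_commute]
      have := Subgroup.mem_center_iff.mp (hmem a) (ν b)
      rw [← hνd] at this
      exact this.symm
    have hν'' : (ρ (wf w))⁻¹ * τ (ws w) = 1 := hle hw
    rw [hw1, map_one, inv_one, one_mul] at hν''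
    exact hτl hν''
  have hφ : Function.Injective φ := by
    intro a b hab
    have h1 : wf (a : W) = wf (b : W) := congrArg Subtype.val hab
    have h2 : wf ((a : W) * (b : W)⁻¹) = 1 := by
      rw [map_mul, map_inv, h1, mul_inv_cancel]
    have h3 : (a : W) * (b : W)⁻¹ ∈ commutator W :=
      Subgroup.mul_mem _ a.2.1 (Subgroup.inv_mem _ b.2.1)
    have h4 := key _ h3 h2
    have h5 : (a : W) * (b : W)⁻¹ = 1 := Subtype.ext (Prod.ext h2 h4)
    exact Subtype.ext (mul_inv_eq_one.mp h5)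
  calc Nat.card τ₀.ker ≤ Nat.card D := Nat.card_le_card_of_surjective ψ hψ
    _ ≤ Nat.card σ.ker := Nat.card_le_card_of_injective φ hφ

end Core

end Cfsg.Agent.Lib.Helper78.ProjSchur2
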