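import Mathlib
import Cfsg.Agent.Lib.Helper39.TLStmt
import Cfsg.Agent.S0100

set_option autoImplicit false

/-! S4404 piece [RANK] (second seat): if a Sylow 3-subgroup `T` has no normal elementary abelian
subgroup of order 27, then the elementary abelian 3-subgroups of `S` have order at most 9
(`S0100` for the group `↥T`, Sylow conjugacy). -/

namespace Cfsg.Agent.Lib.Helper78.TLRANK

open Cfsg Cfsg.Agent.Lib.Helper39.TLStmt
open scoped Pointwise

universe u

theorem main : Rank.{u} := by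
  intro S _ _ T hT B hB
  have h3 : Fact (Nat.Prime 3) := ⟨by norm_num⟩
  obtain ⟨hBc, hBe⟩ := hB
  have hBcomm : ∀ a b : ↥B, a * b = b * a := isMulCommutative_iff.mp hBc
  have hBp : IsPGroup 3 ↥B := by
    intro b
    refine ⟨1, ?_⟩
    apply Subtype.ext
    have h1 := hBe b.1 b.2
    simpa using h1
  obtain ⟨Q, hQ⟩ := hBp.exists_le_sylow
  obtain ⟨g, hg⟩ := MulAction.exists_smul_eq S Q T
  have hQT : MulAut.conj g • (Q : Subgroup S) = (T : Subgroup S) := by
    rw [← Sylow.coe_subgroup_smul, hg]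
  have hconj : ∀ b ∈ B, g * b * g⁻¹ ∈ (T : Subgroup S) := by
    intro b hb
    have h1 : MulAut.conj g • b ∈ MulAut.conj g • (Q : Subgroup S) :=
      Subgroup.smul_mem_pointwise_smul b (MulAut.conj g) (Q : Subgroup S) (hQ hb)
    rw [hQT] at h1
    simpa [MulAut.smul_def] using h1
  let φ : ↥B →* ↥(T : Subgroup S) :=
    { toFun := fun b => ⟨g * b.1 * g⁻¹, hconj b.1 b.2⟩
      map_one' := by
        apply Subtype.ext
        simp
      map_mul' := by
        intro a b
        apply Subtype.ext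
        simp [mul_assoc] }
  have hφ : Function.Injective φ := by
    intro a b hab
    have h1 : g * a.1 * g⁻¹ = g * b.1 * g⁻¹ := congrArg Subtype.val hab
    apply Subtype.ext
    have h2 : g * a.1 = g * b.1 := mul_right_cancel h1
    exact mul_left_cancel h2
  have hcardR : Nat.card ↥φ.range = Nat.card ↥B :=
    (Nat.card_congr (MonoidHom.ofInjective hφ).toEquiv).symm
  have hRc : IsMulCommutative ↥φ.range := by
    refine isMulCommutative_iff.mpr ?_
    rintro ⟨x, a, rfl⟩ ⟨y, b, rfl⟩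
    apply Subtype.ext
    change φ a * φ b = φ b * φ a
    rw [← map_mul, ← map_mul, hBcomm a b]
  have hRe : ∀ e ∈ φ.range, e ^ 3 = 1 := by
    rintro e ⟨b, rfl⟩
    have hb3 : b ^ 3 = 1 := by
      apply Subtype.ext
      have h1 := hBe b.1 b.2
      simpa using h1
    rw [← map_pow, hb3, map_one]
  have hno : ∀ A : Subgroup ↥(T : Subgroup S), A.Normal → IsMulCommutative A →
      (∀ a ∈ A, a ^ 3 = 1) → Nat.card A ≠ 3 ^ 3 := by
    intro A hAn hAc hAe hcard
    have hAcomm : ∀ a b : ↥A, a * b = b * a := isMulCommutative_iff.mp hAc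
    refine hT (A.map (T : Subgroup S).subtype) (Subgroup.map_subtype_le A) ?_ ⟨?_, ?_⟩ ?_
    · rintro t ht _ ⟨a0, ha0, rfl⟩
      refine ⟨⟨t, ht⟩ * a0 * ⟨t, ht⟩⁻¹, hAn.conj_mem a0 ha0 ⟨t, ht⟩, ?_⟩
      simp
    · refine isMulCommutative_iff.mpr ?_
      rintro ⟨_, a, ha, rfl⟩ ⟨_, b, hb, rfl⟩
      apply Subtype.ext
      have h1 := hAcomm ⟨a, ha⟩ ⟨b, hb⟩
      have h2 : a * b = b * a := congrArg Subtype.val h1
      have h3 : ((a * b : ↥(T : Subgroup S)) : S) = ((b * a : ↥(T : Subgroup S)) : S) :=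
        congrArg Subtype.val h2
      simpa using h3
    · rintro _ ⟨a0, ha0, rfl⟩
      have h1 := hAe a0 ha0
      have h2 : ((a0 ^ 3 : ↥(T : Subgroup S)) : S) = ((1 : ↥(T : Subgroup S)) : S) :=
        congrArg Subtype.val h1
      simpa using h2
    · rw [Subgroup.card_map_of_injective (Subgroup.subtype_injective _), hcard]
      norm_num
  have hfin := Cfsg.Agent.S0100.result (P := ↥(T : Subgroup S)) (p := 3) (by norm_num)
    T.isPGroup' hno φ.range hRc hRe
  rw [hcardR] at hfin
  calc Nat.card ↥B ≤ 3 ^ 2 := hfin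
    _ = 9 := by norm_num

end Cfsg.Agent.Lib.Helper78.TLRANK
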